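import Cfsg.Agent.MaxSub.TensorSquareThree.Main
import Cfsg.Agent.GraphForms.Symm
import Cfsg.Agent.GeoClasses.OrthMaxBase
import Cfsg.Agent.GeoClasses.Tensor

/-!
The tensor square of the orthogonal group in dimension three is maximal in `Ω₉`.
-/

set_option autoImplicit false
set_option linter.unusedSectionVars false
set_option linter.style.haveILetI false

namespace Cfsg.Agent.MaxSub.TensorSquareThree

open QuadraticMap Module Cfsg.Agent.Classical Matrix
open Cfsg.Agent.Forms (refls refls_mem_commutator_iff)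
open Cfsg.Geo (omegaGL IsMaximalIn tensorWreathSubgroup tensorWreathStandard IsPureTensor
  IsFactorPermutation glReindex gramMatrix)
open scoped MatrixGroups

universe u v

lemma reindex_mulVec {R : Type*} [CommSemiring R] {ι κ : Type*} [Fintype ι] [Fintype κ]
    (en : ι ≃ κ) (T : Matrix κ κ R) (w : κ → R) :
    Matrix.reindex en.symm en.symm T *ᵥ (w ∘ en) = (T *ᵥ w) ∘ en := by
  funext i
  exact Fintype.sum_equiv en _ _ fun j => rfl

lemma sum_fun_two {α R : Type*} [Fintype α] [AddCommMonoid R] (f : (Fin 2 → α) → R) :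
    ∑ a, f a = ∑ i, ∑ j, f ![i, j] := by
  rw [← Fintype.sum_prod_type']
  refine Fintype.sum_equiv (finTwoArrowEquiv α) _ _ fun a => ?_
  congr 1
  funext i
  fin_cases i <;> rfl

section Model

variable {F : Type u} [Field F] [Fintype F] [Fact ((2 : F) ≠ 0)]

lemma finrankm : finrank F (Matrix (Fin 3) (Fin 3) F) = 9 := by
  rw [Module.finrank_matrix, Module.finrank_self, Fintype.card_fin]

lemma notExcm : OrthGen.NotExceptional (Qm F) := OrthGen.notExceptional_of_two_ne_zero two0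

lemma commutator_map_le {G₁ G₂ : Type*} [Group G₁] [Group G₂] (f : G₁ →* G₂) {x : G₁}
    (hx : x ∈ commutator G₁) : f x ∈ commutator G₂ := by
  have h : (commutator G₁).map f ≤ commutator G₂ := by
    rw [commutator_def, commutator_def, Subgroup.map_commutator]
    exact Subgroup.commutator_mono le_top le_top
  exact h ⟨x, hx, rfl⟩

/-- The action on the left factor. -/
noncomputable def leftHom : O3 F →* OQ (Qm F) where
  toFun A := G A 1
  map_one' := G_one
  map_mul' A B := by rw [G_mul, one_mul]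

/-- The action on the right factor. -/
noncomputable def rightHom : O3 F →* OQ (Qm F) where
  toFun A := G 1 A
  map_one' := G_one
  map_mul' A B := by rw [G_mul, one_mul]

lemma diag_mem_commutator (A : O3 F) : G A A ∈ commutator (OQ (Qm F)) := by
  have h1 : G A A⁻¹ ∈ commutator (OQ (Qm F)) := by
    have h := Subgroup.commutator_mem_commutator (Subgroup.mem_top (G A 1))
      (Subgroup.mem_top (sw : OQ (Qm F)))
    rw [commutatorElement_def, sw_inv, G_inv, inv_one, mul_assoc (G A 1) sw, sw_G, ← mul_assoc,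
      G_mul, one_mul, mul_one, mul_assoc, sw_sq, mul_one] at h
    rw [commutator_def]
    exact h
  have h2 : G 1 (A * A) ∈ commutator (OQ (Qm F)) :=
    commutator_map_le rightHom (Forms.mul_self_mem_commutator (bnondeg3 two0) (notExc3 two0) A)
  have := mul_mem h1 h2
  rwa [G_mul, mul_one, inv_mul_cancel_left] at this

lemma Qm_col (a : Fin 3 → F) (j : Fin 3) : Qm F (vecMulVec a (e j)) = Q3 F a := by
  rw [Qm_vmv, ← Q3_dot, ← Q3_dot, Q3_e, mul_one]

/-- The three vectors carrying a reflection of the left factor. -/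
def triple (x : {x : Fin 3 → F // Q3 F x ≠ 0}) :
    List {X : Matrix (Fin 3) (Fin 3) F // Qm F X ≠ 0} :=
  [⟨vecMulVec x.1 (e 0), by rw [Qm_col]; exact x.2⟩,
    ⟨vecMulVec x.1 (e 1), by rw [Qm_col]; exact x.2⟩,
    ⟨vecMulVec x.1 (e 2), by rw [Qm_col]; exact x.2⟩]

lemma refls_triple (x : {x : Fin 3 → F // Q3 F x ≠ 0}) :
    refls (Qm F) (triple x) = G (reflQ (Q3 F) x.1 x.2) 1 := by
  refine extm fun X => ?_
  have hM : mat (reflQ (Q3 F) x.1 x.2) = 1 - ((Q3 F x.1)⁻¹ * 2) • vecMulVec x.1 x.1 := by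
    refine Matrix.ext_iff_mulVec.2 fun v => ?_
    rw [mat_mulVec, reflQ_apply, sub_mulVec, one_mulVec, smul_mulVec, vecMulVec_mulVec,
      polar_Q3_dot, op_smul_eq_smul, smul_smul, mul_assoc]
  rw [G_apply, hM, mat_one, transpose_one, mul_one]
  simp only [triple, Forms.refls_cons, Forms.refls_nil, mul_one, mul_applym, reflQ_apply,
    polar_sub_right, polar_smul_right, polar_vmv, vecMulVec_mulVec, Qm_col]
  ext i j
  simp only [Matrix.sub_apply, Matrix.smul_apply, Matrix.sub_mul, Matrix.smul_mul, Matrix.one_mul,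
    vecMulVec_apply, smul_eq_mul, op_smul_eq_smul, dotProduct_smul, Matrix.mul_apply,
    Fin.sum_univ_three, dotProduct, mulVec, Pi.smul_apply]
  fin_cases i <;> fin_cases j <;> simp [e, Matrix.one_apply] <;> ring

lemma refls_flatMap (l : List {x : Fin 3 → F // Q3 F x ≠ 0}) :
    refls (Qm F) (l.flatMap triple) = G (refls (Q3 F) l) 1 ∧
      (l.flatMap triple).length = 3 * l.length ∧
      ((l.flatMap triple).map fun X => Qm F X.1).prod = ((l.map fun x => Q3 F x.1).prod) ^ 3 := by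
  induction l with
  | nil => exact ⟨G_one.symm, rfl, by simp⟩
  | cons x l ih =>
    obtain ⟨h1, h2, h3⟩ := ih
    refine ⟨?_, ?_, ?_⟩
    · rw [List.flatMap_cons, Forms.refls_append, h1, refls_triple, Forms.refls_cons, G_mul, one_mul]
    · rw [List.flatMap_cons, List.length_append, h2, List.length_cons]; simp [triple]; omega
    · rw [List.flatMap_cons, List.map_append, List.prod_append, h3, List.map_cons, List.prod_cons]
      simp only [triple, List.map_cons, List.map_nil, List.prod_cons, List.prod_nil, Qm_col]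
      ring

lemma left_mem_commutator_iff (A : O3 F) :
    G A 1 ∈ commutator (OQ (Qm F)) ↔ A ∈ U3 F := by
  haveI := finiteOQm (F := F)
  haveI : Finite (Matrix (Fin 3) (Fin 3) F) := Pi.finite
  refine ⟨fun h => ?_, commutator_map_le leftHom⟩
  obtain ⟨l, rfl⟩ := Forms.exists_refls (OrthGen.RQ_eq_top (bnondeg3 two0) (notExc3 two0)) A
  obtain ⟨h1, h2, h3⟩ := refls_flatMap l
  rw [← h1, refls_mem_commutator_iff (bnondegm two0) notExcm, h2, h3] at h
  rw [refls_mem_commutator_iff (bnondeg3 two0) (notExc3 two0)]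
  refine ⟨?_, ?_⟩
  · obtain ⟨k, hk⟩ := h.1
    exact Nat.even_iff.2 (by omega)
  · have hne : (l.map fun x => Q3 F x.1).prod ≠ 0 := List.prod_ne_zero fun h0 => by
      obtain ⟨y, -, hy⟩ := List.mem_map.1 h0
      exact y.2 hy
    have h' := h.2
    rwa [pow_succ, Forms.isSquare_sq_mul_iff hne] at h'

lemma G_mem_commutator_iff (A B : O3 F) :
    G A B ∈ commutator (OQ (Qm F)) ↔ A * B⁻¹ ∈ U3 F := by
  rw [← left_mem_commutator_iff, show G A B = G (A * B⁻¹) 1 * G B B by
    rw [G_mul, inv_mul_cancel_right, one_mul], Subgroup.mul_mem_cancel_right _ (diag_mem_commutator B)]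

lemma exists_swap_mem : ∃ κ : O3 F, G κ 1 * sw ∈ commutator (OQ (Qm F)) := by
  haveI := finiteOQm (F := F)
  haveI : Finite (Matrix (Fin 3) (Fin 3) F) := Pi.finite
  obtain ⟨k, ⟨κ, rfl⟩, hk⟩ := Forms.exists_mul_mem_commutator (bnondegm two0) notExcm
    (leftHom (F := F)).range sw
    (Or.inr ⟨_, ⟨reflQ (Q3 F) (e 0) (Q3_e_ne 0), rfl⟩, by
      show dickson (G (reflQ (Q3 F) (e 0) (Q3_e_ne 0)) 1) = -1
      rw [← refls_triple ⟨_, Q3_e_ne 0⟩, Forms.dickson_refls (bnondegm two0),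
        show (triple (⟨_, Q3_e_ne 0⟩ : {x : Fin 3 → F // Q3 F x ≠ 0})).length = 3 from rfl]
      decide⟩)
    (fun _ => by
      obtain ⟨H, hHH, hdH, -, hHU⟩ := exists_nonsquare_hturn (two0 (F := F)) 0
      refine ⟨_, ⟨H, rfl⟩, ?_, fun h => hHU ((left_mem_commutator_iff H).1 h)⟩
      obtain ⟨l, rfl⟩ := Forms.exists_refls (OrthGen.RQ_eq_top (bnondeg3 two0) (notExc3 two0)) H
      show dickson (G (refls (Q3 F) l) 1) = 1
      obtain ⟨h1, h2, -⟩ := refls_flatMap l
      rw [dick_apply, Forms.dickson_refls (bnondeg3 two0)] at hdH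
      rw [← h1, Forms.dickson_refls (bnondegm two0), h2, mul_comm, pow_mul, hdH, one_pow])
  exact ⟨κ, hk⟩

/-- The stabiliser of the decomposition meets `Ω` in a maximal subgroup. -/
theorem maximal_of_le (hq : 5 ≤ Nat.card F) {W M : Subgroup (OQ (Qm F))} (hW : Nt ≤ W)
    (hM : W ⊓ commutator (OQ (Qm F)) ≤ M) (hle : M ≤ commutator (OQ (Qm F))) :
    M = W ⊓ commutator (OQ (Qm F)) ∨ M = commutator (OQ (Qm F)) := by
  by_cases hbad : commutator (OQ (Qm F)) ≤ M
  · exact Or.inr (le_antisymm hle hbad)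
  have hHyp : Hyp M := by
    refine ⟨fun A B => ⟨fun h => (G_mem_commutator_iff A B).1 (hle h), fun h =>
      hM ⟨hW (G_mem_Nt A B), (G_mem_commutator_iff A B).2 h⟩⟩, ?_, hbad⟩
    obtain ⟨κ, hκ⟩ := exists_swap_mem (F := F)
    exact ⟨κ, hM ⟨hW ⟨κ, 1, Or.inr rfl⟩, hκ⟩⟩
  exact Or.inl (le_antisymm (le_inf ((hHyp.le_Nt hq).trans hW) hle) hM)

/-- An element of `Ω` not preserving the matrices of rank one. -/
lemma exists_outside : ∃ g ∈ commutator (OQ (Qm F)), ∃ u v : Fin 3 → F,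
    ∀ u' v', g.1 (vecMulVec u v) ≠ vecMulVec u' v' := by
  obtain ⟨z, f, h, hF⟩ := exists_frame3 (F := F) two0
  have hu : Qm F (vecMulVec z z) = 0 := by rw [Qm_vmv, hF.zz, mul_zero]
  have ha : polar (Qm F) (vecMulVec z z) (vecMulVec h h) = 0 := by
    rw [polar_vmv_vmv, hF.zh, mul_zero, mul_zero]
  refine ⟨siegel (Qm F) hu ha, ?_, f, f, fun u' v' heq => ?_⟩
  · rw [GeoClasses.commutator_eq_EQ (bnondegm two0) (by rw [finrankm]; norm_num)]
    exact siegel_mem_EQ _ hu ha
  have hfz : f ⬝ᵥ z = 1 := by rw [dotProduct_comm]; exact hF.zf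
  have hhz : h ⬝ᵥ z = 0 := by rw [dotProduct_comm]; exact hF.zh
  have hhf : h ⬝ᵥ f = 0 := by rw [dotProduct_comm]; exact hF.fh
  rw [siegel_apply, polar_vmv_vmv, polar_vmv_vmv, Qm_vmv, hF.zf, hhf, hF.hh] at heq
  have hval : ∀ x y : Fin 3 → F, x ⬝ᵥ (vecMulVec u' v') *ᵥ y = (x ⬝ᵥ u') * (v' ⬝ᵥ y) := fun x y => by
    rw [vecMulVec_mulVec, op_smul_eq_smul, dotProduct_smul, smul_eq_mul, mul_comm]
  have h11 := hval z z
  have h22 := hval f f
  have h12 := hval z f
  have h21 := hval f z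
  rw [← heq] at h11 h22 h12 h21
  simp [sub_mulVec, add_mulVec, smul_mulVec, vecMulVec_mulVec, hF.zz, hF.ff, hF.zf, hfz,
    hF.zh, hF.fh, hhz, hhf] at h11 h22 h12 h21
  have h2 : (2 : F) * 1 = 0 := by
    have e : ((z ⬝ᵥ u') * (v' ⬝ᵥ z)) * ((f ⬝ᵥ u') * (v' ⬝ᵥ f)) =
        ((z ⬝ᵥ u') * (v' ⬝ᵥ f)) * ((f ⬝ᵥ u') * (v' ⬝ᵥ z)) := by ring
    rw [← h11, ← h22] at e
    rcases h12 with h | h <;> rw [h] at e <;> simp at e <;> linear_combination e
  exact two0 (by rwa [mul_one] at h2)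

end Model

/-! ### Transfer to the matrix group -/

lemma det_gramMatrix_ne {F : Type u} [Field F] {f : (Fin 3 → F) → (Fin 3 → F) → F}
    (hf : Cfsg.Geo.IsSymmetricForm f) : (gramMatrix f).det ≠ 0 := by
  intro h
  obtain ⟨v, hv0, hv⟩ := Matrix.exists_mulVec_eq_zero_iff.2 h
  let B : LinearMap.BilinForm F (Fin 3 → F) := LinearMap.mk₂ F f
    hf.bilinear.add_left hf.bilinear.smul_left hf.bilinear.add_right hf.bilinear.smul_right
  obtain ⟨x, hx⟩ := (hf.nondegenerate v hv0).1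
  refine hx ?_
  show B x v = 0
  rw [← Matrix.toBilin'_toMatrix' B, Matrix.toBilin'_apply']
  have hG : LinearMap.BilinForm.toMatrix' B = gramMatrix f := by
    ext i j
    rw [LinearMap.BilinForm.toMatrix'_apply]; rfl
  rw [hG, hv, dotProduct_zero]

/-- The tensor square clause. -/
theorem omega_tensor_square_maximal {F : Type u} [Field F] [Fintype F] {ι : Type} [Fintype ι]
    [DecidableEq ι] (hodd : Odd (Fintype.card F)) (hq : 5 ≤ Fintype.card F) {Q : (ι → F) → F}
    (hQ : Cfsg.Geo.IsNondegenerateQuadraticForm Q) (en : ι ≃ (Fin 2 → Fin 3)) (P : GL ι F)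
    (f₁ : (Fin 3 → F) → (Fin 3 → F) → F) (hf₁ : Cfsg.Geo.IsSymmetricForm f₁)
    (hT : Cfsg.Geo.IsTensorPowerFormStructure id (QuadraticMap.polar Q) f₁ en P) :
    IsMaximalIn (omegaGL Q) (tensorWreathSubgroup 3 2 en P ⊓ omegaGL Q) := by
  classical
  haveI hF2 : Fact ((2 : F) ≠ 0) :=
    ⟨Cfsg.Agent.Classical.two_ne_zero_of_odd (by rwa [Nat.card_eq_fintype_card])⟩
  have hq' : 5 ≤ Nat.card F := by rwa [Nat.card_eq_fintype_card]
  set Qf := GeoClasses.toQF hQ with hQf
  have hcoe : ⇑Qf = Q := GeoClasses.coe_toQF hQ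
  obtain ⟨c, hc0, hc⟩ := hT
  set Gm := gramMatrix f₁ with hGm
  have hGt : Gmᵀ = Gm := by ext i j; exact hf₁.symm _ _
  have hdet := det_gramMatrix_ne hf₁
  rw [← hGm] at hdet
  obtain ⟨R, hR⟩ := GraphForms.exists_congr_of_isSquare (two0 (F := F))
    (A := Gm.det⁻¹ • Gm) (B := (1 : Matrix (Fin 3) (Fin 3) F))
    (by rw [transpose_smul, hGt]) transpose_one
    (by rw [det_smul]; exact mul_ne_zero (pow_ne_zero _ (inv_ne_zero hdet)) hdet)
    (by rw [det_one]; exact one_ne_zero)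
    ⟨Gm.det⁻¹, by rw [det_one, mul_one, det_smul, Fintype.card_fin]; field_simp⟩
  rw [Matrix.mul_one] at hR
  have hGR : Gm = Gm.det • ((R : Matrix (Fin 3) (Fin 3) F)ᵀ * R) := by
    rw [hR, smul_smul, mul_inv_cancel₀ hdet, one_smul]
  set Rm : Matrix (Fin 3) (Fin 3) F := (R : Matrix (Fin 3) (Fin 3) F) with hRm
  set Ri : Matrix (Fin 3) (Fin 3) F := ((R⁻¹ : GL (Fin 3) F) : Matrix (Fin 3) (Fin 3) F) with hRi
  have hRR : Rm * Ri = 1 := R.mul_inv
  have hRR' : Ri * Rm = 1 := R.inv_mul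
  have hRT : Rmᵀ * Riᵀ = 1 := by rw [← transpose_mul, hRR', transpose_one]
  have hRT' : Riᵀ * Rmᵀ = 1 := by rw [← transpose_mul, hRR, transpose_one]
  set Pm : Matrix ι ι F := (P : Matrix ι ι F) with hPm
  set Pi' : Matrix ι ι F := ((P⁻¹ : GL ι F) : Matrix ι ι F) with hPi
  have hPP : Pm * Pi' = 1 := P.mul_inv
  have hPP' : Pi' * Pm = 1 := P.inv_mul
  -- flattening
  let tup : Fin 3 → Fin 3 → (Fin 2 → Fin 3) := fun a b => ![a, b]
  have htup : ∀ x : Fin 2 → Fin 3, tup (x 0) (x 1) = x := fun x => funext fun i => by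
    fin_cases i <;> rfl
  let flat : Matrix (Fin 3) (Fin 3) F →ₗ[F] ((Fin 2 → Fin 3) → F) :=
    { toFun := fun Y x => Y (x 0) (x 1), map_add' := fun _ _ => rfl, map_smul' := fun _ _ => rfl }
  have hflat : ∀ Y x, flat Y x = Y (x 0) (x 1) := fun _ _ => rfl
  let unflat : ((Fin 2 → Fin 3) → F) →ₗ[F] Matrix (Fin 3) (Fin 3) F :=
    { toFun := fun w => Matrix.of fun a b => w (tup a b)
      map_add' := fun _ _ => rfl, map_smul' := fun _ _ => rfl }
  have hfu : ∀ w, flat (unflat w) = w := fun w => funext fun x => congrArg w (htup x)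
  have huf : ∀ Y, unflat (flat Y) = Y := fun Y => by ext a b; rfl
  let Ψl : Matrix (Fin 3) (Fin 3) F →ₗ[F] (ι → F) :=
    (Matrix.toLin' Pm).comp ((LinearMap.funLeft F F en).comp
      (flat.comp ((LinearMap.mulRight F Riᵀ).comp (LinearMap.mulLeft F Ri))))
  let Ψi : (ι → F) →ₗ[F] Matrix (Fin 3) (Fin 3) F :=
    ((LinearMap.mulRight F Rmᵀ).comp (LinearMap.mulLeft F Rm)).comp
      (unflat.comp ((LinearMap.funLeft F F en.symm).comp (Matrix.toLin' Pi')))
  have hΨ : ∀ X, Ψl X = Pm *ᵥ (flat (Ri * X * Riᵀ) ∘ en) := fun X => rfl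
  let Ψ : Matrix (Fin 3) (Fin 3) F ≃ₗ[F] (ι → F) := LinearEquiv.ofLinearMap Ψl Ψi
    (LinearMap.ext fun w => by
      show Pm *ᵥ (flat (Ri * (Rm * unflat ((Pi' *ᵥ w) ∘ en.symm) * Rmᵀ) * Riᵀ) ∘ en) = w
      rw [← mul_assoc, ← mul_assoc, hRR', one_mul, mul_assoc, hRT, mul_one, hfu,
        Function.comp_assoc, Equiv.symm_comp_self, Function.comp_id, mulVec_mulVec, hPP, one_mulVec])
    (LinearMap.ext fun X => by
      show Rm * unflat ((Pi' *ᵥ (Pm *ᵥ (flat (Ri * X * Riᵀ) ∘ en))) ∘ en.symm) * Rmᵀ = X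
      rw [mulVec_mulVec, hPP', one_mulVec, Function.comp_assoc, Equiv.self_comp_symm,
        Function.comp_id, huf, ← mul_assoc, ← mul_assoc, hRR, one_mul, mul_assoc, hRT', mul_one])
  -- the form
  set κ : F := c * (Gm.det * Gm.det) * (2 : F)⁻¹ with hκ
  have hκ0 : κ ≠ 0 := mul_ne_zero (mul_ne_zero hc0 (mul_ne_zero hdet hdet)) (inv_ne_zero two0)
  have hpol : ∀ X, Qf (Ψ X) = κ * Qm F X := by
    intro X
    obtain ⟨Y, hY⟩ : ∃ Y, Y = Ri * X * Riᵀ := ⟨_, rfl⟩
    have h := hc (flat Y) (flat Y)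
    have hΨX : Ψ X = Pm *ᵥ (flat Y ∘ en) := by rw [hY]; rfl
    rw [← hΨX, ← hcoe, polar_self] at h
    have hsum : ∑ a : Fin 2 → Fin 3, ∑ b : Fin 2 → Fin 3,
        flat Y a * (∏ i, Gm (a i) (b i)) * id (flat Y b) = (Yᵀ * (Gm * Y * Gm)).trace := by
      simp only [sum_fun_two, hflat, Matrix.trace, Matrix.diag, Matrix.mul_apply, transpose_apply,
        Fin.prod_univ_two, Fin.sum_univ_three, Matrix.cons_val_zero, Matrix.cons_val_one, id_eq]
      have hs : ∀ i j, Gm i j = Gm j i := fun i j => congrFun (congrFun hGt j) i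
      rw [hs 1 0, hs 2 0, hs 2 1]
      ring
    have htr : (Yᵀ * (Gm * Y * Gm)).trace = Gm.det * Gm.det * (Xᵀ * X).trace := by
      rw [hGR]
      simp only [Matrix.smul_mul, Matrix.mul_smul, smul_smul, trace_smul, smul_eq_mul]
      rw [← hGR]
      congr 1
      rw [show X = Rm * Y * Rmᵀ by
        rw [hY, ← mul_assoc, ← mul_assoc, hRR, one_mul, mul_assoc, hRT', mul_one]]
      rw [show Yᵀ * (Rmᵀ * Rm * Y * (Rmᵀ * Rm)) = (Yᵀ * Rmᵀ * Rm * Y * Rmᵀ) * Rm by
        simp only [mul_assoc], Matrix.trace_mul_comm]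
      simp only [transpose_mul, transpose_transpose, mul_assoc]
    rw [hsum, htr] at h
    rw [Qm_trace]
    refine mul_left_cancel₀ (two0 (F := F)) ?_
    rw [two_mul (Qf (Ψ X)), ← two_mul]
    calc (2 : F) * Qf (Ψ X) = c * (Gm.det * Gm.det * (Xᵀ * X).trace) := by
          rw [← h, two_nsmul, two_mul]
      _ = 2 * (κ * (Xᵀ * X).trace) := by
          have h2 := two0 (F := F)
          rw [hκ]; field_simp
  let Φ : OQ (Qm F) ≃* OQ Qf :=
    { toFun := fun g => ⟨(Ψ.symm.trans g.1).trans Ψ, fun w => by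
        simp only [LinearEquiv.trans_apply, hpol, OQ_map_app]
        rw [← hpol, LinearEquiv.apply_symm_apply]⟩
      invFun := fun g => ⟨(Ψ.trans g.1).trans Ψ.symm, fun X => by
        refine mul_left_cancel₀ hκ0 ?_
        simp only [LinearEquiv.trans_apply, ← hpol, LinearEquiv.apply_symm_apply, OQ_map_app]⟩
      left_inv := fun g => by ext1; ext X : 1; simp
      right_inv := fun g => by ext1; ext w : 1; simp
      map_mul' := fun g g' => by ext1; ext w : 1; simp }
  have hΦ : ∀ g X, (Φ g).1 (Ψ X) = Ψ (g.1 X) := fun g X => by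
    show Ψ (g.1 (Ψ.symm (Ψ X))) = _
    rw [LinearEquiv.symm_apply_apply]
  let J : OQ (Qm F) →* GL ι F := (GeoClasses.oqToGL Qf).comp Φ.toMonoidHom
  have hJinj : Function.Injective J := (GeoClasses.oqToGL_injective Qf).comp Φ.injective
  have hJ : ∀ g X, (J g : Matrix ι ι F) *ᵥ Ψ X = Ψ (g.1 X) := fun g X => by
    rw [← hΦ]; exact GeoClasses.oqToGL_mulVec Qf (Φ g) (Ψ X)
  have hJΩ : (commutator (OQ (Qm F))).map J = omegaGL Q := by
    rw [← hcoe, ← GeoClasses.map_oqToGL_commutator Qf, ← Subgroup.map_map]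
    congr 1
    rw [commutator_def, Subgroup.map_commutator, ← MonoidHom.range_eq_map,
      MonoidHom.range_eq_top.2 Φ.surjective, ← commutator_def]
  -- the tensor group is inside
  set W := (tensorWreathSubgroup 3 2 en P).comap J with hW
  have hmemW : ∀ (g : OQ (Qm F)) (T : GL (Fin 2 → Fin 3) F), T ∈ tensorWreathStandard 3 2 F →
      (∀ X, flat (Ri * g.1 X * Riᵀ) = (T : Matrix (Fin 2 → Fin 3) (Fin 2 → Fin 3) F) *ᵥ
        flat (Ri * X * Riᵀ)) → g ∈ W := by
    intro g T hT hgT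
    refine ⟨glReindex en.symm T, ⟨T, hT, rfl⟩, Units.ext ?_⟩
    rw [GeoClasses.gl_conj_val]
    refine Matrix.ext_iff_mulVec.2 fun w => ?_
    obtain ⟨X, rfl⟩ := Ψ.surjective w
    rw [hJ]
    show (Pm * ((glReindex en.symm T : GL ι F) : Matrix ι ι F) * Pi') *ᵥ (Pm *ᵥ _) = _
    rw [mulVec_mulVec, mul_assoc, hPP', mul_one, ← mulVec_mulVec]
    show Pm *ᵥ _ = Pm *ᵥ (flat (Ri * g.1 X * Riᵀ) ∘ en)
    rw [hgT]
    congr 1
    rw [GeoClasses.glReindex_apply, Matrix.coe_reindexAlgEquiv]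
    exact reindex_mulVec en (T : Matrix (Fin 2 → Fin 3) (Fin 2 → Fin 3) F)
      (flat (Ri * X * Riᵀ))
  have hNt : Nt ≤ W := by
    have hG : ∀ A B : O3 F, G A B ∈ W := by
      intro A B
      have hinv : ∀ A : O3 F, (Ri * mat A * Rm) * (Ri * mat A⁻¹ * Rm) = 1 := fun A => by
        calc Ri * mat A * Rm * (Ri * mat A⁻¹ * Rm) = Ri * mat A * (Rm * Ri) * mat A⁻¹ * Rm := by
              simp only [mul_assoc]
          _ = 1 := by
              rw [hRR, mul_one, mul_assoc Ri, ← mat_mul, mul_inv_cancel, mat_one, mul_one, hRR']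
      let g1 : O3 F → GL (Fin 3) F := fun A =>
        ⟨Ri * mat A * Rm, Ri * mat A⁻¹ * Rm, hinv A, by simpa using hinv A⁻¹⟩
      let K : O3 F → O3 F → Matrix (Fin 2 → Fin 3) (Fin 2 → Fin 3) F := fun A B =>
        Matrix.of fun x y => (g1 A : Matrix (Fin 3) (Fin 3) F) (x 0) (y 0) *
          (g1 B : Matrix (Fin 3) (Fin 3) F) (x 1) (y 1)
      have hK : ∀ A B A' B', K A B * K A' B' = K (A * A') (B * B') := by
        intro A B A' B'
        have hg : ∀ C C', (g1 C : Matrix (Fin 3) (Fin 3) F) * g1 C' = g1 (C * C') := fun C C' => by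
          show Ri * mat C * Rm * (Ri * mat C' * Rm) = Ri * mat (C * C') * Rm
          rw [mat_mul, show Ri * mat C * Rm * (Ri * mat C' * Rm) =
            Ri * mat C * (Rm * Ri) * mat C' * Rm by simp only [mul_assoc], hRR, mul_one]
          simp only [mul_assoc]
        ext x y
        rw [Matrix.mul_apply, Fintype.sum_equiv (finTwoArrowEquiv (Fin 3)) _
          (fun p : Fin 3 × Fin 3 => K A B x ![p.1, p.2] * K A' B' ![p.1, p.2] y) (fun a => by
            show _ = K A B x (tup (a 0) (a 1)) * K A' B' (tup (a 0) (a 1)) y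
            rw [htup])]
        simp only [K, Matrix.of_apply, ← hg, Matrix.mul_apply, Fintype.sum_prod_type,
          Finset.sum_mul_sum, Matrix.cons_val_zero, Matrix.cons_val_one]
        exact Finset.sum_congr rfl fun _ _ => Finset.sum_congr rfl fun _ _ => by ring
      have hK1 : K 1 1 = 1 := by
        ext x y
        simp only [K, Matrix.of_apply, g1, mat_one, mul_one, hRR', Matrix.one_apply]
        by_cases hxy : x = y
        · simp [hxy]
        · rw [if_neg hxy]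
          by_cases h0 : x 0 = y 0
          · rw [if_neg fun h1 : x 1 = y 1 => hxy (funext fun i => by fin_cases i <;> assumption),
              mul_zero]
          · rw [if_neg h0, zero_mul]
      let T : GL (Fin 2 → Fin 3) F := ⟨K A B, K A⁻¹ B⁻¹, by rw [hK]; simpa using hK1,
        by rw [hK]; simpa using hK1⟩
      refine hmemW _ T (Subgroup.subset_closure (Or.inl ⟨![g1 A, g1 B], fun x y => by
        simp [T, K, Fin.prod_univ_two]⟩)) fun X => ?_
      obtain ⟨Y, hY⟩ : ∃ Y, Y = Ri * X * Riᵀ := ⟨_, rfl⟩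
      have e : Ri * (G A B).1 X * Riᵀ =
          (g1 A : Matrix (Fin 3) (Fin 3) F) * Y * (g1 B : Matrix (Fin 3) (Fin 3) F)ᵀ := by
        show Ri * (mat A * X * (mat B)ᵀ) * Riᵀ = Ri * mat A * Rm * Y * (Ri * mat B * Rm)ᵀ
        rw [hY, transpose_mul, transpose_mul,
          show Ri * mat A * Rm * (Ri * X * Riᵀ) * (Rmᵀ * ((mat B)ᵀ * Riᵀ)) =
            Ri * mat A * (Rm * Ri) * X * (Riᵀ * Rmᵀ) * (mat B)ᵀ * Riᵀ by simp only [mul_assoc],
          hRR, hRT', mul_one, mul_one]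
        simp only [mul_assoc]
      rw [e, ← hY]
      funext x
      show ((g1 A : Matrix (Fin 3) (Fin 3) F) * Y * (g1 B : Matrix (Fin 3) (Fin 3) F)ᵀ) (x 0) (x 1) =
        ∑ y, K A B x y * Y (y 0) (y 1)
      rw [Fintype.sum_equiv (finTwoArrowEquiv (Fin 3)) _
        (fun p : Fin 3 × Fin 3 => K A B x ![p.1, p.2] * Y p.1 p.2) (fun a => by
          have : ![a 0, a 1] = a := htup a
          simp [this])]
      simp only [K, Matrix.of_apply, Fintype.sum_prod_type,
        Matrix.mul_apply, transpose_apply, Matrix.cons_val_zero, Matrix.cons_val_one, Finset.sum_mul]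
      rw [Finset.sum_comm]
      exact Finset.sum_congr rfl fun _ _ => Finset.sum_congr rfl fun _ _ => by ring
    rintro g ⟨A, B, rfl | rfl⟩
    · exact hG A B
    refine mul_mem (hG A B) ?_
    let S : Matrix (Fin 2 → Fin 3) (Fin 2 → Fin 3) F :=
      Matrix.of fun x y => if y = x ∘ (Equiv.swap (0 : Fin 2) 1) then 1 else 0
    have hS : ∀ w x, (S *ᵥ w) x = w (x ∘ Equiv.swap (0 : Fin 2) 1) := fun w x => by
      simp [S, Matrix.mulVec, dotProduct, ite_mul, Finset.sum_ite_eq']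
    have hS2 : S * S = 1 := by
      refine Matrix.ext_iff_mulVec.2 fun w => funext fun x => ?_
      rw [← mulVec_mulVec, hS, hS, one_mulVec, Function.comp_assoc]
      congr 1
      funext i
      simp
    refine hmemW _ ⟨S, S, hS2, hS2⟩ (Subgroup.subset_closure (Or.inr ⟨Equiv.swap 0 1,
      fun x y => rfl⟩)) fun X => ?_
    funext x
    show (Ri * Xᵀ * Riᵀ) (x 0) (x 1) = (S *ᵥ flat (Ri * X * Riᵀ)) x
    rw [hS, show Ri * Xᵀ * Riᵀ = (Ri * X * Riᵀ)ᵀ by
      simp [transpose_mul, mul_assoc]]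
    rfl
  -- properness
  have hproper : ¬ commutator (OQ (Qm F)) ≤ W := by
    intro hle
    obtain ⟨g, hg, u, v, huv⟩ := exists_outside (F := F)
    let Pr : Subgroup (GL (Fin 2 → Fin 3) F) :=
      { carrier := {T | ∀ Y : Fin 3 → F, ∀ Z : Fin 3 → F, ∃ Y' Z' : Fin 3 → F,
          (T : Matrix (Fin 2 → Fin 3) (Fin 2 → Fin 3) F) *ᵥ flat (vecMulVec Y Z) =
            flat (vecMulVec Y' Z')}
        one_mem' := fun Y Z => ⟨Y, Z, by rw [Units.val_one, one_mulVec]⟩
        mul_mem' := fun {a b} ha hb Y Z => by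
          obtain ⟨Y', Z', h⟩ := hb Y Z
          obtain ⟨Y'', Z'', h'⟩ := ha Y' Z'
          exact ⟨Y'', Z'', by rw [Units.val_mul, ← mulVec_mulVec, h, h']⟩
        inv_mem' := fun {a} ha => by
          have hpow : ∀ (k : ℕ) (Y Z : Fin 3 → F), ∃ Y' Z' : Fin 3 → F,
              ((a ^ k : GL (Fin 2 → Fin 3) F) : Matrix (Fin 2 → Fin 3) (Fin 2 → Fin 3) F) *ᵥ
                flat (vecMulVec Y Z) = flat (vecMulVec Y' Z') := by
            intro k
            induction k with
            | zero => exact fun Y Z => ⟨Y, Z, by rw [pow_zero, Units.val_one, one_mulVec]⟩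
            | succ k ih =>
              intro Y Z
              obtain ⟨Y', Z', h⟩ := ha Y Z
              obtain ⟨Y'', Z'', h'⟩ := ih Y' Z'
              exact ⟨Y'', Z'', by rw [pow_succ, Units.val_mul, ← mulVec_mulVec, h, h']⟩
          have hord : a⁻¹ = a ^ (orderOf a - 1) := by
            refine inv_eq_of_mul_eq_one_right ?_
            rw [← pow_succ', Nat.sub_add_cancel (orderOf_pos a), pow_orderOf_eq_one]
          intro Y Z
          rw [hord]
          exact hpow _ Y Z }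
    have hPr : tensorWreathStandard 3 2 F ≤ Pr := by
      refine (Subgroup.closure_le _).2 ?_
      rintro T (⟨gs, hgs⟩ | ⟨σ, hσ⟩) Y Z
      · refine ⟨(gs 0 : Matrix (Fin 3) (Fin 3) F) *ᵥ Y, (gs 1 : Matrix (Fin 3) (Fin 3) F) *ᵥ Z, ?_⟩
        funext x
        rw [Matrix.mulVec, dotProduct]
        rw [Fintype.sum_equiv (finTwoArrowEquiv (Fin 3)) _
          (fun p : Fin 3 × Fin 3 => (T : Matrix (Fin 2 → Fin 3) (Fin 2 → Fin 3) F) x ![p.1, p.2] *
            (Y p.1 * Z p.2)) (fun a => by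
            have : ![a 0, a 1] = a := htup a
            simp [this, hflat, vecMulVec_apply])]
        simp only [hgs, Fin.prod_univ_two, Fintype.sum_prod_type, Matrix.cons_val_zero,
          Matrix.cons_val_one, hflat, vecMulVec_apply, Matrix.mulVec,
          dotProduct, Finset.sum_mul_sum]
        exact Finset.sum_congr rfl fun _ _ => Finset.sum_congr rfl fun _ _ => by ring
      · have hval : ∀ x, ((T : Matrix (Fin 2 → Fin 3) (Fin 2 → Fin 3) F) *ᵥ
            flat (vecMulVec Y Z)) x = Y (x (σ 0)) * Z (x (σ 1)) := fun x => by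
          rw [Matrix.mulVec, dotProduct]
          simp [hσ, ite_mul, Finset.sum_ite_eq', hflat, vecMulVec_apply]
        have hperm : ∀ τ : Equiv.Perm (Fin 2), (τ 0 = 0 ∧ τ 1 = 1) ∨ (τ 0 = 1 ∧ τ 1 = 0) := by decide
        obtain hs | hs := hperm σ
        · exact ⟨Y, Z, funext fun x => by rw [hval, hs.1, hs.2]; rfl⟩
        · exact ⟨Z, Y, funext fun x => by rw [hval, hs.1, hs.2, mul_comm]; rfl⟩
    obtain ⟨_, ⟨T, hT, rfl⟩, hJg⟩ := hle hg
    obtain ⟨Y', Z', hYZ⟩ := hPr hT (Ri *ᵥ u) (Ri *ᵥ v)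
    have hconj : ∀ (a b : Fin 3 → F) (L : Matrix (Fin 3) (Fin 3) F),
        L * vecMulVec a b * Lᵀ = vecMulVec (L *ᵥ a) (L *ᵥ b) := fun a b L => by
      rw [Matrix.mul_vecMulVec, Matrix.vecMulVec_mul, vecMul_transpose]
    refine huv (Rm *ᵥ Y') (Rm *ᵥ Z') (Ψ.injective ?_)
    rw [← hJ, ← hJg, GeoClasses.gl_conj_val]
    show (Pm * ((glReindex en.symm T : GL ι F) : Matrix ι ι F) * Pi') *ᵥ
      (Pm *ᵥ (flat (Ri * vecMulVec u v * Riᵀ) ∘ en)) =
        Pm *ᵥ (flat (Ri * vecMulVec (Rm *ᵥ Y') (Rm *ᵥ Z') * Riᵀ) ∘ en)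
    rw [hconj, hconj, mulVec_mulVec Z', mulVec_mulVec Y', hRR', one_mulVec, one_mulVec,
      mulVec_mulVec, mul_assoc, hPP', mul_one, ← mulVec_mulVec, ← hYZ]
    congr 1
    rw [GeoClasses.glReindex_apply, Matrix.coe_reindexAlgEquiv]
    exact reindex_mulVec en _ _
  have hmax : IsMaximalIn (commutator (OQ (Qm F))) (W ⊓ commutator (OQ (Qm F))) :=
    ⟨lt_of_le_not_ge inf_le_right fun h => hproper (h.trans inf_le_left),
      fun M hM hMC => maximal_of_le hq' hNt hM hMC⟩
  have := GeoClasses.isMaximalIn_map hJinj hmax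
  rw [hJΩ, Subgroup.map_inf _ _ _ hJinj, hJΩ, hW, Subgroup.map_comap_eq] at this
  have hle : omegaGL Q ≤ J.range := hJΩ ▸ Subgroup.map_le_range _ _
  rwa [inf_comm J.range, inf_assoc, inf_of_le_right (a := J.range) (b := omegaGL Q) hle] at this

end Cfsg.Agent.MaxSub.TensorSquareThree
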