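import Cfsg.Agent.Forms.OmegaCrit
import Cfsg.Agent.Forms.Orthogonal
import Cfsg.Agent.Classical.ExcTwo
import Cfsg.Agent.MaxSub.OrthExt.Basic

/-!
The orthogonal group of the sum of three squares: half turns, the commutator subgroup and its
normal subgroups.
-/

set_option autoImplicit false
set_option linter.unusedSectionVars false
set_option linter.style.haveILetI false

namespace Cfsg.Agent.MaxSub.TensorSquareThree

open QuadraticMap Module Cfsg.Agent.Classical
open Cfsg.Agent.Forms (refls refls_mem_commutator_iff)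
open scoped MatrixGroups

universe u

variable {F : Type u} [Field F]

variable (F) in
/-- The sum of three squares. -/
noncomputable def Q3 : QuadraticForm F (Fin 3 → F) := ∑ i, QuadraticMap.proj i i

/-- The unit vectors. -/
abbrev e (i : Fin 3) : Fin 3 → F := Pi.single i 1

lemma Q3_apply (v : Fin 3 → F) : Q3 F v = v 0 * v 0 + v 1 * v 1 + v 2 * v 2 := by
  simp [Q3, Fin.sum_univ_three]

lemma polar_Q3 (u v : Fin 3 → F) :
    polar (Q3 F) u v = 2 * (u 0 * v 0 + u 1 * v 1 + u 2 * v 2) := by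
  simp only [polar, Q3_apply, Pi.add_apply]; ring

lemma polar_Q3_dot (u v : Fin 3 → F) : polar (Q3 F) u v = 2 * (u ⬝ᵥ v) := by
  rw [polar_Q3, dotProduct, Fin.sum_univ_three]

lemma Q3_dot (v : Fin 3 → F) : Q3 F v = v ⬝ᵥ v := by
  rw [Q3_apply, dotProduct, Fin.sum_univ_three]

@[simp] lemma Q3_e (i : Fin 3) : Q3 F (e i) = 1 := by
  fin_cases i <;> simp [Q3_apply]

lemma Q3_e_ne (i : Fin 3) : Q3 F (e (F := F) i) ≠ 0 := by rw [Q3_e]; exact one_ne_zero

lemma polar_e (i : Fin 3) (v : Fin 3 → F) : polar (Q3 F) (e i) v = 2 * v i := by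
  fin_cases i <;> simp [polar_Q3]

lemma bnondeg3 (h2 : (2 : F) ≠ 0) : BNondeg (Q3 F) := fun x hx => funext fun i => by
  have := hx (e i)
  rw [polar_comm, polar_e, mul_eq_zero] at this
  exact this.resolve_left h2

variable (F) in
/-- The orthogonal group of the sum of three squares. -/
noncomputable abbrev O3 := OQ (Q3 F)

variable (F) in
/-- Its commutator subgroup. -/
noncomputable abbrev U3 : Subgroup (O3 F) := commutator (O3 F)

instance finiteO3 [Finite F] : Finite (O3 F) :=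
  Finite.of_injective (fun g : O3 F => ⇑g.1) fun _ _ h =>
    Subtype.ext (LinearEquiv.ext (congrFun h))

lemma notExc3 (h2 : (2 : F) ≠ 0) : OrthGen.NotExceptional (Q3 F) :=
  OrthGen.notExceptional_of_two_ne_zero h2

lemma ext3 {a b : O3 F} (h : ∀ v k, a.1 v k = b.1 v k) : a = b :=
  Subtype.ext (LinearEquiv.ext fun v => funext (h v))

lemma mul_apply3 (a b : O3 F) (v : Fin 3 → F) : (a * b).1 v = a.1 (b.1 v) := rfl

/-- The Dickson invariant. -/
noncomputable def dick (h2 : (2 : F) ≠ 0) : O3 F →* ℤˣ :=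
  dicksonHom (bnondeg3 h2) (OrthGen.RQ_eq_top (bnondeg3 h2) (notExc3 h2))

lemma dick_apply (h2 : (2 : F) ≠ 0) (g : O3 F) : dick h2 g = dickson g := rfl

lemma dick_of_mem [Finite F] (h2 : (2 : F) ≠ 0) {g : O3 F} (h : g ∈ U3 F) : dick h2 g = 1 :=
  Forms.dickson_of_mem_commutator (bnondeg3 h2) (notExc3 h2) h

/-- Minus the identity. -/
noncomputable def neg3 : O3 F := ⟨LinearEquiv.neg F, fun v => by simp⟩

@[simp] lemma neg3_apply (v : Fin 3 → F) : (neg3 : O3 F).1 v = -v := rfl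

lemma neg3_mul_self : (neg3 : O3 F) * neg3 = 1 := ext3 fun v k => by simp [mul_apply3]

lemma neg3_comm (g : O3 F) : neg3 * g = g * neg3 := ext3 fun v k => by simp [mul_apply3]

lemma dick_neg3 (h2 : (2 : F) ≠ 0) : dick h2 (neg3 : O3 F) = -1 := by
  rw [dick_apply, dickson_neg _ h2 neg3_apply, Module.finrank_fin_fun]; decide

/-! ### Half turns -/

/-- The half turn with axis `ν`. -/
noncomputable def hturn (ν : Fin 3 → F) (h : Q3 F ν ≠ 0) : O3 F := neg3 * reflQ (Q3 F) ν h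

lemma hturn_apply (ν : Fin 3 → F) (h : Q3 F ν ≠ 0) (v : Fin 3 → F) :
    (hturn ν h).1 v = -v + ((Q3 F ν)⁻¹ * polar (Q3 F) ν v) • ν := by
  rw [hturn, mul_apply3, neg3_apply, reflQ_apply]; module

lemma hturn_sq (ν : Fin 3 → F) (h : Q3 F ν ≠ 0) : hturn ν h * hturn ν h = 1 := by
  rw [hturn, mul_assoc, ← mul_assoc (reflQ (Q3 F) ν h), ← neg3_comm, mul_assoc, reflQ_mul_self,
    mul_one, neg3_mul_self]

lemma dick_hturn (h2 : (2 : F) ≠ 0) (ν : Fin 3 → F) (h : Q3 F ν ≠ 0) :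
    dick h2 (hturn ν h) = 1 := by
  rw [hturn, map_mul, dick_neg3, dick_apply, dickson_refl (bnondeg3 h2)]; decide

lemma hturn_axis (ν : Fin 3 → F) (h : Q3 F ν ≠ 0) : (hturn ν h).1 ν = ν := by
  rw [hturn, mul_apply3, OrthGen.reflQ_self, neg3_apply, neg_neg]

lemma hturn_perp (ν : Fin 3 → F) (h : Q3 F ν ≠ 0) {v : Fin 3 → F}
    (hv : polar (Q3 F) ν v = 0) : (hturn ν h).1 v = -v := by
  rw [hturn_apply, hv, mul_zero, zero_smul, add_zero]

lemma eq_smul_of_hturn_fix (h2 : (2 : F) ≠ 0) {ν v : Fin 3 → F} {h : Q3 F ν ≠ 0}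
    (hv : (hturn ν h).1 v = v) : ∃ c : F, v = c • ν := by
  refine ⟨2⁻¹ * ((Q3 F ν)⁻¹ * polar (Q3 F) ν v), ?_⟩
  rw [hturn_apply, neg_add_eq_iff_eq_add, ← two_smul F v] at hv
  rw [mul_smul, hv, smul_smul, inv_mul_cancel₀ h2, one_smul]

lemma hturn_congr {ν μ : Fin 3 → F} (e : ν = μ) (h : Q3 F ν ≠ 0) (h' : Q3 F μ ≠ 0) :
    hturn ν h = hturn μ h' := by subst e; rfl

lemma hturn_smul {ν : Fin 3 → F} (h : Q3 F ν ≠ 0) {c : F} (hc : c ≠ 0)
    (hc' : Q3 F (c • ν) ≠ 0) : hturn (c • ν) hc' = hturn ν h := by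
  rw [hturn, hturn, reflQ_smul _ ν h c hc hc']

lemma hturn_conj (g : O3 F) (ν : Fin 3 → F) (h : Q3 F ν ≠ 0) (h' : Q3 F (g.1 ν) ≠ 0) :
    g * hturn ν h * g⁻¹ = hturn (g.1 ν) h' := by
  rw [hturn, hturn, ← reflQ_conj (Q3 F) g ν h h', ← mul_assoc g neg3, ← neg3_comm g]
  simp only [mul_assoc]

/-- The half turns about the axes. -/
noncomputable def t (i : Fin 3) : O3 F := hturn (e i) (Q3_e_ne i)

lemma t_apply (i : Fin 3) (v : Fin 3 → F) (k : Fin 3) :
    (t i : O3 F).1 v k = if k = i then v k else -v k := by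
  rw [t, hturn_apply, polar_e, Q3_e, inv_one, one_mul]
  by_cases hk : k = i
  · subst hk; simp; ring
  · simp [hk, e]

lemma t_sq (i : Fin 3) : (t i : O3 F) * t i = 1 := hturn_sq _ _

lemma t_e (i : Fin 3) : (t i : O3 F).1 (e i) = (e i : Fin 3 → F) := hturn_axis _ _

lemma t_e_ne {i j : Fin 3} (h : j ≠ i) : (t i : O3 F).1 (e j) = -(e j : Fin 3 → F) := by
  funext k
  rw [t_apply]
  split_ifs with hk
  · subst hk; simp [e, h.symm]
  · rfl

lemma t_mul {i j k : Fin 3} (hij : i ≠ j) (hik : i ≠ k) (hjk : j ≠ k) :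
    (t i : O3 F) * t j = t k := by
  refine ext3 fun v l => ?_
  rw [mul_apply3, t_apply, t_apply, t_apply]
  have : l = i ∨ l = j ∨ l = k := by revert i j k l; decide
  rcases this with rfl | rfl | rfl <;> simp [hij, hik, hjk, hij.symm, hik.symm, hjk.symm]

lemma t_comm (i j : Fin 3) : (t i : O3 F) * t j = t j * t i := ext3 fun v l => by
  rw [mul_apply3, mul_apply3, t_apply, t_apply, t_apply, t_apply]
  split_ifs <;> rfl

lemma hturn_mem_iff [Finite F] (h2 : (2 : F) ≠ 0) (ν : Fin 3 → F) (h : Q3 F ν ≠ 0) :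
    hturn ν h ∈ U3 F ↔ IsSquare (Q3 F ν) := by
  have hn : (neg3 : O3 F) = refls (Q3 F) [⟨e 0, Q3_e_ne 0⟩, ⟨e 1, Q3_e_ne 1⟩, ⟨e 2, Q3_e_ne 2⟩] := by
    refine ext3 fun v k => ?_
    simp only [Forms.refls_cons, Forms.refls_nil, mul_one, mul_apply3, reflQ_apply, polar_e, Q3_e,
      neg3_apply]
    fin_cases k <;> simp [e] <;> ring
  have he : hturn ν h =
      refls (Q3 F) [⟨e 0, Q3_e_ne 0⟩, ⟨e 1, Q3_e_ne 1⟩, ⟨e 2, Q3_e_ne 2⟩, ⟨ν, h⟩] := by
    rw [hturn, hn]; simp [mul_assoc]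
  rw [he, refls_mem_commutator_iff (bnondeg3 h2) (notExc3 h2)]
  simp
  intro _
  decide

lemma t_mem [Finite F] (h2 : (2 : F) ≠ 0) (i : Fin 3) : t i ∈ U3 F :=
  (hturn_mem_iff h2 _ _).2 (by rw [Q3_e]; exact IsSquare.one)

lemma exists_hturn (h2 : (2 : F) ≠ 0) {H : O3 F} (hH : H * H = 1) (hd : dick h2 H = 1)
    (h1 : H ≠ 1) : ∃ (ν : Fin 3 → F) (h : Q3 F ν ≠ 0), H = hturn ν h := by
  have hle : finrank F (fixSpace H) ≤ 3 := by
    simpa [Module.finrank_fin_fun] using Submodule.finrank_le (fixSpace H)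
  have hne : finrank F (fixSpace H) ≠ 3 := by
    intro h
    refine h1 (Subtype.ext (LinearEquiv.ext fun v => ?_))
    have htop : fixSpace H = ⊤ := Submodule.eq_top_of_finrank_eq (by
      rw [h, Module.finrank_fin_fun])
    exact mem_fixSpace.1 (htop ▸ Submodule.mem_top)
  rw [dick_apply, dickson, Module.finrank_fin_fun] at hd
  have hone : finrank F (fixSpace H) = 1 := by
    revert hd hle hne
    generalize finrank F (fixSpace H) = r
    intro hd hle hne
    interval_cases r <;> first | rfl | exact absurd rfl hne | exact absurd hd (by decide)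
  obtain ⟨⟨ν, hνf⟩, hν0, hspan⟩ := finrank_eq_one_iff'.1 hone
  have hν : H.1 ν = ν := mem_fixSpace.1 hνf
  have hfix : ∀ v, ∃ c : F, v + H.1 v = c • ν := by
    intro v
    have hv : H.1 (v + H.1 v) = v + H.1 v := by
      rw [map_add, ← mul_apply3, hH, add_comm]; rfl
    obtain ⟨c, hc⟩ := hspan ⟨_, mem_fixSpace.2 hv⟩
    exact ⟨c, (congrArg Subtype.val hc).symm⟩
  have hpol : ∀ v, polar (Q3 F) ν (v + H.1 v) = 2 * polar (Q3 F) ν v := by
    intro v
    have := OQ_polar H ν v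
    rw [hν] at this
    rw [polar_add_right, this, two_mul]
  have hQ : Q3 F ν ≠ 0 := by
    intro h0
    refine hν0 (Subtype.ext (bnondeg3 h2 ν fun v => ?_))
    obtain ⟨c, hc⟩ := hfix v
    have := hpol v
    rw [hc, polar_smul_right, polar_self, h0, smul_zero, smul_zero, eq_comm, mul_eq_zero] at this
    exact this.resolve_left h2
  refine ⟨ν, hQ, Subtype.ext (LinearEquiv.ext fun v => ?_)⟩
  obtain ⟨c, hc⟩ := hfix v
  have hc' : (Q3 F ν)⁻¹ * polar (Q3 F) ν v = c := by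
    have := hpol v
    rw [hc, polar_smul_right, OrthGen.polar_self_two, smul_eq_mul] at this
    rw [inv_mul_eq_iff_eq_mul₀ hQ]
    exact mul_left_cancel₀ h2 (by linear_combination -this)
  rw [hturn_apply, hc', ← hc]
  abel

lemma eq_hturn_of_fix (h2 : (2 : F) ≠ 0) {H : O3 F} (hH : H * H = 1) (hd : dick h2 H = 1)
    (h1 : H ≠ 1) {v : Fin 3 → F} (hv : H.1 v = v) (hQ : Q3 F v ≠ 0) : H = hturn v hQ := by
  obtain ⟨ν, hν, rfl⟩ := exists_hturn h2 hH hd h1
  obtain ⟨c, rfl⟩ := eq_smul_of_hturn_fix h2 hv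
  exact (hturn_smul hν (fun h => hQ (by simp [h])) hQ).symm

/-- An isometry commuting with a half turn fixes its axis up to sign. -/
lemma axis_of_comm (h2 : (2 : F) ≠ 0) {A : O3 F} {ν : Fin 3 → F} {h : Q3 F ν ≠ 0}
    (hc : A * hturn ν h = hturn ν h * A) : A.1 ν = ν ∨ A.1 ν = -ν := by
  have hf : (hturn ν h).1 (A.1 ν) = A.1 ν := by rw [← mul_apply3, ← hc, mul_apply3, hturn_axis]
  obtain ⟨c, hc'⟩ := eq_smul_of_hturn_fix h2 hf
  have : c * c = 1 := by
    have := OQ_map_app A ν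
    rw [hc', QuadraticMap.map_smul, smul_eq_mul] at this
    exact (mul_eq_right₀ h).1 this
  rcases mul_self_eq_one_iff.1 this with rfl | rfl
  · exact Or.inl (by rw [hc', one_smul])
  · exact Or.inr (by rw [hc', neg_one_smul])

/-- Half turns of equal value class are conjugate, fixing the common orthogonal vectors. -/
lemma exists_conj_hturn (h2 : (2 : F) ≠ 0) {ν μ : Fin 3 → F} (hν : Q3 F ν ≠ 0)
    (hμ : Q3 F μ ≠ 0) (hs : IsSquare (Q3 F ν * Q3 F μ)) :
    ∃ R : O3 F, R * hturn ν hν * R⁻¹ = hturn μ hμ ∧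
      ∀ u, polar (Q3 F) ν u = 0 → polar (Q3 F) μ u = 0 → R.1 u = u := by
  obtain ⟨r, hr⟩ := hs
  set c := r / Q3 F ν with hc
  have hc0 : c ≠ 0 := div_ne_zero (fun h0 => mul_ne_zero hν hμ (by rw [hr, h0, mul_zero])) hν
  have hcν : Q3 F (c • ν) ≠ 0 := by
    rw [QuadraticMap.map_smul, smul_eq_mul]; exact mul_ne_zero (mul_ne_zero hc0 hc0) hν
  have hval : Q3 F (c • ν) = Q3 F μ := by
    rw [QuadraticMap.map_smul, smul_eq_mul, hc]
    field_simp
    linear_combination -hr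
  have key : ∀ μ' : Fin 3 → F, (μ' = μ ∨ μ' = -μ) → ∀ hw : Q3 F (c • ν - μ') ≠ 0,
      ∃ R : O3 F, R * hturn ν hν * R⁻¹ = hturn μ hμ ∧
        ∀ u, polar (Q3 F) ν u = 0 → polar (Q3 F) μ u = 0 → R.1 u = u := by
    intro μ' hμ' hw
    have hval' : Q3 F (c • ν) = Q3 F μ' := by
      rcases hμ' with rfl | rfl
      · exact hval
      · rw [hval, QuadraticMap.map_neg]
    have hR := OrthGen.refl_sub_apply hval' hw
    refine ⟨reflQ (Q3 F) _ hw, ?_, fun u hu hu' => OrthGen.reflQ_fix _ hw ?_⟩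
    · have hμ'0 : Q3 F μ' ≠ 0 := hval' ▸ hcν
      rw [← hturn_smul hν hc0 hcν, hturn_conj _ _ _ (by rw [hR]; exact hμ'0),
        hturn_congr hR _ hμ'0]
      rcases hμ' with rfl | rfl
      · rfl
      · rw [hturn_congr (neg_one_smul F μ).symm hμ'0 (by rwa [neg_one_smul]),
          hturn_smul hμ (neg_ne_zero.2 one_ne_zero)]
    · rcases hμ' with rfl | rfl
      · rw [polar_sub_left, polar_smul_left, hu, hu', smul_zero, sub_zero]
      · rw [polar_sub_left, polar_smul_left, polar_neg_left, hu, hu', smul_zero, neg_zero,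
          sub_zero]
  by_cases hw : Q3 F (c • ν - μ) = 0
  · refine key (-μ) (Or.inr rfl) fun hw' => hμ ?_
    rw [qf_sub] at hw
    rw [qf_sub, QuadraticMap.map_neg, polar_neg_right] at hw'
    have : 2 * (2 * Q3 F μ) = 0 := by linear_combination hw + hw' - 2 * hval
    exact (mul_eq_zero.1 ((mul_eq_zero.1 this).resolve_left h2)).resolve_left h2
  · exact key μ (Or.inl rfl) hw

lemma eq_one_or_t (h2 : (2 : F) ≠ 0) {i : Fin 3} {A : O3 F} (hA : A * A = 1)
    (hd : dick h2 A = 1) (hfix : A.1 (e i) = e i) : A = 1 ∨ A = t i := by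
  by_cases h1 : A = 1
  · exact Or.inl h1
  · exact Or.inr (eq_hturn_of_fix h2 hA hd h1 hfix (Q3_e_ne i))

lemma e_of_comm_t (h2 : (2 : F) ≠ 0) {i : Fin 3} {A : O3 F} (hc : A * t i = t i * A) :
    A.1 (e i) = e i ∨ A.1 (e i) = -e i := axis_of_comm h2 hc

/-- Involutions commuting with two commuting half turns. -/
lemma comm_two (h2 : (2 : F) ≠ 0) {i : Fin 3} {A H : O3 F} (hA : A * A = 1)
    (hd : dick h2 A = 1) (hH : H * H = 1) (hdH : dick h2 H = 1) (hH1 : H ≠ 1)
    (hHt : H ≠ t i) (hcH : H * t i = t i * H) (h : A * t i = t i * A) (h' : A * H = H * A) :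
    A = 1 ∨ A = t i ∨ A = H ∨ A = H * t i := by
  have hHe : H.1 (e i) = -e i := (e_of_comm_t h2 hcH).resolve_left fun hf =>
    (eq_one_or_t h2 hH hdH hf).elim hH1 hHt
  rcases e_of_comm_t h2 h with he | he
  · rcases eq_one_or_t h2 hA hd he with h | h
    · exact Or.inl h
    · exact Or.inr (Or.inl h)
  · have hsq : H * A * (H * A) = 1 := by
      rw [mul_assoc, ← mul_assoc A, h', mul_assoc H A A, hA, mul_one, hH]
    have hfix : (H * A).1 (e i) = e i := by rw [mul_apply3, he, map_neg, hHe, neg_neg]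
    rcases eq_one_or_t h2 hsq (by rw [map_mul, hd, hdH, mul_one]) hfix with h | h
    · refine Or.inr (Or.inr (Or.inl ?_))
      rw [← one_mul A, ← hH, mul_assoc, h, mul_one]
    · refine Or.inr (Or.inr (Or.inr ?_))
      rw [← one_mul A, ← hH, mul_assoc, h]

lemma exists_nonsquare_perp [Finite F] (h2 : (2 : F) ≠ 0) (i : Fin 3) :
    ∃ w : Fin 3 → F, polar (Q3 F) (e i) w = 0 ∧ ¬ IsSquare (Q3 F w) := by
  obtain ⟨n, hn⟩ := OrthGen.exists_nonsquare F h2
  obtain ⟨a, b, hab⟩ := OrthExt.exists_two_squares h2 one_ne_zero one_ne_zero n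
  refine ⟨a • e (i + 1) + b • e (i + 2), ?_, ?_⟩
  · fin_cases i <;> simp [polar_Q3, e]
  · convert hn.2 using 2
    rw [← hab]
    fin_cases i <;> simp [Q3_apply, e] <;> ring

lemma exists_nonsquare_hturn [Finite F] (h2 : (2 : F) ≠ 0) (i : Fin 3) :
    ∃ H : O3 F, H * H = 1 ∧ dick h2 H = 1 ∧ H * t i = t i * H ∧ H ∉ U3 F := by
  obtain ⟨w, hw, hns⟩ := exists_nonsquare_perp h2 i
  have hw0 : Q3 F w ≠ 0 := fun h => hns (by rw [h]; exact IsSquare.zero)
  refine ⟨hturn w hw0, hturn_sq _ _, dick_hturn h2 _ _, ?_, fun h => hns ((hturn_mem_iff h2 _ _).1 h)⟩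
  have hg : (t i : O3 F).1 w = -w := hturn_perp _ _ hw
  have := hturn_conj (t i) w hw0 (by rwa [OQ_map_app])
  rw [hturn_congr (hg.trans (neg_one_smul F w).symm) _ (by rwa [neg_one_smul, QuadraticMap.map_neg]),
    hturn_smul hw0 (neg_ne_zero.2 one_ne_zero), mul_inv_eq_iff_eq_mul] at this
  exact this.symm

/-- The stabiliser of a coordinate vector meets every class of the commutator subgroup. -/
lemma exists_stab_mul_mem [Finite F] (h2 : (2 : F) ≠ 0) (i : Fin 3) (B : O3 F) :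
    ∃ k : O3 F, k.1 (e i) = e i ∧ k * B ∈ U3 F := by
  let K : Subgroup (O3 F) :=
    { carrier := {k | k.1 (e i) = e i}
      one_mem' := rfl
      mul_mem' := fun {a b} ha hb => by
        show (a * b).1 (e i) = e i
        rw [mul_apply3, hb, ha]
      inv_mem' := fun {a} ha => by
        show a.1.symm (e i) = e i
        rw [LinearEquiv.symm_apply_eq]; exact ha.symm }
  obtain ⟨w, hw, hns⟩ := exists_nonsquare_perp h2 i
  have hw0 : Q3 F w ≠ 0 := fun h => hns (by rw [h]; exact IsSquare.zero)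
  have hr : (reflQ (Q3 F) (e (i + 1)) (Q3_e_ne _)) ∈ K :=
    OrthGen.reflQ_fix _ _ (by rw [polar_e]; fin_cases i <;> simp [e])
  have hr' : reflQ (Q3 F) w hw0 ∈ K := OrthGen.reflQ_fix _ _ (by rw [polar_comm]; exact hw)
  obtain ⟨k, hk, hkB⟩ := Forms.exists_mul_mem_commutator (bnondeg3 h2) (notExc3 h2) K B
    (Or.inr ⟨_, hr, dickson_refl (bnondeg3 h2) _⟩)
    (fun _ => ⟨refls (Q3 F) [⟨e (i + 1), Q3_e_ne _⟩, ⟨w, hw0⟩], by
      simpa using mul_mem hr hr', by
      rw [Forms.dickson_refls (bnondeg3 h2)]; simp, fun h => hns (by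
      simpa using ((refls_mem_commutator_iff (bnondeg3 h2) (notExc3 h2) _).1 h).2)⟩)
  exact ⟨k, hk, hkB⟩

/-! ### The cyclic shift and the centraliser -/

/-- The cyclic shift of coordinates. -/
noncomputable def cyc : O3 F := ⟨LinearEquiv.funCongrLeft F F (Equiv.subRight (1 : Fin 3)),
  fun v => by
    rw [Q3_apply, Q3_apply]
    simp only [LinearEquiv.funCongrLeft_apply, LinearMap.funLeft_apply, Equiv.subRight_apply,
      show (0 : Fin 3) - 1 = 2 by decide, show (1 : Fin 3) - 1 = 0 by decide,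
      show (2 : Fin 3) - 1 = 1 by decide]
    ring⟩

lemma cyc_apply (v : Fin 3 → F) (k : Fin 3) : (cyc : O3 F).1 v k = v (k - 1) := rfl

lemma cyc_e (i : Fin 3) : (cyc : O3 F).1 (e i) = e (i + 1) := by
  funext k
  rw [cyc_apply]
  fin_cases i <;> fin_cases k <;> rfl

lemma cyc_cube : (cyc : O3 F) * cyc * cyc = 1 := ext3 fun v k => by
  rw [mul_apply3, mul_apply3, cyc_apply, cyc_apply, cyc_apply]
  fin_cases k <;> rfl

lemma cyc_mem [Finite F] (h2 : (2 : F) ≠ 0) : (cyc : O3 F) ∈ U3 F := by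
  have h := Forms.mul_self_mem_commutator (bnondeg3 h2) (notExc3 h2) ((cyc : O3 F) * cyc)
  rwa [← mul_assoc ((cyc : O3 F) * cyc), cyc_cube, one_mul] at h

lemma cyc_conj (i : Fin 3) : (cyc : O3 F) * t i * cyc⁻¹ = t (i + 1) := by
  rw [t, t, hturn_conj _ _ _ (by rw [cyc_e]; exact Q3_e_ne _)]
  exact hturn_congr (cyc_e i) _ _

/-- A diagonal isometry. -/
noncomputable def dia (d : Fin 3 → F) (h : ∀ i, d i * d i = 1) : O3 F :=
  ⟨LinearEquiv.ofLinearMap (LinearMap.pi fun i => d i • LinearMap.proj i)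
      (LinearMap.pi fun i => d i • LinearMap.proj i)
      (LinearMap.ext fun v => funext fun i => by simp [← mul_assoc, h i])
      (LinearMap.ext fun v => funext fun i => by simp [← mul_assoc, h i]),
    fun v => by
      rw [Q3_apply, Q3_apply]
      show d 0 * v 0 * (d 0 * v 0) + d 1 * v 1 * (d 1 * v 1) + d 2 * v 2 * (d 2 * v 2) = _
      linear_combination v 0 * v 0 * h 0 + v 1 * v 1 * h 1 + v 2 * v 2 * h 2⟩

lemma dia_apply (d : Fin 3 → F) (h : ∀ i, d i * d i = 1) (v : Fin 3 → F) (k : Fin 3) :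
    (dia d h).1 v k = d k * v k := rfl

/-- The centraliser of the commutator subgroup. -/
lemma centraliser_U3 [Finite F] (h2 : (2 : F) ≠ 0) {A : O3 F}
    (hA : ∀ U ∈ U3 F, A * U = U * A) : A = 1 ∨ A = neg3 := by
  have hc : ∀ i, A.1 (e (i + 1)) = (cyc : O3 F).1 (A.1 (e i)) := fun i => by
    rw [← cyc_e, ← mul_apply3, hA _ (cyc_mem h2), mul_apply3]
  have key : ∀ s : F, A.1 (e 0) = s • e 0 → ∀ v, A.1 v = s • v := by
    intro s h0 v
    have h1 : A.1 (e 1) = s • e 1 := by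
      rw [show (1 : Fin 3) = 0 + 1 by decide, hc, h0, map_smul, cyc_e]
    have h3 : A.1 (e 2) = s • e 2 := by
      rw [show (2 : Fin 3) = 1 + 1 by decide, hc, h1, map_smul, cyc_e]
    conv_lhs => rw [pi_eq_sum_univ' v, Fin.sum_univ_three]
    conv_rhs => rw [pi_eq_sum_univ' v, Fin.sum_univ_three]
    simp only [map_add, map_smul, h0, h1, h3, smul_add, smul_comm s]
  rcases e_of_comm_t h2 (hA _ (t_mem h2 0)) with h | h
  · exact Or.inl (Subtype.ext (LinearEquiv.ext fun v => by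
      rw [key 1 (by rw [h, one_smul]) v, one_smul]; rfl))
  · exact Or.inr (Subtype.ext (LinearEquiv.ext fun v => by
      rw [key (-1) (by rw [h, neg_one_smul]) v, neg_one_smul]; rfl))

/-! ### An isotropic frame -/

/-- A hyperbolic pair and a vector orthogonal to it. -/
structure Frame3 (z f h : Fin 3 → F) : Prop where
  zz : z ⬝ᵥ z = 0
  ff : f ⬝ᵥ f = 0
  zf : z ⬝ᵥ f = 1
  zh : z ⬝ᵥ h = 0
  fh : f ⬝ᵥ h = 0
  hh : h ⬝ᵥ h = -1
  expand : ∀ v, v = (v ⬝ᵥ f) • z + (v ⬝ᵥ z) • f - (v ⬝ᵥ h) • h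

lemma Frame3.symm {z f h : Fin 3 → F} (H : Frame3 z f h) : Frame3 f z h :=
  ⟨H.ff, H.zz, by rw [dotProduct_comm]; exact H.zf, H.fh, H.zh, H.hh, fun v => by
    conv_lhs => rw [H.expand v]
    abel⟩

lemma exists_frame3 [Finite F] (h2 : (2 : F) ≠ 0) : ∃ z f h : Fin 3 → F, Frame3 z f h := by
  obtain ⟨a, b, hab⟩ := OrthExt.exists_two_squares h2 one_ne_zero one_ne_zero (-1 : F)
  rw [mul_one, mul_one] at hab
  refine ⟨![a, b, 1], (-(2 : F)⁻¹) • ![a, b, -1], ![-b, a, 0], ⟨?_, ?_, ?_, ?_, ?_, ?_, fun v => ?_⟩⟩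
  all_goals simp only [dotProduct, Fin.sum_univ_three, Pi.smul_apply, smul_eq_mul]
  all_goals simp
  · linear_combination hab
  · field_simp; linear_combination hab
  · field_simp; linear_combination -hab
  · ring
  · ring
  · linear_combination hab
  · funext k
    fin_cases k <;> simp <;> field_simp
    · linear_combination 2 * v 0 * hab
    · linear_combination 2 * v 1 * hab
    · ring

/-! ### Normal subgroups of the commutator subgroup -/

lemma exists_sl_hom [Fintype F] (h2 : (2 : F) ≠ 0) (hq : 5 ≤ Nat.card F) :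
    ∃ φ : SL(2, F) →* O3 F, U3 F = φ.range ∧ Subgroup.center SL(2, F) ≤ φ.ker := by
  haveI : Finite (OQ (oddQF 1 F)) := Finite.of_injective (fun g => (g.1 : _ → _))
    fun a b h => Subtype.ext (LinearEquiv.ext (congrFun h))
  haveI := Exc.isPerfect_SL_two (F := F) (by omega)
  obtain ⟨z, f, h, hF⟩ := exists_frame3 (F := F) h2
  -- the isometry onto the negative of the odd form
  let ψ : (Unit ⊕ (Fin 1 ⊕ Fin 1) → F) →ₗ[F] (Fin 3 → F) :=
    { toFun := fun x => x (.inl ()) • h + (-(2 : F)⁻¹ * x (.inr (.inl 0))) • z + x (.inr (.inr 0)) • f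
      map_add' := fun x y => by simp only [Pi.add_apply, mul_add, add_smul]; abel
      map_smul' := fun c x => by
        simp only [Pi.smul_apply, smul_eq_mul, RingHom.id_apply, smul_add, smul_smul]
        congr 2 <;> ring_nf }
  let χ : (Fin 3 → F) →ₗ[F] (Unit ⊕ (Fin 1 ⊕ Fin 1) → F) :=
    { toFun := fun v => Sum.elim (fun _ => -(v ⬝ᵥ h))
        (Sum.elim (fun _ => -2 * (v ⬝ᵥ f)) (fun _ => v ⬝ᵥ z))
      map_add' := fun v w => by
        ext (_ | _ | _) <;> simp [add_dotProduct] <;> ring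
      map_smul' := fun c v => by
        ext (_ | _ | _) <;> simp [smul_dotProduct] <;> ring }
  have hχψ : ∀ x, χ (ψ x) = x := by
    intro x
    ext (i | i | i) <;>
      simp [ψ, χ, add_dotProduct, smul_dotProduct, dotProduct_comm h z,
        dotProduct_comm h f, dotProduct_comm f z, hF.zz, hF.ff, hF.zf, hF.zh, hF.fh, hF.hh] <;>
      fin_cases i <;> (try field_simp) <;> (try ring_nf) <;> rfl
  have hψχ : ∀ v, ψ (χ v) = v := by
    intro v
    conv_rhs => rw [hF.expand v]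
    simp [ψ, χ, h2]
    module
  let eL : (Unit ⊕ (Fin 1 ⊕ Fin 1) → F) ≃ₗ[F] (Fin 3 → F) :=
    LinearEquiv.ofLinearMap ψ χ (LinearMap.ext hψχ) (LinearMap.ext hχψ)
  have hQ : ∀ x, Q3 F (eL x) = -oddQF 1 F x := by
    intro x
    rw [oddQF_apply, Q3_dot]
    show ψ x ⬝ᵥ ψ x = _
    simp [ψ, add_dotProduct, dotProduct_add, smul_dotProduct, dotProduct_smul,
      dotProduct_comm h z, dotProduct_comm h f, dotProduct_comm f z, hF.zz, hF.ff, hF.zf, hF.zh,
      hF.fh, hF.hh, Cfsg.quadFormOdd]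
    field_simp
    ring
  let iso : OQ (oddQF 1 F) ≃* O3 F :=
    { toFun := fun g => ⟨(eL.symm.trans g.1).trans eL, fun v => by
        simp only [LinearEquiv.trans_apply, hQ, OQ_map_app]
        rw [← hQ, LinearEquiv.apply_symm_apply]⟩
      invFun := fun g => ⟨(eL.trans g.1).trans eL.symm, fun x => by
        apply neg_injective
        simp only [LinearEquiv.trans_apply, ← hQ, LinearEquiv.apply_symm_apply, OQ_map_app]⟩
      left_inv := fun g => by ext x; simp
      right_inv := fun g => by ext x; simp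
      map_mul' := fun g g' => by ext x; simp }
  set φ₀ : SL(2, F) →* OQ (oddQF 1 F) := Exc.glToO3.comp Matrix.SpecialLinearGroup.toGL with hφ₀
  have hker : ∀ g : SL(2, F), g ∈ φ₀.ker ↔ ∃ c : F, g.1 = c • 1 := fun g => Exc.glToO3_ker _
  have hkerle : Nat.card φ₀.ker ≤ 2 := by
    haveI := Exc.finite_sq_eq_one (F := F)
    refine le_trans (Nat.card_le_card_of_injective
      (β := {c : F // c ^ 2 = 1}) (fun g => ⟨((hker g.1).1 g.2).choose,
        Exc.scalar_sq ((hker g.1).1 g.2).choose_spec⟩) ?_) Exc.card_sq_eq_one_le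
    intro a b hab
    refine Subtype.ext (Subtype.ext ?_)
    exact ((hker a.1).1 a.2).choose_spec.trans
      ((congrArg (fun c : F => c • (1 : Matrix (Fin 2) (Fin 2) F))
        (Subtype.mk.inj hab)).trans ((hker b.1).1 b.2).choose_spec.symm)
  have hodd : Odd (Nat.card F) := by
    rw [Nat.card_eq_fintype_card, Nat.odd_iff]
    exact FiniteField.odd_card_of_char_ne_two fun hc => h2 (by
      haveI := ringChar.of_eq hc
      exact CharTwo.two_eq_zero)
  have hcard : Nat.card (OQ (oddQF 1 F)) = 2 * Nat.card SL(2, F) := by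
    rw [Exc.card_O3 hodd, Linear.card_SL_two, ← Nat.card_eq_fintype_card,
      show Nat.card F ^ 2 - 1 = (Nat.card F - 1) * (Nat.card F + 1) by
        rw [mul_comm (Nat.card F - 1), ← Nat.sq_sub_sq, one_pow]]
    ring
  have hrange := Exc.commutator_eq_range φ₀ (Exc.index_le_of_card φ₀ (by rw [hcard]; nlinarith))
  refine ⟨iso.toMonoidHom.comp φ₀, ?_, fun g hg => ?_⟩
  · rw [MonoidHom.range_eq_map, ← Subgroup.map_map, ← MonoidHom.range_eq_map, ← hrange,
      commutator_def, Subgroup.map_commutator, ← MonoidHom.range_eq_map,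
      MonoidHom.range_eq_top.2 iso.surjective, ← commutator_def]
  · obtain ⟨r, -, hr⟩ := Matrix.SpecialLinearGroup.mem_center_iff.1 hg
    have : φ₀ g = 1 := MonoidHom.mem_ker.1 ((hker g).2 ⟨r, by
      rw [← hr, Matrix.scalar_apply, Matrix.smul_one_eq_diagonal]⟩)
    rw [MonoidHom.mem_ker, MonoidHom.comp_apply, this, map_one]

/-- The commutator subgroup has no proper non-trivial subgroup normalised by it. -/
theorem eq_U3_of_normal [Fintype F] (h2 : (2 : F) ≠ 0) (hq : 5 ≤ Nat.card F)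
    {N : Subgroup (O3 F)} (hle : N ≤ U3 F) (hn : ∀ u ∈ U3 F, ∀ n ∈ N, u * n * u⁻¹ ∈ N)
    {x : O3 F} (hx : x ∈ N) (hx1 : x ≠ 1) : N = U3 F := by
  obtain ⟨φ, hr, hk⟩ := exists_sl_hom (F := F) h2 hq
  haveI : IsSimpleGroup (SL(2, F) ⧸ Subgroup.center SL(2, F)) :=
    Linear.isSimpleGroup_PSL_fin 2 le_rfl fun _ => by omega
  haveI : (N.comap φ).Normal := ⟨fun n hn' g => by
    rw [Subgroup.mem_comap, map_mul, map_mul, map_inv]
    exact hn _ (hr ▸ ⟨g, rfl⟩) _ hn'⟩
  have hZ : Subgroup.center SL(2, F) ≤ N.comap φ := fun g hg => by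
    rw [Subgroup.mem_comap, MonoidHom.mem_ker.1 (hk hg)]; exact one_mem _
  haveI := Subgroup.Normal.map (inferInstance : (N.comap φ).Normal)
    (QuotientGroup.mk' (Subgroup.center SL(2, F))) (QuotientGroup.mk'_surjective _)
  obtain ⟨g, rfl⟩ : x ∈ φ.range := hr ▸ hle hx
  rcases (inferInstance : ((N.comap φ).map
      (QuotientGroup.mk' (Subgroup.center SL(2, F)))).Normal).eq_bot_or_eq_top with h | h
  · rw [Subgroup.map_eq_bot_iff, QuotientGroup.ker_mk'] at h
    exact absurd (MonoidHom.mem_ker.1 (hk (h hx))) hx1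
  · refine le_antisymm hle ?_
    rw [hr]
    rintro _ ⟨g', rfl⟩
    have hm : QuotientGroup.mk' _ g' ∈ (N.comap φ).map (QuotientGroup.mk' _) :=
      h ▸ Subgroup.mem_top _
    obtain ⟨n, hn', hne⟩ := hm
    rw [QuotientGroup.mk'_apply, QuotientGroup.mk'_apply, QuotientGroup.eq] at hne
    have := mul_mem hn' (hZ hne)
    rwa [mul_inv_cancel_left] at this

end Cfsg.Agent.MaxSub.TensorSquareThree
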