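import Cfsg.Agent.MaxSub.TensorSquareThree.Frame

/-!
Centralisers in an overgroup of the tensor group: two commuting pure involutions, one pure
involution, and isolation of the pure involutions.
-/

set_option autoImplicit false
set_option linter.unusedSectionVars false
set_option linter.style.haveILetI false

namespace Cfsg.Agent.MaxSub.TensorSquareThree

open QuadraticMap Module Cfsg.Agent.Classical Matrix

universe u

variable {F : Type u} [Field F] [Fintype F] [Fact ((2 : F) ≠ 0)]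
  {M : Subgroup (OQ (Qm F))}

/-- A fixed point free involutory automorphism inverts. -/
lemma fpf_inv {Γ : Type*} [Group Γ] [Finite Γ] (K : Subgroup Γ) {a : Γ} (ha : a * a = 1)
    (hnorm : ∀ k ∈ K, a * k * a ∈ K) (hfix : ∀ k ∈ K, a * k = k * a → k = 1) {k : Γ} (hk : k ∈ K) :
    a * k * a = k⁻¹ := by
  let f : K → K := fun l => ⟨l.1⁻¹ * (a * l.1 * a), K.mul_mem (K.inv_mem l.2) (hnorm _ l.2)⟩
  have hinj : Function.Injective f := by
    intro l m h
    have h' : l.1⁻¹ * (a * l.1 * a) = m.1⁻¹ * (a * m.1 * a) := congrArg Subtype.val h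
    rw [inv_mul_eq_iff_eq_mul] at h'
    have := hfix (m.1 * l.1⁻¹) (K.mul_mem m.2 (K.inv_mem l.2)) ?_
    · exact Subtype.ext (mul_inv_eq_one.1 this).symm
    have e1 : a * l.1 = l.1 * m.1⁻¹ * (a * m.1) :=
      mul_right_cancel (b := a) (h'.trans (by simp [mul_assoc]))
    have e2 : m.1 * l.1⁻¹ * (a * l.1) = a * m.1 := by rw [e1]; simp [mul_assoc]
    calc a * (m.1 * l.1⁻¹) = a * m.1 * l.1⁻¹ := (mul_assoc _ _ _).symm
      _ = m.1 * l.1⁻¹ * (a * l.1) * l.1⁻¹ := by rw [e2]
      _ = m.1 * l.1⁻¹ * a := by simp [mul_assoc]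
  obtain ⟨⟨l, hl⟩, hlk⟩ := Finite.injective_iff_surjective.1 hinj ⟨k, hk⟩
  have hlk' : l⁻¹ * (a * l * a) = k := congrArg Subtype.val hlk
  have hai : a⁻¹ = a := inv_eq_of_mul_eq_one_right ha
  subst hlk'
  simp only [_root_.mul_inv_rev, inv_inv, hai]
  simp only [mul_assoc, ha, mul_one]

lemma conj_sq {Γ : Type*} [Group Γ] (κ : Γ) {H : Γ} (h : H * H = 1) :
    κ * H * κ⁻¹ * (κ * H * κ⁻¹) = 1 := by
  rw [show κ * H * κ⁻¹ * (κ * H * κ⁻¹) = κ * (H * H) * κ⁻¹ by simp [mul_assoc], h, mul_one,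
    mul_inv_cancel]

/-- Commuting with two elements. -/
lemma commute_mul {Γ : Type*} [Group Γ] {g a b : Γ} (ha : g * a = a * g) (hb : g * b = b * g) :
    g * (a * b) = a * b * g := (Commute.mul_right ha hb).eq

/-- Two elements agreeing on the matrix units are equal. -/
lemma eq_of_single {a b : OQ (Qm F)}
    (h : ∀ i j, a.1 (Matrix.single i j 1) = b.1 (Matrix.single i j 1)) : a = b :=
  extm fun X => by
    rw [Matrix.matrix_eq_sum_single X]
    simp only [map_sum]
    refine Finset.sum_congr rfl fun i _ => Finset.sum_congr rfl fun j _ => ?_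
    rw [show Matrix.single i j (X i j) = X i j • Matrix.single i j (1 : F) by
      rw [smul_single, smul_eq_mul, mul_one], map_smul, map_smul, h]

/-- The sign of the eigenvalue of `t i` at `a`. -/
def sg (i a : Fin 3) : F := if a = i then 1 else -1

lemma eigen_comm {g a : OQ (Qm F)} (h : g * a = a * g) {X : Matrix (Fin 3) (Fin 3) F} {c : F}
    (hX : a.1 X = c • X) : a.1 (g.1 X) = c • g.1 X := by
  rw [← mul_applym, ← h, mul_applym, hX, map_smul]

lemma eigen_zero {c d x : F} (h : c * x = d * x) (hcd : c ≠ d) : x = 0 := by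
  by_contra hx
  exact hcd (mul_right_cancel₀ hx h)

lemma one_ne_neg_one' : (1 : F) ≠ -1 := fun h => two0 (F := F) (by linear_combination h)

lemma t_comm_t0 {R : O3 F} (hR : R.1 (e 0) = e 0) : R * t 0 = t 0 * R := by
  have := hturn_conj R (e 0) (Q3_e_ne 0) (by rw [hR]; exact Q3_e_ne 0)
  rw [hturn_congr hR _ (Q3_e_ne 0)] at this
  exact mul_inv_eq_iff_eq_mul.1 this

lemma comm_t0_of_axis {R : O3 F} (hR : R.1 (e 0) = e 0 ∨ R.1 (e 0) = -e 0) :
    R * t 0 = t 0 * R := by
  rcases hR with h | h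
  · exact t_comm_t0 h
  · have h' := t_comm_t0 (R := neg3 * R) (by rw [mul_apply3, h, neg3_apply, neg_neg])
    rw [mul_assoc, ← mul_assoc (t 0), ← neg3_comm, mul_assoc] at h'
    exact mul_left_cancel h'

/-! ### The action on the first row -/

/-- The action on the first row. -/
def IsRow (g : OQ (Qm F)) (B : O3 F) : Prop := ∀ X b, g.1 X 0 b = B.1 (X 0) b

lemma IsRow.mul {g g' : OQ (Qm F)} {B B' : O3 F} (h : IsRow g B) (h' : IsRow g' B') :
    IsRow (g * g') (B * B') := fun X b => by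
  rw [mul_applym, h, show g'.1 X 0 = B'.1 (X 0) from funext (h' X), mul_apply3]

lemma IsRow.inv {g : OQ (Qm F)} {B : O3 F} (h : IsRow g B) : IsRow g⁻¹ B⁻¹ := fun X b => by
  have hrow : X 0 = B.1 ((g⁻¹).1 X 0) := funext fun c => by
    rw [← h]; exact (congrFun (congrFun (g.1.apply_symm_apply X) 0) c).symm
  show _ = B.1.symm (X 0) b
  conv_rhs => rw [hrow, LinearEquiv.symm_apply_apply]

lemma IsRow.unique {g : OQ (Qm F)} {B B' : O3 F} (h : IsRow g B) (h' : IsRow g B') : B = B' :=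
  ext3 fun v k => by
    have h1 := h (vecMulVec (e 0) v) k
    have h2 := h' (vecMulVec (e 0) v) k
    have hv : (vecMulVec (e (F := F) 0) v) 0 = v := funext fun c => by simp [vecMulVec_apply]
    rw [hv] at h1 h2
    exact h1.symm.trans h2

lemma isRow_one : IsRow (1 : OQ (Qm F)) 1 := fun _ _ => rfl

lemma IsRow.pow {g : OQ (Qm F)} {B : O3 F} (h : IsRow g B) : ∀ n : ℕ, IsRow (g ^ n) (B ^ n)
  | 0 => by rw [pow_zero, pow_zero]; exact isRow_one
  | n + 1 => by rw [pow_succ, pow_succ]; exact (h.pow n).mul h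

lemma isRow_G {A B : O3 F} (hA : A.1 (e 0) = e 0) : IsRow (G A B) B := by
  intro X b
  have hA' : A⁻¹.1 (e 0) = e 0 := (LinearEquiv.symm_apply_eq _).2 hA.symm
  have hrow : ∀ k, mat A 0 k = (e 0 : Fin 3 → F) k := fun k => by
    conv_rhs => rw [← hA', ← mat_apply, mat_inv two0, transpose_apply]
  rw [G_apply, ← mat_mulVec, Matrix.mulVec, dotProduct, Matrix.mul_apply]
  refine Finset.sum_congr rfl fun k _ => ?_
  rw [Matrix.mul_apply, Fin.sum_univ_three, hrow, hrow, hrow, transpose_apply]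
  simp [e]; ring

lemma isRow_G' {A B : O3 F} (hA : A.1 (e 0) = -e 0) : IsRow (G A B) (neg3 * B) := by
  rw [← G_neg A B]
  exact isRow_G (by rw [mul_apply3, hA, neg3_apply, neg_neg])

/-- An element commuting with `G (t 0) 1` acts on the first row. -/
lemma exists_isRow {g : OQ (Qm F)} (hs : g * G (t 0) 1 = G (t 0) 1 * g) :
    ∃ B, IsRow g B := by
  classical
  have hrow : ∀ v, (G (t 0) 1).1 (vecMulVec (e 0) v) = (1 : F) • vecMulVec (e (F := F) 0) v := by
    intro v; rw [G_vec, t_e, one_smul]; rfl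
  have hdec : ∀ v, g.1 (vecMulVec (e 0) v) =
      vecMulVec (e 0) (fun b => g.1 (vecMulVec (e 0) v) 0 b) := by
    intro v
    ext a b
    rw [vecMulVec_apply]
    by_cases ha : a = 0
    · subst ha; simp
    · have h := congrFun (congrFun (eigen_comm hs (hrow v)) a) b
      rw [G_t_one_apply, if_neg ha, one_smul] at h
      rw [eigen_zero (h.trans (one_mul _).symm) one_ne_neg_one'.symm]
      simp [e, ha]
  have hrest : ∀ X : Matrix (Fin 3) (Fin 3) F, (∀ b, X 0 b = 0) → ∀ b, g.1 X 0 b = 0 := by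
    intro X hX b
    have hX' : (G (t 0) 1).1 X = (-1 : F) • X := by
      ext a c
      rw [G_t_one_apply, Matrix.smul_apply, smul_eq_mul]
      by_cases ha : a = 0
      · subst ha; simp [hX]
      · rw [if_neg ha]
    have h := congrFun (congrFun (eigen_comm hs hX') 0) b
    rw [G_t_one_apply, if_pos rfl, Matrix.smul_apply, smul_eq_mul] at h
    exact eigen_zero h one_ne_neg_one'
  let L : (Fin 3 → F) →ₗ[F] (Fin 3 → F) :=
    { toFun := fun v b => g.1 (vecMulVec (e 0) v) 0 b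
      map_add' := fun v w => by funext b; rw [vecMulVec_add, map_add]; rfl
      map_smul' := fun c v => by funext b; rw [vecMulVec_smul, map_smul]; rfl }
  have hQ : ∀ v, Q3 F (L v) = Q3 F v := fun v => by
    have := OQ_map_app g (vecMulVec (e 0) v)
    rwa [hdec, Qm_vmv, Qm_vmv, ← Q3_dot, ← Q3_dot, ← Q3_dot, Q3_e, one_mul, one_mul] at this
  have hinj : Function.Injective L := by
    intro v w hvw
    have h : g.1 (vecMulVec (e 0) v) = g.1 (vecMulVec (e 0) w) := by
      rw [hdec v, hdec w]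
      exact congrArg (fun u => vecMulVec (e 0) u) hvw
    funext b
    simpa [vecMulVec_apply] using congrFun (congrFun (g.1.injective h) 0) b
  refine ⟨⟨LinearEquiv.ofInjectiveEndo L hinj, hQ⟩, fun X b => ?_⟩
  show _ = g.1 (vecMulVec (e 0) (X 0)) 0 b
  have := hrest (X - vecMulVec (e 0) (X 0)) (fun c => by simp [vecMulVec_apply]) b
  rwa [map_sub, Matrix.sub_apply, sub_eq_zero] at this

/-- Supported on the first row and the first column. -/
def Low (X : Matrix (Fin 3) (Fin 3) F) : Prop := ∀ a b, a ≠ 0 → b ≠ 0 → X a b = 0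

lemma low_G {A B : O3 F} (hA : ∀ i, i ≠ (0 : Fin 3) → mat A i 0 = 0)
    (hB : ∀ i, i ≠ (0 : Fin 3) → mat B i 0 = 0) {X : Matrix (Fin 3) (Fin 3) F} (hX : Low X) :
    Low ((G A B).1 X) := by
  intro a b ha hb
  rw [G_apply, Matrix.mul_apply]
  refine Finset.sum_eq_zero fun l _ => ?_
  by_cases hl : l = 0
  · subst hl; rw [transpose_apply, hB b hb, mul_zero]
  · rw [Matrix.mul_apply, Finset.sum_eq_zero (fun k _ => ?_), zero_mul]
    by_cases hk : k = 0
    · subst hk; rw [hA a ha, zero_mul]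
    · rw [hX k l hk hl, mul_zero]

lemma mat_col_zero {A : O3 F} (hA : A.1 (e 0) = e 0 ∨ A.1 (e 0) = -e 0) (i : Fin 3) (hi : i ≠ 0) :
    mat A i 0 = 0 := by
  rw [mat_apply]; rcases hA with h | h <;> rw [h] <;> simp [e, hi]

/-- The elements of the double centraliser fixing the first row and column. -/
noncomputable def K00 (M : Subgroup (OQ (Qm F))) : Subgroup (OQ (Qm F)) where
  carrier := {k | k ∈ M ∧ k * G (t 0) 1 = G (t 0) 1 * k ∧ k * G 1 (t 0) = G 1 (t 0) * k ∧
    ∀ X, Low X → k.1 X = X}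
  one_mem' := ⟨one_mem _, by simp, by simp, fun X _ => rfl⟩
  mul_mem' := fun {a b} ha hb => ⟨mul_mem ha.1 hb.1, (Commute.mul_left ha.2.1 hb.2.1).eq,
    (Commute.mul_left ha.2.2.1 hb.2.2.1).eq, fun X hX => by
      rw [mul_applym, hb.2.2.2 X hX, ha.2.2.2 X hX]⟩
  inv_mem' := fun {a} ha => ⟨inv_mem ha.1, (Commute.inv_left ha.2.1).eq,
    (Commute.inv_left ha.2.2.1).eq, fun X hX => (LinearEquiv.symm_apply_eq _).2 (ha.2.2.2 X hX).symm⟩

lemma tr3_t (i : Fin 3) : tr3 (t i : O3 F) = -1 := tr3_hturn _ _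

lemma tr3_t_ne (i : Fin 3) : tr3 (t i : O3 F) ≠ 0 := by
  rw [tr3_t]; exact neg_ne_zero.2 one_ne_zero

lemma dick_t (i : Fin 3) : dick two0 (t i : O3 F) = 1 := dick_hturn _ _ _

lemma t_ne_one (i : Fin 3) : (t i : O3 F) ≠ 1 := fun h => by
  have := congrArg tr3 h
  rw [tr3_t, tr3_one] at this
  exact mul_ne_zero (two0 (F := F)) two0 (by linear_combination -this)

lemma comm_s {A B : O3 F} (h : G A B * G (t 0) 1 = G (t 0) 1 * G A B) : A * t 0 = t 0 * A :=
  (comm_of_commute h (Or.inl (tr3_t_ne 0))).1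

lemma four0 : (4 : F) ≠ 0 := by
  rw [show (4 : F) = 2 * 2 by norm_num]; exact mul_ne_zero two0 two0

lemma trM_right (H : O3 F) : trM (G 1 H) = 3 * tr3 H := by rw [trM_G, tr3_one]

lemma trM_left (H : O3 F) : trM (G H 1) = 3 * tr3 H := by rw [trM_G, tr3_one, mul_comm]

namespace Hyp

variable (hM : Hyp M) (hq : 5 ≤ Nat.card F)
include hM hq

lemma k00_eq_one {k : OQ (Qm F)} (hk : k ∈ K00 M)
    (h : k * G 1 (t 1) = G 1 (t 1) * k ∨ k * G (t 1) 1 = G (t 1) 1 * k) : k = 1 := by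
  have h12 : (t 0 : O3 F) * t 1 = t 2 := t_mul (by decide) (by decide) (by decide)
  obtain ⟨A, B, rfl⟩ : ∃ A B : O3 F, k = G A B := by
    rcases h with h | h
    · refine hM.frame_col hq hk.1 fun j => ?_
      have h2 := commute_mul hk.2.2.1 h
      rw [G_mul, one_mul, h12] at h2
      fin_cases j
      exacts [hk.2.2.1, h, h2]
    · refine hM.frame_row hq hk.1 fun j => ?_
      have h2 := commute_mul hk.2.1 h
      rw [G_mul, one_mul, h12] at h2
      fin_cases j
      exacts [hk.2.1, h, h2]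
  have hfix : ∀ a b, (a = 0 ∨ b = 0) → ∀ i j, mat A i a * mat B j b =
      if i = a ∧ j = b then 1 else 0 := by
    intro a b hab i j
    rw [← G_single, hk.2.2.2 _ (fun a' b' ha hb => by
      rw [Matrix.single_apply, if_neg]
      rintro ⟨rfl, rfl⟩
      exact hab.elim ha hb)]
    simp [Matrix.single_apply, eq_comm]
  have h00 : mat A 0 0 * mat B 0 0 = 1 := by simpa using hfix 0 0 (Or.inl rfl) 0 0
  have hA : ∀ i a, mat A i a = if i = a then mat A 0 0 else 0 := by
    intro i a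
    have := hfix a 0 (Or.inr rfl) i 0
    refine mul_right_cancel₀ (right_ne_zero_of_mul_eq_one h00) ?_
    rw [this]
    by_cases hi : i = a
    · rw [if_pos ⟨hi, rfl⟩, if_pos hi, h00]
    · rw [if_neg (fun hh => hi hh.1), if_neg hi, zero_mul]
  have hB : ∀ j b, mat B j b = if j = b then mat B 0 0 else 0 := by
    intro j b
    have := hfix 0 b (Or.inl rfl) 0 j
    refine mul_left_cancel₀ (left_ne_zero_of_mul_eq_one h00) ?_
    rw [this]
    by_cases hi : j = b
    · rw [if_pos ⟨rfl, hi⟩, if_pos hi, h00]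
    · rw [if_neg (fun hh => hi hh.2), if_neg hi, mul_zero]
  refine eq_of_single fun a b => ?_
  ext i j
  rw [G_single, hA, hB]
  show _ = Matrix.single a b (1 : F) i j
  rw [Matrix.single_apply]
  by_cases hi : i = a
  · by_cases hj : j = b
    · rw [if_pos hi, if_pos hj, if_pos ⟨hi.symm, hj.symm⟩, h00]
    · rw [if_neg hj, mul_zero, if_neg (fun hh => hj hh.2.symm)]
  · rw [if_neg hi, zero_mul, if_neg (fun hh => hi hh.1.symm)]

lemma k00_inv {k : OQ (Qm F)} (hk : k ∈ K00 M) {S : O3 F} (hS : S.1 (e 0) = e 0) :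
    G 1 (S * t 1 * S⁻¹) * k * G 1 (S * t 1 * S⁻¹) = k⁻¹ ∧
      G (S * t 1 * S⁻¹) 1 * k * G (S * t 1 * S⁻¹) 1 = k⁻¹ := by
  haveI := finiteOQm (F := F)
  set n := G S S with hn
  have hS' : S⁻¹.1 (e 0) = e 0 := (LinearEquiv.symm_apply_eq _).2 hS.symm
  have hnK : ∀ l ∈ K00 M, n⁻¹ * l * n ∈ K00 M := by
    intro l hl
    have hnM : n ∈ M := hM.diag_mem S
    have hns : n * G (t 0) 1 = G (t 0) 1 * n := by
      rw [hn, G_mul, G_mul, t_comm_t0 hS]; simp
    have hns' : n * G 1 (t 0) = G 1 (t 0) * n := by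
      rw [hn, G_mul, G_mul, t_comm_t0 hS]; simp
    refine ⟨mul_mem (mul_mem (inv_mem hnM) hl.1) hnM,
      ((Commute.inv_left hns).mul_left hl.2.1 |>.mul_left hns).eq,
      ((Commute.inv_left hns').mul_left hl.2.2.1 |>.mul_left hns').eq, fun X hX => ?_⟩
    rw [mul_applym, mul_applym, hl.2.2.2 _
      (low_G (mat_col_zero (Or.inl hS)) (mat_col_zero (Or.inl hS)) hX), ← mul_applym, inv_mul_cancel]
    rfl
  have key : ∀ a : OQ (Qm F), a * a = 1 → a * G (t 0) 1 = G (t 0) 1 * a →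
      a * G 1 (t 0) = G 1 (t 0) * a → a ∈ M → (∀ X, Low X → Low (a.1 X)) →
      (∀ l ∈ K00 M, a * l = l * a → l = 1) →
      (n * a * n⁻¹) * k * (n * a * n⁻¹) = k⁻¹ := by
    intro a ha has has' haM halow hfix
    have h := fpf_inv (K00 M) ha (fun l hl => ⟨mul_mem (mul_mem haM hl.1) haM,
      ((Commute.mul_left has hl.2.1).mul_left has).eq,
      ((Commute.mul_left has' hl.2.2.1).mul_left has').eq, fun X hX => by
        rw [mul_applym, mul_applym, hl.2.2.2 _ (halow X hX), ← mul_applym, ha]; rfl⟩)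
      hfix (hnK k hk)
    calc n * a * n⁻¹ * k * (n * a * n⁻¹) = n * (a * (n⁻¹ * k * n) * a) * n⁻¹ := by
          simp [mul_assoc]
      _ = k⁻¹ := by rw [h]; simp [mul_assoc]
  have ht : ∀ i, i ≠ (0 : Fin 3) → mat (t 1 : O3 F) i 0 = 0 :=
    mat_col_zero (Or.inr (t_e_ne (by decide)))
  have h1 : ∀ i, i ≠ (0 : Fin 3) → mat (1 : O3 F) i 0 = 0 := mat_col_zero (Or.inl rfl)
  constructor
  · have := key (G 1 (t 1)) (by rw [G_mul, one_mul, t_sq, G_one])
      (by rw [G_mul, G_mul, one_mul, mul_one, mul_one, one_mul])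
      (by rw [G_mul, G_mul, t_comm 1 0])
      (hM.right_mem (t_mem two0 1)) (fun X hX => low_G h1 ht hX)
      (fun l hl h => hM.k00_eq_one hq hl (Or.inl h.symm))
    rwa [hn, G_conj, mul_one, mul_inv_cancel] at this
  · have := key (G (t 1) 1) (by rw [G_mul, one_mul, t_sq, G_one])
      (by rw [G_mul, G_mul, t_comm 1 0])
      (by rw [G_mul, G_mul, one_mul, mul_one, mul_one, one_mul])
      (hM.left_mem (t_mem two0 1)) (fun X hX => low_G ht h1 hX)
      (fun l hl h => hM.k00_eq_one hq hl (Or.inr h.symm))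
    rwa [hn, G_conj, mul_one, mul_inv_cancel] at this

lemma k00_trivial {k : OQ (Qm F)} (hk : k ∈ K00 M) : k = 1 := by
  have hinv1 := hM.k00_inv hq hk (S := 1) rfl
  simp only [one_mul, inv_one, mul_one] at hinv1
  -- products of two inverting involutions centralise
  have hprod : ∀ a b : OQ (Qm F), a * a = 1 → b * b = 1 → a * k * a = k⁻¹ → b * k * b = k⁻¹ →
      k * (a * b) = a * b * k := by
    intro a b ha hb hka hkb
    have h1 : a * k = k⁻¹ * a := by rw [← hka, mul_assoc (a * k), ha, mul_one]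
    have h2 : b * k = k⁻¹ * b := by rw [← hkb, mul_assoc (b * k), hb, mul_one]
    have h3 : a * k⁻¹ = k * a := by
      rw [← hka, ← mul_assoc, ← mul_assoc, ha, one_mul]
    rw [mul_assoc a b k, h2, ← mul_assoc a k⁻¹ b, h3, mul_assoc]
  have hsq : ∀ i, G 1 (t i) * G 1 (t i) = (1 : OQ (Qm F)) ∧ G (t i) 1 * G (t i) 1 = (1 : OQ (Qm F)) :=
    fun i => by rw [G_mul, G_mul, one_mul, t_sq, G_one]; exact ⟨rfl, rfl⟩
  have hz : k * G (t 1) (t 1) = G (t 1) (t 1) * k := by
    have := hprod _ _ (hsq 1).2 (hsq 1).1 hinv1.2 hinv1.1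
    rwa [G_mul, one_mul, mul_one] at this
  -- the shape on the lower block
  have hshape : ∀ a b a' b' : Fin 3, a ≠ 0 → b ≠ 0 → a' ≠ 0 → b' ≠ 0 → a ≠ a' → b ≠ b' →
      ∃ p q : F, k.1 (Matrix.single a b 1) = p • Matrix.single a b 1 + q • Matrix.single a' b' 1 ∧
        p * p + q * q = 1 := by
    intro a b a' b' ha hb ha' hb' haa hbb
    obtain ⟨Y, hY⟩ : ∃ Y, Y = k.1 (Matrix.single a b 1) := ⟨_, rfl⟩
    have hsupp : ∀ i j, ¬(i = a ∧ j = b) → ¬(i = a' ∧ j = b') → Y i j = 0 := by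
      intro i j h1 h2
      have he : ∀ P Q : Fin 3,
          (G (t P) (t Q)).1 (Matrix.single a b 1) =
            (sg P a * sg Q b : F) • Matrix.single a b (1 : F) := by
        intro P Q
        ext x y
        rw [G_t_apply, Matrix.smul_apply, smul_eq_mul, Matrix.single_apply]
        split_ifs with h <;> simp [sg, h] <;> (try simp_all)
      have hs : (G (t 0) 1).1 (Matrix.single a b 1) = (-1 : F) • Matrix.single a b (1 : F) := by
        ext x y
        rw [G_t_one_apply, Matrix.smul_apply, smul_eq_mul, Matrix.single_apply]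
        split_ifs with hh hx <;> simp_all
      have hs' : (G 1 (t 0)).1 (Matrix.single a b 1) = (-1 : F) • Matrix.single a b (1 : F) := by
        ext x y
        rw [G_one_t_apply, Matrix.smul_apply, smul_eq_mul, Matrix.single_apply]
        split_ifs with hh hx <;> simp_all
      have e1 := congrFun (congrFun (eigen_comm hk.2.1 hs) i) j
      have e2 := congrFun (congrFun (eigen_comm hk.2.2.1 hs') i) j
      have e3 := congrFun (congrFun (eigen_comm hz (he 1 1)) i) j
      rw [← hY, G_t_one_apply, Matrix.smul_apply, smul_eq_mul] at e1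
      rw [← hY, G_one_t_apply, Matrix.smul_apply, smul_eq_mul] at e2
      rw [← hY, G_t_apply, Matrix.smul_apply, smul_eq_mul] at e3
      by_cases hi : i = 0
      · rw [if_pos hi] at e1; exact eigen_zero e1 one_ne_neg_one'
      by_cases hj : j = 0
      · rw [if_pos hj] at e2; exact eigen_zero e2 one_ne_neg_one'
      have htwo : ∀ x x' w : Fin 3, x ≠ 0 → x' ≠ 0 → x ≠ x' → w ≠ 0 → w = x ∨ w = x' := by decide
      have hopp : ∀ x x' : Fin 3, x ≠ 0 → x' ≠ 0 → x ≠ x' → (x = 1 ∧ x' ≠ 1) ∨ (x ≠ 1 ∧ x' = 1) := by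
        decide
      have hsg : ∀ x x' : Fin 3, x ≠ 0 → x' ≠ 0 → x ≠ x' →
          (if x' = 1 then (1 : F) else -1) = -sg 1 x := fun x x' h h' h'' => by
        rcases hopp x x' h h' h'' with ⟨h1, h2⟩ | ⟨h1, h2⟩
        · rw [if_neg h2, sg, if_pos h1]
        · rw [if_pos h2, sg, if_neg h1, neg_neg]
      have hne : (sg 1 a * sg 1 b : F) ≠ -(sg 1 a * sg 1 b) := fun h => by
        have h' : 2 * (sg 1 a * sg 1 b : F) = 0 := by linear_combination h
        rw [mul_eq_zero, or_iff_right two0, mul_eq_zero] at h'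
        simp only [sg] at h'
        split_ifs at h' <;> simp at h'
      refine eigen_zero e3 ?_
      rcases htwo a a' i ha ha' haa hi with rfl | rfl <;>
        rcases htwo b b' j hb hb' hbb hj with rfl | rfl
      · exact absurd ⟨rfl, rfl⟩ h1
      · rw [hsg b j hb hb' hbb, mul_neg]; exact hne.symm
      · rw [hsg a i ha ha' haa, neg_mul]; exact hne.symm
      · exact absurd ⟨rfl, rfl⟩ h2
    refine ⟨Y a b, Y a' b', ?_, ?_⟩
    · rw [← hY]
      ext i j
      simp only [Matrix.add_apply, Matrix.smul_apply, Matrix.single_apply, smul_eq_mul, mul_ite,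
        mul_one, mul_zero]
      by_cases h1 : i = a ∧ j = b
      · obtain ⟨rfl, rfl⟩ := h1; simp [haa.symm]
      by_cases h2 : i = a' ∧ j = b'
      · obtain ⟨rfl, rfl⟩ := h2; simp [haa]
      rw [hsupp i j h1 h2, if_neg (fun h => h1 ⟨h.1.symm, h.2.symm⟩),
        if_neg (fun h => h2 ⟨h.1.symm, h.2.symm⟩), add_zero]
    · have hQ : Qm F Y = 1 := by
        rw [hY, OQ_map_app, Matrix.single_eq_single_vecMulVec_single, Qm_vmv]
        simp
      rw [Qm_sum, ← Fintype.sum_prod_type'] at hQ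
      rw [← hQ, Finset.sum_eq_add_sum_sdiff_singleton_of_mem (Finset.mem_univ (a, b)),
        Finset.sum_eq_single (a', b')]
      · intro c hc hc'
        simp only [Finset.mem_sdiff, Finset.mem_singleton] at hc
        rw [hsupp c.1 c.2 (fun h => hc.2 (Prod.ext h.1 h.2)) (fun h => hc' (Prod.ext h.1 h.2)),
          mul_zero]
      · intro hh
        simp [haa.symm] at hh
  -- the columns are signed units
  have hunit : ∀ a b a' b' : Fin 3, a ≠ 0 → b ≠ 0 → a' ≠ 0 → b' ≠ 0 → a ≠ a' → b ≠ b' →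
      ∃ ε : F, ε * ε = 1 ∧ (k.1 (Matrix.single a b 1) = ε • Matrix.single a b 1 ∨
        k.1 (Matrix.single a b 1) = ε • Matrix.single a' b' 1) := by
    intro a b a' b' ha hb ha' hb' haa hbb
    obtain ⟨p, q, hpq, hnorm⟩ := hshape a b a' b' ha hb ha' hb' haa hbb
    suffices hz0 : p * q = 0 by
      rcases mul_eq_zero.1 hz0 with h | h
      · exact ⟨q, by rw [h] at hnorm; linear_combination hnorm,
          Or.inr (by rw [hpq, h, zero_smul, zero_add])⟩
      · exact ⟨p, by rw [h] at hnorm; linear_combination hnorm,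
          Or.inl (by rw [hpq, h, zero_smul, add_zero])⟩
    by_cases hsol : ∃ c d : F, c * c + d * d = 1 ∧ c * d ≠ 0
    swap
    · by_contra h; exact hsol ⟨p, q, hnorm, h⟩
    obtain ⟨c, d, hcd, hcd0⟩ := hsol
    -- a rotation
    set ν : Fin 3 → F := ![0, c, d] with hν
    have hQν : Q3 F ν = 1 := by simp [hν, Q3_apply]; linear_combination hcd
    obtain ⟨S, hS, hSfix⟩ := exists_conj_hturn (two0 (F := F)) (ν := e 1) (Q3_e_ne 1)
      (μ := ν) (by rw [hQν]; exact one_ne_zero) (by rw [Q3_e, hQν, one_mul]; exact IsSquare.one)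
    have hS0 : S.1 (e 0) = e 0 := hSfix _ (by simp [polar_Q3, e]) (by simp [polar_Q3, e, hν])
    have hinv := hM.k00_inv hq hk hS0
    replace hS : S * t 1 * S⁻¹ = hturn ν (by rw [hQν]; exact one_ne_zero) := hS
    rw [hS] at hinv
    set H := hturn ν (by rw [hQν]; exact one_ne_zero) with hH
    set D := H * t 1 with hD
    have hHsq : G (1 : O3 F) H * G 1 H = 1 ∧ G H (1 : O3 F) * G H 1 = 1 := by
      rw [G_mul, G_mul, one_mul, hturn_sq, G_one]; exact ⟨rfl, rfl⟩
    have hD1 : k * G D 1 = G D 1 * k := by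
      have := hprod _ _ hHsq.2 (hsq 1).2 hinv.2 hinv1.2
      rwa [G_mul, one_mul] at this
    have hD2 : k * G 1 D = G 1 D * k := by
      have := hprod _ _ hHsq.1 (hsq 1).1 hinv.1 hinv1.1
      rwa [G_mul, one_mul] at this
    set γ := 2 * (c * c) - 1 with hγ
    set δ := 2 * (c * d) with hδ
    have hδ0 : δ ≠ 0 := mul_ne_zero two0 hcd0
    have hDe1 : D.1 (e 1) = γ • e 1 + δ • e 2 := by
      rw [hD, mul_apply3, t_e, hH, hturn_apply, hQν, inv_one, one_mul]
      funext i
      fin_cases i <;> simp [polar_Q3, hν, e, hγ, hδ] <;> ring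
    have hDe2 : D.1 (e 2) = (-δ) • e 1 + γ • e 2 := by
      rw [hD, mul_apply3, t_e_ne (by decide), hH, hturn_apply, hQν, inv_one, one_mul]
      funext i
      fin_cases i <;> simp [polar_Q3, hν, e, hγ, hδ]
      · ring
      · linear_combination -2 * hcd
    -- the operator `L R`
    let LR : Matrix (Fin 3) (Fin 3) F → Matrix (Fin 3) (Fin 3) F := fun X =>
      (G D 1).1 ((G 1 D).1 X - γ • X) - γ • ((G 1 D).1 X - γ • X)
    have hLRk : ∀ X, k.1 (LR X) = LR (k.1 X) := fun X => by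
      have c1 : ∀ Y, k.1 ((G D 1).1 Y) = (G D 1).1 (k.1 Y) := fun Y => by
        rw [← mul_applym, hD1, mul_applym]
      have c2 : ∀ Y, k.1 ((G 1 D).1 Y) = (G 1 D).1 (k.1 Y) := fun Y => by
        rw [← mul_applym, hD2, mul_applym]
      simp only [LR, map_sub, map_smul, c1, c2]
    have hLRs : ∀ (p q : F) (X Y : Matrix (Fin 3) (Fin 3) F),
        LR (p • X + q • Y) = p • LR X + q • LR Y := fun p q X Y => by
      simp only [LR, map_add, map_sub, map_smul]
      module
    have hLRe : ∀ a b, LR (Matrix.single a b 1) =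
        vecMulVec (D.1 (e a) - γ • e a) (D.1 (e b) - γ • e b) := by
      intro a b
      simp only [LR, Matrix.single_eq_single_vecMulVec_single, map_sub, map_smul, G_vec]
      simp only [sub_vecMulVec, vecMulVec_sub, smul_vecMulVec, vecMulVec_smul]
      show _ = _
      simp only [show ∀ v : Fin 3 → F, (1 : O3 F).1 v = v from fun _ => rfl]
      module
    obtain ⟨σ, hσ0, hX, hX'⟩ : ∃ σ : F, σ ≠ 0 ∧
        LR (Matrix.single a b 1) = σ • Matrix.single a' b' 1 ∧
        LR (Matrix.single a' b' 1) = σ • Matrix.single a b 1 := by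
      have hother : ∀ x x' : Fin 3, x ≠ 0 → x' ≠ 0 → x ≠ x' →
          (x = 1 ∧ x' = 2) ∨ (x = 2 ∧ x' = 1) := by decide
      have h1 : D.1 (e 1) - γ • e (F := F) 1 = δ • e 2 := by rw [hDe1]; abel
      have h2 : D.1 (e 2) - γ • e (F := F) 2 = (-δ) • e 1 := by rw [hDe2]; abel
      rw [hLRe, hLRe]
      simp only [Matrix.single_eq_single_vecMulVec_single]
      rcases hother a a' ha ha' haa with ⟨rfl, rfl⟩ | ⟨rfl, rfl⟩ <;>
        rcases hother b b' hb hb' hbb with ⟨rfl, rfl⟩ | ⟨rfl, rfl⟩ <;>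
        rw [h1, h2] <;> simp only [smul_vecMulVec, vecMulVec_smul, smul_smul]
      exacts [⟨δ * δ, mul_ne_zero hδ0 hδ0, rfl, by rw [neg_mul_neg]⟩,
        ⟨-(δ * δ), neg_ne_zero.2 (mul_ne_zero hδ0 hδ0), by simp, by simp⟩,
        ⟨-(δ * δ), neg_ne_zero.2 (mul_ne_zero hδ0 hδ0), by simp, by simp⟩,
        ⟨δ * δ, mul_ne_zero hδ0 hδ0, by rw [neg_mul_neg], rfl⟩]
    have hk' : k.1 (Matrix.single a' b' 1) =
        q • Matrix.single a b 1 + p • Matrix.single a' b' 1 := by
      have h := hLRk (Matrix.single a b 1)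
      rw [hpq, hLRs, hX, hX', map_smul] at h
      apply smul_right_injective _ hσ0
      show σ • _ = σ • _
      rw [h]; module
    have hpol := OQ_polar k (Matrix.single a b 1) (Matrix.single a' b' 1)
    rw [hpq, hk'] at hpol
    simp only [polar_add_left, polar_add_right, polar_smul_left, polar_smul_right, smul_eq_mul,
      Matrix.single_eq_single_vecMulVec_single, polar_vmv_vmv, single_dotProduct] at hpol
    simp [haa, hbb, haa.symm, hbb.symm] at hpol
    have : 2 * (2 * (p * q)) = 0 := by linear_combination hpol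
    exact (mul_eq_zero.1 ((mul_eq_zero.1 this).resolve_left two0)).resolve_left two0
  -- the fourth power is trivial
  have hfour : k * k * (k * k) = 1 := by
    refine eq_of_single fun a b => ?_
    show (k * k * (k * k)).1 _ = Matrix.single a b (1 : F)
    by_cases hab : a = 0 ∨ b = 0
    · have hl : Low (Matrix.single a b (1 : F)) := fun a' b' ha hb => by
        rw [Matrix.single_apply, if_neg]
        rintro ⟨rfl, rfl⟩
        exact hab.elim ha hb
      simp only [mul_applym, hk.2.2.2 _ hl]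
    push Not at hab
    have hex : ∀ x : Fin 3, ∃ x' : Fin 3, x' ≠ 0 ∧ x ≠ x' := by decide
    obtain ⟨a', ha', haa⟩ := hex a
    obtain ⟨b', hb', hbb⟩ := hex b
    obtain ⟨ε, hε, h⟩ := hunit a b a' b' hab.1 hab.2 ha' hb' haa hbb
    rcases h with h | h
    · simp only [mul_applym, h, map_smul, smul_smul]
      rw [show ε * ε * (ε * ε) = 1 by rw [hε, mul_one], one_smul]
    obtain ⟨ε', hε', h'⟩ := hunit a' b' a b ha' hb' hab.1 hab.2 haa.symm hbb.symm
    rcases h' with h' | h'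
    · exfalso
      have h0 : k.1 (ε' • Matrix.single a b 1) = k.1 (ε • Matrix.single a' b' 1) := by
        rw [map_smul, map_smul, h, h', smul_smul, smul_smul, mul_comm]
      have := congrFun (congrFun (k.1.injective h0) a) b
      simp [haa.symm] at this
      rw [this, mul_zero] at hε'
      exact zero_ne_one hε'
    · simp only [mul_applym, h, h', map_smul, smul_smul]
      rw [show ε * ε' * (ε * ε') = (ε * ε) * (ε' * ε') by ring, hε, hε', mul_one, one_smul]
  -- no elements of even order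
  have hinvol : ∀ l ∈ K00 M, l * l = 1 → l = 1 := by
    intro l hl hll
    have h := (hM.k00_inv hq hl (S := 1) rfl).1
    simp only [one_mul, inv_one, mul_one] at h
    rw [inv_eq_of_mul_eq_one_right hll] at h
    refine hM.k00_eq_one hq hl (Or.inl ?_)
    calc l * G 1 (t 1) = G 1 (t 1) * l * G 1 (t 1) * G 1 (t 1) := by rw [h]
      _ = G 1 (t 1) * l := by rw [mul_assoc (_ * l), (hsq 1).1, mul_one]
  exact hinvol k hk (hinvol (k * k) (mul_mem hk hk) hfour)

/-- The centraliser of `t₀ ⊗ 1` and `1 ⊗ t₀`. -/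
theorem cent_pair {g : OQ (Qm F)} (hg : g ∈ M) (hs : g * G (t 0) 1 = G (t 0) 1 * g)
    (hs' : g * G 1 (t 0) = G 1 (t 0) * g) : ∃ A B : O3 F, g = G A B := by
  obtain ⟨L, hL⟩ := exists_isRow hs
  have hLe : L.1 (e 0) = e 0 ∨ L.1 (e 0) = -e 0 := by
    refine axis_of_comm two0 (h := Q3_e_ne 0) ?_
    have h1 : IsRow (G (1 : O3 F) (t 0)) (t 0) := isRow_G rfl
    exact ((hL.mul h1).unique (hs' ▸ (h1.mul hL)) :)
  set n := G L L with hn
  have hnM : n⁻¹ ∈ M := inv_mem (hM.diag_mem L)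
  have hns : n * G (t 0) 1 = G (t 0) 1 * n := by
    rw [hn, G_mul, G_mul, comm_t0_of_axis hLe]; simp
  have hns' : n * G 1 (t 0) = G 1 (t 0) * n := by
    rw [hn, G_mul, G_mul, comm_t0_of_axis hLe]; simp
  set g' := n⁻¹ * g with hg'
  have hg's : g' * G (t 0) 1 = G (t 0) 1 * g' := ((Commute.inv_left hns).mul_left hs).eq
  have hg's' : g' * G 1 (t 0) = G 1 (t 0) * g' := ((Commute.inv_left hns').mul_left hs').eq
  obtain ⟨P, hP, hPc⟩ : ∃ P, IsRow g' P ∧ (P = 1 ∨ P = neg3) := by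
    rcases hLe with h | h
    · refine ⟨_, (isRow_G h).inv.mul hL, Or.inl ?_⟩
      exact inv_mul_cancel L
    · refine ⟨_, (isRow_G' h).inv.mul hL, Or.inr ?_⟩
      rw [_root_.mul_inv_rev, show (neg3 : O3 F)⁻¹ = neg3 from inv_eq_of_mul_eq_one_right neg3_mul_self,
        mul_assoc, neg3_comm,
        ← mul_assoc, inv_mul_cancel, one_mul]
  -- on the first row and column `g'` commutes with `1 ⊗ t₁`
  set a := G (1 : O3 F) (t 1) with ha
  have haa : a * a = 1 := by rw [ha, G_mul, one_mul, t_sq, G_one]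
  have hcomm : ∀ X, Low X → g'.1 (a.1 X) = a.1 (g'.1 X) := by
    intro X hX
    set X1 := vecMulVec (e 0) (X 0) with hX1
    set X2 := X - X1 with hX2
    have hX20 : ∀ b, X2 0 b = 0 := fun b => by simp [hX2, hX1, vecMulVec_apply]
    have hX2l : ∀ x y, y ≠ 0 → X2 x y = 0 := by
      intro x y hy
      by_cases hx : x = 0
      · subst hx; exact hX20 y
      · simp [hX2, hX1, vecMulVec_apply, hX x y hx hy, e, hx]
    have r1 : g'.1 (a.1 X1) = a.1 (g'.1 X1) := by
      have hgr : ∀ v, g'.1 (vecMulVec (e 0) v) = vecMulVec (e 0) (P.1 v) := by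
        intro v
        ext x y
        by_cases hx : x = 0
        · subst hx
          rw [hP, vecMulVec_apply]
          simp only [e, Pi.single_eq_same, one_mul]
          exact congrFun (congrArg (P.1 : (Fin 3 → F) → Fin 3 → F)
            (funext fun c => by simp [vecMulVec_apply])) y
        · have hfix : (G (t 0) 1).1 (vecMulVec (e 0) v) =
              (1 : F) • vecMulVec (e (F := F) 0) v := by rw [G_vec, t_e, one_smul]; rfl
          have h := congrFun (congrFun (eigen_comm hg's hfix) x) y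
          rw [G_t_one_apply, if_neg hx, one_smul] at h
          rw [eigen_zero (h.trans (one_mul _).symm) one_ne_neg_one'.symm, vecMulVec_apply]
          simp [e, hx]
      have har : ∀ v, a.1 (vecMulVec (e 0) v) = vecMulVec (e 0) ((t 1 : O3 F).1 v) := fun v => by
        rw [ha, G_vec]; rfl
      rw [hX1, har, hgr, hgr, har]
      congr 1
      rcases hPc with rfl | rfl
      · rfl
      · simp
    have r2 : g'.1 (a.1 X2) = a.1 (g'.1 X2) := by
      have hneg : ∀ Y : Matrix (Fin 3) (Fin 3) F, (∀ x y, y ≠ 0 → Y x y = 0) →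
          a.1 Y = (-1 : F) • Y := by
        intro Y hY
        ext x y
        rw [ha, G_one_t_apply, Matrix.smul_apply, smul_eq_mul]
        by_cases hy : y = 0
        · subst hy; simp
        · rw [hY x y hy, mul_zero, mul_zero]
      have hpres : ∀ x y, y ≠ 0 → g'.1 X2 x y = 0 := by
        intro x y hy
        have hfix : (G 1 (t 0)).1 X2 = (1 : F) • X2 := by
          ext x' y'
          rw [G_one_t_apply, one_smul]
          by_cases hy' : y' = 0
          · subst hy'; simp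
          · rw [hX2l x' y' hy', mul_zero]
        have h := congrFun (congrFun (eigen_comm hg's' hfix) x) y
        rw [G_one_t_apply, if_neg hy, one_smul] at h
        exact eigen_zero (h.trans (one_mul _).symm) one_ne_neg_one'.symm
      rw [hneg X2 hX2l, hneg _ hpres, map_smul]
    have hX12 : X = X1 + X2 := by rw [hX2]; abel
    rw [hX12, map_add, map_add, map_add, map_add, r1, r2]
  have halow : ∀ X, Low X → Low (a.1 X) := fun X hX =>
    low_G (mat_col_zero (Or.inl rfl)) (mat_col_zero (Or.inr (t_e_ne (by decide)))) hX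
  have has : a * G (t 0) 1 = G (t 0) 1 * a := by
    rw [ha, G_mul, G_mul, one_mul, mul_one, mul_one, one_mul]
  have has' : a * G 1 (t 0) = G 1 (t 0) * a := by rw [ha, G_mul, G_mul, t_comm 1 0]
  have haM : a ∈ M := hM.right_mem (t_mem two0 1)
  have hg'M : g' ∈ M := mul_mem hnM hg
  have hc : g'⁻¹ * a * g' * a ∈ K00 M := by
    refine ⟨mul_mem (mul_mem (mul_mem (inv_mem hg'M) haM) hg'M) haM,
      ((((Commute.inv_left hg's).mul_left has).mul_left hg's).mul_left has).eq,
      ((((Commute.inv_left hg's').mul_left has').mul_left hg's').mul_left has').eq, fun X hX => ?_⟩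
    rw [mul_applym, mul_applym, mul_applym, ← hcomm _ (halow X hX), ← mul_applym g'⁻¹,
      inv_mul_cancel, ← mul_applym a, haa]
    rfl
  have hga : g' * a = a * g' := by
    have h := hM.k00_trivial hq hc
    calc g' * a = g' * (g'⁻¹ * a * g' * a) * a := by rw [h]; simp
      _ = a * g' := by simp [mul_assoc, haa]
  have h12 : (t 0 : O3 F) * t 1 = t 2 := t_mul (by decide) (by decide) (by decide)
  obtain ⟨A, B, hAB⟩ := hM.frame_col hq hg'M fun j => by
    have h2 := commute_mul hg's' hga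
    rw [ha, G_mul, one_mul, h12] at h2
    fin_cases j
    exacts [hg's', hga, h2]
  exact ⟨L * A, L * B, by rw [← G_mul, ← hn, ← hAB, hg', mul_inv_cancel_left]⟩

/-- The centraliser of `t₀ ⊗ 1` and `1 ⊗ tⱼ`. -/
lemma cent_pair' (j : Fin 3) {g : OQ (Qm F)} (hg : g ∈ M)
    (hs : g * G (t 0) 1 = G (t 0) 1 * g) (hs' : g * G 1 (t j) = G 1 (t j) * g) :
    ∃ A B : O3 F, g = G A B := by
  obtain ⟨C, hC, hCt⟩ : ∃ C ∈ U3 F, C * t 0 * C⁻¹ = (t j : O3 F) := by
    have h1 := cyc_conj (F := F) 0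
    have h2 := cyc_conj (F := F) 1
    fin_cases j
    · exact ⟨1, one_mem _, by simp⟩
    · exact ⟨cyc, cyc_mem two0, h1⟩
    · refine ⟨cyc * cyc, mul_mem (cyc_mem two0) (cyc_mem two0), ?_⟩
      rw [show (0 : Fin 3) + 1 = 1 by decide] at h1
      calc _ = cyc * (cyc * t 0 * cyc⁻¹) * cyc⁻¹ := by simp [mul_assoc]
        _ = _ := by rw [h1]; exact h2
  set n := G (1 : O3 F) C with hn
  have hnM : n ∈ M := hM.right_mem hC
  obtain ⟨A, B, h⟩ := hM.cent_pair hq (g := n⁻¹ * g * n)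
    (mul_mem (mul_mem (inv_mem hnM) hg) hnM) (by
      have hn' : n * G (t 0) 1 = G (t 0) 1 * n := by
        rw [hn, G_mul, G_mul, one_mul, mul_one, mul_one, one_mul]
      exact (((Commute.inv_left hn').mul_left hs).mul_left hn').eq) (by
      have hn' : n * G 1 (t 0) = G 1 (t j) * n := by
        rw [hn, G_mul, G_mul, one_mul, ← hCt]; simp [mul_assoc]
      calc n⁻¹ * g * n * G 1 (t 0) = n⁻¹ * (g * G 1 (t j)) * n := by
            simp only [mul_assoc, hn']
        _ = n⁻¹ * G 1 (t j) * g * n := by rw [hs']; simp [mul_assoc]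
        _ = G 1 (t 0) * (n⁻¹ * g * n) := by
            rw [show n⁻¹ * G 1 (t j) = G 1 (t 0) * n⁻¹ by
              rw [inv_mul_eq_iff_eq_mul, ← mul_assoc, hn', mul_inv_cancel_right]]
            simp [mul_assoc])
  refine ⟨A, C * B * C⁻¹, ?_⟩
  have e := G_conj (1 : O3 F) C A B
  rw [one_mul, inv_one, mul_one] at e
  rw [← e, ← h, hn]
  simp [mul_assoc]

/-- The centraliser of `t₀ ⊗ 1`. -/
theorem cent_s {g : OQ (Qm F)} (hg : g ∈ M) (hs : g * G (t 0) 1 = G (t 0) 1 * g) :
    ∃ A B : O3 F, g = G A B := by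
  haveI := finiteOQm (F := F)
  -- elements trivial on the first row
  suffices hK : ∀ k ∈ M, k * G (t 0) 1 = G (t 0) 1 * k → IsRow k 1 →
      k * G 1 (t 1) = G 1 (t 1) * k by
    obtain ⟨B, hB⟩ := exists_isRow hs
    obtain ⟨C, hC, hCB⟩ := exists_stab_mul_mem two0 0 B⁻¹
    set n := G C B with hn
    have hnM : n ∈ M := (hM.tens _ _).2 hCB
    have hns : n * G (t 0) 1 = G (t 0) 1 * n := by
      rw [hn, G_mul, G_mul, t_comm_t0 hC, one_mul, mul_one]
    have hk : n⁻¹ * g ∈ M := mul_mem (inv_mem hnM) hg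
    have hks := ((Commute.inv_left hns).mul_left hs).eq
    have hrow : IsRow (n⁻¹ * g) 1 := by
      have := (isRow_G (B := B) hC).inv.mul hB
      rwa [inv_mul_cancel, ← hn] at this
    obtain ⟨A, A', h⟩ := hM.cent_pair' hq 1 hk hks (hK _ hk hks hrow)
    exact ⟨C * A, B * A', by rw [← G_mul, ← hn, ← h, mul_inv_cancel_left]⟩
  intro k hk hks hkrow
  have h10 : (t 1 : O3 F) * t 0 = t 2 := t_mul (by decide) (by decide) (by decide)
  have hsmem : ∀ i, G (1 : O3 F) (t i) ∈ M := fun i => hM.right_mem (t_mem two0 i)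
  have hsc : ∀ i, G (1 : O3 F) (t i) * G (t 0) 1 = G (t 0) 1 * G 1 (t i) := fun i => by
    rw [G_mul, G_mul, one_mul, mul_one, mul_one, one_mul]
  have hssq : ∀ i, G (1 : O3 F) (t i) * G 1 (t i) = 1 := fun i => by
    rw [G_mul, one_mul, t_sq, G_one]
  set y := k * G 1 (t 1) * k⁻¹ with hy
  have hyM : y ∈ M := mul_mem (mul_mem hk (hsmem 1)) (inv_mem hk)
  have hyy : y * y = 1 := by
    calc y * y = k * (G 1 (t 1) * G 1 (t 1)) * k⁻¹ := by rw [hy]; simp [mul_assoc]
      _ = 1 := by rw [hssq, mul_one, mul_inv_cancel]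
  have hys : y * G (t 0) 1 = G (t 0) 1 * y :=
    ((Commute.mul_left hks (hsc 1)).mul_left (Commute.inv_left hks)).eq
  have hyrow : IsRow y (t 1) := by
    have := (hkrow.mul (isRow_G (A := (1 : O3 F)) (B := t 1) rfl)).mul hkrow.inv
    rwa [one_mul, inv_one, mul_one] at this
  have htry : trM y = -3 := by rw [hy, trM_conj, trM_right, tr3_t]; ring
  set r := y * G 1 (t 0) with hr
  have hrrow : IsRow r (t 2) := by
    have := hyrow.mul (isRow_G (A := (1 : O3 F)) (B := t 0) rfl)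
    rwa [h10] at this
  have hrM : r ∈ M := mul_mem hyM (hsmem 0)
  have hrs : r * G (t 0) 1 = G (t 0) 1 * r := (Commute.mul_left hys (hsc 0)).eq
  rcases dihedral hyy (hssq 0) with ⟨m, hm⟩ | ⟨n, hn1, hn2, hnx, hny, m, hm⟩
  · exfalso
    rw [← hr] at hm
    have h := (((hrrow.pow m).mul hyrow).mul (hrrow.pow m).inv).unique
      (hm ▸ isRow_G (A := (1 : O3 F)) (B := t 0) rfl)
    have hc : (t 2 : O3 F) ^ m * t 1 = t 1 * t 2 ^ m :=
      ((show Commute (t 2 : O3 F) (t 1) from t_comm 2 1).pow_left m).eq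
    rw [hc, mul_inv_cancel_right] at h
    have := congrArg (fun A : O3 F => A.1 (e 0) 0) h
    simp only [t_apply] at this
    simp [e] at this
    exact one_ne_neg_one' this.symm
  rw [← hr] at hn1 hn2 hnx hny hm
  obtain ⟨v, hv⟩ : ∃ v, v = r ^ n := ⟨_, rfl⟩
  rw [← hv] at hn1 hn2 hnx hny hm
  have hvM : v ∈ M := hv ▸ pow_mem hrM n
  have hvs : v * G (t 0) 1 = G (t 0) 1 * v := hv ▸ (Commute.pow_left hrs n).eq
  obtain ⟨A₀, B₀, hAB⟩ := hM.cent_pair' hq 0 hvM hvs hnx
  rw [hAB] at hn2 hvM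
  obtain ⟨A, B, he, hdA, hdB, hAA, hBB⟩ := hM.invol_form hvM hn2
  rw [he] at hAB
  have hA0 : A.1 (e 0) = e 0 ∨ A.1 (e 0) = -e 0 := e_of_comm_t two0 (comm_s (hAB ▸ hvs))
  have hvrow : IsRow v (t 2 ^ n) := hv ▸ hrrow.pow n
  have hA : A.1 (e 0) = e 0 := hA0.resolve_right fun h => by
    have h' := congrArg (dick (two0 (F := F))) ((hAB ▸ isRow_G' h : IsRow v _).unique hvrow)
    rw [map_mul, dick_neg3, hdB, map_pow, dick_t, one_pow] at h'
    exact absurd h' (by decide)
  have hB : B = t 2 ^ n := (hAB ▸ isRow_G hA : IsRow v _).unique hvrow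
  have hB' : B = 1 ∨ B = t 2 := by
    rcases Nat.even_or_odd' n with ⟨l, hl | hl⟩
    · left; rw [hB, hl, pow_mul, pow_two, t_sq, one_pow]
    · right; rw [hB, hl, pow_succ, pow_mul, pow_two, t_sq, one_pow, one_mul]
  suffices hy2 : y * G 1 (t 2) = G 1 (t 2) * y by
    obtain ⟨A₁, B₁, hAB₁⟩ := hM.cent_pair' hq 2 hyM hys hy2
    obtain ⟨A', B', he', hdA', hdB', hAA', -⟩ := hM.invol_form (hAB₁ ▸ hyM) (hAB₁ ▸ hyy)
    rw [he'] at hAB₁
    have hA'0 : A'.1 (e 0) = e 0 :=
      (e_of_comm_t two0 (comm_s (hAB₁ ▸ hys))).resolve_right fun h => by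
        have h' := congrArg (dick (two0 (F := F))) ((hAB₁ ▸ isRow_G' h : IsRow y _).unique hyrow)
        rw [map_mul, dick_neg3, hdB', dick_t] at h'
        exact absurd h' (by decide)
    have hB'1 : B' = t 1 := (hAB₁ ▸ isRow_G hA'0 : IsRow y _).unique hyrow
    rcases eq_one_or_t two0 hAA' hdA' hA'0 with rfl | rfl
    · rw [hB'1, hy, mul_inv_eq_iff_eq_mul] at hAB₁
      exact hAB₁
    · exfalso
      rw [hAB₁, hB'1, trM_G, tr3_t, tr3_t] at htry
      exact four0 (F := F) (by linear_combination htry)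
  have hyv : y * v = v * y := hny.symm
  rcases eq_one_or_t two0 hAA hdA hA with rfl | rfl <;> rcases hB' with rfl | rfl
  · exact absurd (hAB.trans G_one) hn1
  · rwa [hAB] at hyv
  · exfalso
    have hvx : trM (v * G 1 (t 0)) = 1 := by
      rw [hAB, G_mul, mul_one, one_mul, trM_G, tr3_t]; ring
    rcases hm with hm | hm
    · rw [← hm, trM_conj, trM_right, tr3_t] at hvx
      exact four0 (F := F) (by linear_combination -hvx)
    · rw [← hm, trM_conj, htry] at hvx
      exact four0 (F := F) (by linear_combination -hvx)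
  · have h := commute_mul hys hyv
    rwa [hAB, G_mul, t_sq, one_mul] at h

/-- The centraliser of a pure involution on the left. -/
theorem cent_left {H : O3 F} (hH : H ∈ U3 F) (hHH : H * H = 1) (hH1 : H ≠ 1) {g : OQ (Qm F)}
    (hg : g ∈ M) (hc : g * G H 1 = G H 1 * g) : ∃ A B : O3 F, g = G A B := by
  obtain ⟨ν, hν, rfl⟩ := exists_hturn two0 hHH (dick_of_mem two0 hH) hH1
  obtain ⟨R, hR, -⟩ := exists_conj_hturn (two0 (F := F)) (Q3_e_ne 0) hν
    (by rw [Q3_e, one_mul]; exact (hturn_mem_iff two0 _ _).1 hH)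
  have hR' : G R R * G (t 0) 1 = G (hturn ν hν) 1 * G R R := by
    rw [G_mul, G_mul, ← hR]; simp [mul_assoc, t]
  obtain ⟨A, B, h⟩ := hM.cent_s hq (g := (G R R)⁻¹ * g * G R R)
    (mul_mem (mul_mem (inv_mem (hM.diag_mem R)) hg) (hM.diag_mem R)) (by
      calc (G R R)⁻¹ * g * G R R * G (t 0) 1
          = (G R R)⁻¹ * (g * G (hturn ν hν) 1) * G R R := by simp only [mul_assoc, hR']
        _ = (G R R)⁻¹ * G (hturn ν hν) 1 * g * G R R := by rw [hc]; simp [mul_assoc]
        _ = G (t 0) 1 * ((G R R)⁻¹ * g * G R R) := by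
            rw [show (G R R)⁻¹ * G (hturn ν hν) 1 = G (t 0) 1 * (G R R)⁻¹ by
              rw [inv_mul_eq_iff_eq_mul, ← mul_assoc, hR', mul_inv_cancel_right]]
            simp [mul_assoc])
  refine ⟨R * A * R⁻¹, R * B * R⁻¹, ?_⟩
  rw [← G_conj, ← h]
  simp [mul_assoc]

/-- The centraliser of a pure involution on the right. -/
theorem cent_right {H : O3 F} (hH : H ∈ U3 F) (hHH : H * H = 1) (hH1 : H ≠ 1) {g : OQ (Qm F)}
    (hg : g ∈ M) (hc : g * G 1 H = G 1 H * g) : ∃ A B : O3 F, g = G A B := by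
  obtain ⟨κ, hκ⟩ := hM.swap
  obtain ⟨τ, hτ⟩ : ∃ τ : OQ (Qm F), τ = G κ 1 * sw := ⟨_, rfl⟩
  rw [← hτ] at hκ
  have hτH : τ * G 1 H = G (κ * H * κ⁻¹) 1 * τ := by
    rw [hτ, Gsw_mul_G, ← mul_assoc, G_mul]; simp
  obtain ⟨A, B, h⟩ := hM.cent_left hq (H := κ * H * κ⁻¹) (g := τ * g * τ⁻¹)
    (conj_mem_U3.2 hH)
    (conj_sq κ hHH)
    (fun h => hH1 (by
      have := congrArg (fun x => κ⁻¹ * x * κ) h
      simpa [mul_assoc] using this))
    (mul_mem (mul_mem hκ hg) (inv_mem hκ)) (by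
      have h1 : τ⁻¹ * G (κ * H * κ⁻¹) 1 = G 1 H * τ⁻¹ := by
        rw [inv_mul_eq_iff_eq_mul, ← mul_assoc, hτH, mul_inv_cancel_right]
      calc τ * g * τ⁻¹ * G (κ * H * κ⁻¹) 1 = τ * (g * G 1 H) * τ⁻¹ := by
            rw [mul_assoc (τ * g), h1]; simp [mul_assoc]
        _ = τ * G 1 H * g * τ⁻¹ := by rw [hc]; simp [mul_assoc]
        _ = G (κ * H * κ⁻¹) 1 * (τ * g * τ⁻¹) := by rw [hτH]; simp [mul_assoc])
  refine ⟨B, κ⁻¹ * A * κ, ?_⟩
  have hg' : g = τ⁻¹ * G A B * τ := by rw [← h]; simp [mul_assoc]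
  rw [hg', hτ, Gsw_inv, Gsw_mul_G, Gsw_mul_Gsw]
  simp [mul_assoc]

lemma not_swap {g : OQ (Qm F)} (hg : g ∈ M) {A B : O3 F}
    (h : g * G (t 0) 1 * g⁻¹ = G A B * sw) : False := by
  have hsq : G A B * sw * (G A B * sw) = 1 := by
    rw [← h]
    have : G (t 0) 1 * G (t 0) 1 = (1 : OQ (Qm F)) := by rw [G_mul, t_sq, one_mul, G_one]
    calc _ = g * (G (t 0) 1 * G (t 0) 1) * g⁻¹ := by simp [mul_assoc]
      _ = 1 := by rw [this, mul_one, mul_inv_cancel]
  obtain ⟨ε, hε, hεc, hε3⟩ : ∃ ε : O3 F, B * A = ε ∧ (∀ x, ε * x = x * ε) ∧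
      tr3 ε ≠ 1 := by
    rw [Gsw_mul_Gsw] at hsq
    rcases G_eq_one hsq with ⟨-, hb⟩ | ⟨-, hb⟩
    · exact ⟨1, hb, fun x => by simp, fun h' => two0 (F := F) (by
        rw [tr3_one] at h'; linear_combination h')⟩
    · refine ⟨neg3, hb, neg3_comm, fun h' => four0 (F := F) ?_⟩
      rw [← mul_one (neg3 : O3 F), tr3_neg3_mul, tr3_one] at h'
      linear_combination -h'
  -- commuting mixed involutions
  set z : Fin 3 → OQ (Qm F) := fun i => G (A * t i * A⁻¹) (t i) with hz
  have hzM : ∀ i, z i ∈ M := fun i => (hM.tens _ _).2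
    (mul_mem (conj_mem_U3.2 (t_mem two0 i)) ((U3 F).inv_mem (t_mem two0 i)))
  have hzz : ∀ i, z i * z i = 1 := fun i => by
    simp only [hz]
    rw [G_mul, t_sq, show A * t i * A⁻¹ * (A * t i * A⁻¹) = A * (t i * t i) * A⁻¹ by
      simp [mul_assoc], t_sq, mul_one, mul_inv_cancel, G_one]
  have hB : B = ε * A⁻¹ := by rw [← hε, mul_inv_cancel_right]
  have hzc : ∀ i, G A B * sw * z i = z i * (G A B * sw) := fun i => by
    simp only [hz]
    rw [Gsw_mul_G, ← mul_assoc (G _ _) (G A B), G_mul, inv_mul_cancel_right]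
    congr 2
    rw [hB, show ε * A⁻¹ * (A * t i * A⁻¹) = ε * t i * A⁻¹ by simp [mul_assoc], hεc, mul_assoc]
  have htz : ∀ i, trM (G A B * sw * z i) = tr3 ε := fun i => by
    simp only [hz]
    rw [Gsw_mul_G, trM_G_sw,
      show A * t i * (B * (A * t i * A⁻¹)) = A * (t i * ((B * A) * t i)) * A⁻¹ by simp [mul_assoc],
      tr3_conj, hε, hεc, ← mul_assoc, t_sq, one_mul]
  set x : Fin 3 → OQ (Qm F) := fun i => g⁻¹ * z i * g with hx
  have hxs : ∀ i, x i * G (t 0) 1 = G (t 0) 1 * x i := fun i => by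
    have e : G (t 0) 1 = g⁻¹ * (G A B * sw) * g := by rw [← h]; simp [mul_assoc]
    rw [e, hx]
    calc g⁻¹ * z i * g * (g⁻¹ * (G A B * sw) * g) = g⁻¹ * (z i * (G A B * sw)) * g := by
          simp [mul_assoc]
      _ = _ := by rw [← hzc]; simp [mul_assoc]
  have hxform : ∀ i, ∃ H : O3 F, x i = G (t 0) H := by
    intro i
    have hxM : x i ∈ M := mul_mem (mul_mem (inv_mem hg) (hzM i)) hg
    obtain ⟨P₀, R₀, hPR₀⟩ := hM.cent_s hq hxM (hxs i)
    have hxx : x i * x i = 1 := by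
      calc x i * x i = g⁻¹ * (z i * z i) * g := by rw [hx]; simp [mul_assoc]
        _ = 1 := by rw [hzz, mul_one, inv_mul_cancel]
    obtain ⟨P, R, he, hdP, hdR, hPP, hRR⟩ := hM.invol_form (hPR₀ ▸ hxM) (hPR₀ ▸ hxx)
    rw [he] at hPR₀
    have htr : trM (x i) = 1 := by
      have : trM (z i) = 1 := by simp only [hz]; rw [trM_G, tr3_conj, tr3_t]; ring
      rw [← this]
      have := trM_conj g⁻¹ (z i)
      rwa [inv_inv] at this
    have hne : x i ≠ 1 := by
      intro h1
      have hz1 : z i = 1 := by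
        have := congrArg (fun w => g * w * g⁻¹) h1
        simpa [hx, mul_assoc] using this
      rcases G_eq_one hz1 with ⟨-, hb⟩ | ⟨-, hb⟩
      · exact t_ne_one i hb
      · have := congrArg (dick (two0 (F := F))) hb
        rw [dick_t, dick_neg3] at this
        exact absurd this (by decide)
    rw [hPR₀, trM_G] at htr
    have hR1 : R ≠ 1 := by
      rintro rfl
      by_cases hP1 : P = 1
      · subst hP1; exact hne (hPR₀.trans G_one)
      rw [tr3_invol two0 hPP hdP hP1, tr3_one] at htr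
      exact four0 (F := F) (by linear_combination -htr)
    have hPc : P * t 0 = t 0 * P := comm_s (hPR₀ ▸ hxs i)
    have hts : trM (G (t 0) 1 * x i) = tr3 ε := by
      rw [← htz i, show G (t 0) 1 * x i = g⁻¹ * (G A B * sw * z i) * g by
        rw [← h, hx]; simp [mul_assoc]]
      have := trM_conj g⁻¹ (G A B * sw * z i)
      rwa [inv_inv] at this
    rw [hPR₀, G_mul, one_mul, trM_G, tr3_invol two0 hRR hdR hR1] at hts
    have htP : t 0 * P = 1 := by
      by_contra hne'
      refine hε3 ?_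
      have hsq' : t 0 * P * (t 0 * P) = 1 := by
        rw [mul_assoc, ← mul_assoc P, hPc, mul_assoc (t 0), hPP, mul_one, t_sq]
      rw [tr3_invol two0 hsq' (by rw [map_mul, dick_t, hdP, one_mul]) hne'] at hts
      linear_combination -hts
    exact ⟨R, by rw [hPR₀, ← inv_eq_of_mul_eq_one_right htP, inv_eq_of_mul_eq_one_right (t_sq 0)]⟩
  obtain ⟨H0, h0⟩ := hxform 0
  obtain ⟨H1, h1⟩ := hxform 1
  obtain ⟨H2, h2⟩ := hxform 2
  have hprod : x 0 * x 1 = x 2 := by
    have : z 0 * z 1 = z 2 := by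
      simp only [hz]
      rw [G_mul, show A * t 0 * A⁻¹ * (A * t 1 * A⁻¹) = A * (t 0 * t 1) * A⁻¹ by
        simp [mul_assoc], t_mul (i := 0) (j := 1) (k := 2) (by decide) (by decide) (by decide)]
    rw [hx]
    simp only [← this]
    simp [mul_assoc]
  rw [h0, h1, h2, G_mul, t_sq] at hprod
  rcases G_inj hprod with ⟨ha, -⟩ | ⟨ha, -⟩
  · exact t_ne_one 0 ha.symm
  · have := congrArg (dick (two0 (F := F))) ha
    rw [map_one, map_mul, dick_neg3, dick_t] at this
    exact absurd this (by decide)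

/-- Isolation of the pure involutions. -/
theorem isolation {g : OQ (Qm F)} (hg : g ∈ M) (h : g * G (t 0) 1 * g⁻¹ ∈ Nt) : g ∈ Nt := by
  obtain ⟨A₀, B₀, hy | hy⟩ := mem_Nt.1 h
  swap
  · exact (hM.not_swap hq hg hy).elim
  set y := g * G (t 0) 1 * g⁻¹ with hydef
  have hyM : y ∈ M := mul_mem (mul_mem hg hM.s_mem) (inv_mem hg)
  have hyy : y * y = 1 := by
    have : G (t 0) 1 * G (t 0) 1 = (1 : OQ (Qm F)) := by rw [G_mul, t_sq, one_mul, G_one]
    calc y * y = g * (G (t 0) 1 * G (t 0) 1) * g⁻¹ := by rw [hydef]; simp [mul_assoc]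
      _ = 1 := by rw [this, mul_one, mul_inv_cancel]
  obtain ⟨A, B, he, hdA, hdB, hAA, hBB⟩ := hM.invol_form (hy ▸ hyM) (hy ▸ hyy)
  rw [he] at hy
  have htr : trM y = -3 := by rw [hydef, trM_conj, trM_left, tr3_t]; ring
  rw [hy, trM_G] at htr
  -- bring the pure involution back to `t₀ ⊗ 1`
  have key : ∀ (n : OQ (Qm F)) (H : O3 F), n ∈ M → n ∈ Nt → n * y * n⁻¹ = G H 1 → H * H = 1 →
      H ≠ 1 → g ∈ Nt := by
    intro n H hnM hnN hn hHH hH1
    have hHU : H ∈ U3 F := hM.pure_left (hn ▸ mul_mem (mul_mem hnM hyM) (inv_mem hnM))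
    obtain ⟨ν, hν, rfl⟩ := exists_hturn two0 hHH (dick_of_mem two0 hHU) hH1
    obtain ⟨R, hR, -⟩ := exists_conj_hturn (two0 (F := F)) (Q3_e_ne 0) hν
      (by rw [Q3_e, one_mul]; exact (hturn_mem_iff two0 _ _).1 hHU)
    obtain ⟨m, hm⟩ : ∃ m : OQ (Qm F), m = (G R R)⁻¹ * n * g := ⟨_, rfl⟩
    have hRs : G R R * G (t 0) 1 * (G R R)⁻¹ = G (hturn ν hν) 1 := by
      rw [G_conj, ← hR]; simp [t]
    have hgs : g * G (t 0) 1 = y * g := by rw [hydef]; simp [mul_assoc]
    have hns : n * y = G (hturn ν hν) 1 * n := by rw [← hn]; simp [mul_assoc]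
    obtain ⟨P, S, hPS⟩ := hM.cent_s hq (g := m)
      (hm ▸ mul_mem (mul_mem (inv_mem (hM.diag_mem R)) hnM) hg) (by
        calc m * G (t 0) 1 = (G R R)⁻¹ * n * (g * G (t 0) 1) := by rw [hm]; simp [mul_assoc]
          _ = (G R R)⁻¹ * (n * y) * g := by rw [hgs]; simp [mul_assoc]
          _ = (G R R)⁻¹ * G (hturn ν hν) 1 * n * g := by rw [hns]; simp [mul_assoc]
          _ = G (t 0) 1 * m := by rw [← hRs, hm]; simp [mul_assoc])
    have hg' : g = n⁻¹ * G R R * m := by rw [hm]; simp [mul_assoc]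
    rw [hg', hPS]
    exact Subgroup.mul_mem _ (Subgroup.mul_mem _ (Subgroup.inv_mem _ hnN) (G_mem_Nt R R))
      (G_mem_Nt P S)
  by_cases hA1 : A = 1
  · subst hA1
    have hB1 : B ≠ 1 := by
      rintro rfl
      have h1 : y = 1 := hy.trans G_one
      have hs1 : G (t 0) 1 = (1 : OQ (Qm F)) := by
        have := congrArg (fun w => g⁻¹ * w * g) h1
        simpa [hydef, mul_assoc] using this
      rcases G_eq_one hs1 with ⟨ha, -⟩ | ⟨-, hb⟩
      · exact t_ne_one 0 ha
      · have := congrArg (dick (two0 (F := F))) hb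
        rw [map_one, dick_neg3] at this
        exact absurd this (by decide)
    obtain ⟨κ, hκ⟩ := hM.swap
    refine key (G κ 1 * sw) (κ * B * κ⁻¹) hκ ⟨κ, 1, Or.inr rfl⟩ ?_ ?_ ?_
    · rw [hy, Gsw_inv, Gsw_mul_G, Gsw_mul_Gsw]; simp [mul_assoc]
    · exact conj_sq κ hBB
    · intro h'
      exact hB1 (by
        have := congrArg (fun x => κ⁻¹ * x * κ) h'
        simpa [mul_assoc] using this)
  · have hB1 : B = 1 := by
      by_contra hB1
      rw [tr3_invol two0 hAA hdA hA1, tr3_invol two0 hBB hdB hB1] at htr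
      exact four0 (F := F) (by linear_combination htr)
    subst hB1
    exact key 1 A (one_mem _) (Subgroup.one_mem _) (by simpa using hy) hAA hA1

end Hyp

end Cfsg.Agent.MaxSub.TensorSquareThree
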