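import Cfsg.Agent.MaxSub.TensorSquareThree.Root

/-!
Elements of an overgroup of the tensor group preserving all columns, or all rows, are tensors.
-/

set_option autoImplicit false
set_option linter.unusedSectionVars false
set_option linter.style.haveILetI false

namespace Cfsg.Agent.MaxSub.TensorSquareThree

open QuadraticMap Module Cfsg.Agent.Classical Matrix

universe u

variable {F : Type u} [Field F] [Fintype F] [Fact ((2 : F) ≠ 0)]
  {M : Subgroup (OQ (Qm F))}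

/-- The element acts on the column `j` as `A j`. -/
def IsCol (g : OQ (Qm F)) (A : Fin 3 → O3 F) : Prop :=
  ∀ X i j, g.1 X i j = (mat (A j) * X) i j

lemma IsCol.mul {g g' : OQ (Qm F)} {A A' : Fin 3 → O3 F} (h : IsCol g A) (h' : IsCol g' A') :
    IsCol (g * g') (A * A') := by
  intro X i j
  rw [mul_applym, h, Pi.mul_apply, mat_mul, mul_assoc]
  simp only [Matrix.mul_apply]
  exact Finset.sum_congr rfl fun k _ => by rw [h', Matrix.mul_apply]

lemma IsCol.inv {g : OQ (Qm F)} {A : Fin 3 → O3 F} (h : IsCol g A) : IsCol g⁻¹ A⁻¹ := by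
  intro X i j
  obtain ⟨Y, hY⟩ : ∃ Y : Matrix (Fin 3) (Fin 3) F,
      Y = Matrix.of fun i j => (mat (A j)⁻¹ * X) i j := ⟨_, rfl⟩
  have : g.1 Y = X := by
    ext i j
    rw [h, Matrix.mul_apply]
    calc ∑ k, mat (A j) i k * Y k j = ∑ k, mat (A j) i k * (mat (A j)⁻¹ * X) k j := by
          simp only [hY, Matrix.of_apply]
      _ = (mat (A j) * (mat (A j)⁻¹ * X)) i j := (Matrix.mul_apply).symm
      _ = X i j := by rw [← mul_assoc, ← mat_mul, mul_inv_cancel, mat_one, one_mul]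
  show g.1.symm X i j = _
  rw [← this, LinearEquiv.symm_apply_apply, hY]
  rw [hY] at this
  rw [this]
  rfl

lemma isCol_left (U : O3 F) : IsCol (G U 1) fun _ => U := fun X i j => by
  rw [G_apply, mat_one, transpose_one, mul_one]

/-- The tuples realised in `M`. -/
def colGroup (M : Subgroup (OQ (Qm F))) : Subgroup (Fin 3 → O3 F) where
  carrier := {A | ∃ g ∈ M, IsCol g A}
  one_mem' := ⟨1, one_mem _, fun X i j => by rw [Pi.one_apply, mat_one, one_mul]; rfl⟩
  mul_mem' := fun ⟨g, hg, h⟩ ⟨g', hg', h'⟩ => ⟨g * g', mul_mem hg hg', h.mul h'⟩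
  inv_mem' := fun ⟨g, hg, h⟩ => ⟨g⁻¹, inv_mem hg, h.inv⟩

lemma exists_isCol {g : OQ (Qm F)} (hc : ∀ j, g * G 1 (t j) = G 1 (t j) * g) :
    ∃ A, IsCol g A := by
  classical
  have hsupp : ∀ v (j l : Fin 3), l ≠ j → ∀ i, g.1 (vecMulVec v (e j)) i l = 0 := by
    intro v j l hlj i
    have hfix : (G 1 (t j)).1 (vecMulVec v (e j)) = vecMulVec v (e (F := F) j) := by
      rw [G_vec, t_e]; rfl
    have h1 : (G 1 (t j)).1 (g.1 (vecMulVec v (e j))) = g.1 (vecMulVec v (e j)) := by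
      rw [← mul_applym, ← hc, mul_applym, hfix]
    have h2 := congrFun (congrFun h1 i) l
    rw [G_one_t_apply, if_neg hlj, neg_one_mul, neg_eq_iff_add_eq_zero, ← two_mul, mul_eq_zero] at h2
    exact h2.resolve_left two0
  have hdec : ∀ v j, g.1 (vecMulVec v (e j)) =
      vecMulVec (fun i => g.1 (vecMulVec v (e j)) i j) (e j) := by
    intro v j
    ext i l
    rw [vecMulVec_apply]
    by_cases hlj : l = j
    · subst hlj; simp
    · rw [hsupp v j l hlj i]; simp [e, hlj]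
  let L : Fin 3 → (Fin 3 → F) →ₗ[F] (Fin 3 → F) := fun j =>
    { toFun := fun v i => g.1 (vecMulVec v (e j)) i j
      map_add' := fun v w => by funext i; rw [add_vecMulVec, map_add]; rfl
      map_smul' := fun c v => by funext i; rw [smul_vecMulVec, map_smul]; rfl }
  have hQ : ∀ j v, Q3 F (L j v) = Q3 F v := fun j v => by
    have := OQ_map_app g (vecMulVec v (e j))
    rwa [hdec, Qm_vmv, Qm_vmv, ← Q3_dot, ← Q3_dot, ← Q3_dot, Q3_e, mul_one, mul_one] at this
  have hinj : ∀ j, Function.Injective (L j) := by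
    intro j v w hvw
    have h : g.1 (vecMulVec v (e j)) = g.1 (vecMulVec w (e j)) := by
      rw [hdec v j, hdec w j]
      exact congrArg (fun u => vecMulVec u (e j)) hvw
    have := g.1.injective h
    funext i
    simpa [vecMulVec_apply] using congrFun (congrFun this i) j
  refine ⟨fun j => ⟨LinearEquiv.ofInjectiveEndo (L j) (hinj j), fun v => hQ j v⟩, fun X i j => ?_⟩
  have hX : X = ∑ l, vecMulVec (fun i => X i l) (e l) := by
    ext a b
    rw [Matrix.sum_apply]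
    simp [vecMulVec_apply, Pi.single_apply]
  conv_lhs => rw [hX, map_sum, Matrix.sum_apply, Finset.sum_eq_single j
    (fun l _ hl => hsupp _ l j (Ne.symm hl) i) (by simp)]
  show L j (fun i => X i j) i = _
  rw [Matrix.mul_apply]
  exact (congrFun (mat_mulVec (⟨LinearEquiv.ofInjectiveEndo (L j) (hinj j), fun v => hQ j v⟩ : O3 F)
    (fun i => X i j)) i).symm

lemma cyc_transpose_apply (Z : Matrix (Fin 3) (Fin 3) F) (i j : Fin 3) :
    (Z * (mat (cyc : O3 F))ᵀ) i j = Z i (j - 1) := by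
  rw [← cyc_apply (Z i) j, ← mat_mulVec, Matrix.mulVec, dotProduct, Matrix.mul_apply]
  simp only [transpose_apply, mul_comm]

lemma cyc_inv_transpose_apply (Z : Matrix (Fin 3) (Fin 3) F) (i j : Fin 3) :
    (Z * (mat (cyc : O3 F)⁻¹)ᵀ) i j = Z i (j + 1) := by
  have : (cyc : O3 F)⁻¹ = cyc * cyc := inv_eq_of_mul_eq_one_right (by rw [← mul_assoc, cyc_cube])
  rw [this, mat_mul, transpose_mul, ← mul_assoc, cyc_transpose_apply, cyc_transpose_apply,
    show j - 1 - 1 = j + 1 by revert j; decide]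

namespace Hyp

variable (hM : Hyp M)
include hM

lemma const_mem {U : O3 F} (h : U ∈ U3 F) : (fun _ => U) ∈ colGroup M :=
  ⟨_, hM.left_mem h, isCol_left U⟩

lemma shift_mem {A : Fin 3 → O3 F} (h : A ∈ colGroup M) : (fun j => A (j - 1)) ∈ colGroup M := by
  obtain ⟨g, hg, hA⟩ := h
  have hc := hM.right_mem (cyc_mem (F := F) two0)
  refine ⟨_, mul_mem (mul_mem hc hg) (inv_mem hc), fun X i j => ?_⟩
  rw [mul_applym, mul_applym, G_inv, inv_one, G_apply 1 cyc⁻¹, G_apply 1 cyc, mat_one, one_mul,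
    one_mul, cyc_transpose_apply, hA, ← mul_assoc, cyc_inv_transpose_apply, sub_add_cancel]

/-- Only the trivial element acts on a single column. -/
lemma single_eq_one (hq : 5 ≤ Nat.card F) {A : Fin 3 → O3 F} (hA : A ∈ colGroup M) {j : Fin 3}
    (hj : A j ∈ U3 F) (hne : ∀ i, i ≠ j → A i = 1) : A j = 1 := by
  classical
  -- move the column to the last one
  obtain ⟨B, hB, hB2, hB01⟩ : ∃ B ∈ colGroup M, B 2 = A j ∧ ∀ i, i ≠ (2 : Fin 3) → B i = 1 := by
    have h1 := hM.shift_mem hA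
    have h2 := hM.shift_mem h1
    fin_cases j
    · exact ⟨_, h2, rfl, fun i hi => by fin_cases i <;> simp at hi <;> exact hne _ (by decide)⟩
    · exact ⟨_, h1, rfl, fun i hi => by fin_cases i <;> simp at hi <;> exact hne _ (by decide)⟩
    · exact ⟨_, hA, rfl, fun i hi => hne i hi⟩
  rw [← hB2] at hj ⊢
  by_contra h1
  have hsingle : Pi.mulSingle (2 : Fin 3) (B 2) = B := by
    funext i
    rcases eq_or_ne i 2 with rfl | hi
    · rw [Pi.mulSingle_eq_same]
    · rw [Pi.mulSingle_eq_of_ne hi, hB01 i hi]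
  set N := (colGroup M).comap (MonoidHom.mulSingle (fun _ : Fin 3 => O3 F) 2) ⊓ U3 F with hN
  have hNtop : N = U3 F := by
    refine eq_U3_of_normal two0 hq inf_le_right (fun u hu n hn => ⟨?_, ?_⟩)
      (x := B 2) ⟨?_, hj⟩ h1
    · show Pi.mulSingle (2 : Fin 3) (u * n * u⁻¹) ∈ colGroup M
      have := mul_mem (mul_mem (hM.const_mem hu) hn.1) ((colGroup M).inv_mem (hM.const_mem hu))
      convert this using 1
      funext i
      rcases eq_or_ne i 2 with rfl | hi
      · simp [MonoidHom.mulSingle_apply]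
      · simp [MonoidHom.mulSingle_apply, hi]
    · exact mul_mem (mul_mem hu hn.2) ((U3 F).inv_mem hu)
    · show Pi.mulSingle (2 : Fin 3) (B 2) ∈ colGroup M
      rw [hsingle]; exact hB
  refine hM.not_colFull hq fun U hU => ?_
  rw [← hNtop] at hU
  obtain ⟨g, hg, hgA⟩ := hU.1
  refine ⟨g, hg, fun X => ?_⟩
  ext i j
  rw [hgA, Matrix.add_apply, mul_vecMulVec, vecMulVec_apply, mulVec_single_one]
  show (mat ((Pi.mulSingle (2 : Fin 3) U : Fin 3 → O3 F) j) * X) i j =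
    X i j + ((mat U - 1) * X) i 2 * (e 2 : Fin 3 → F) j
  rcases eq_or_ne j 2 with rfl | hj2
  · simp [Matrix.sub_mul]
  · simp [e, hj2, mat_one]

/-- A tuple in the commutator subgroup is constant. -/
lemma const_of_mem (hq : 5 ≤ Nat.card F) {A : Fin 3 → O3 F} (hA : A ∈ colGroup M)
    (hU : ∀ j, A j ∈ U3 F) (j : Fin 3) : A j = A 0 := by
  -- tuples trivial on the first column
  let ev : Fin 3 → (Fin 3 → O3 F) →* O3 F := fun i => Pi.evalMonoidHom (fun _ => O3 F) i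
  let D : Subgroup (Fin 3 → O3 F) :=
    colGroup M ⊓ (ev 0).ker ⊓ (U3 F).comap (ev 1) ⊓ (U3 F).comap (ev 2)
  suffices H : ∀ B ∈ D, B 1 = 1 ∧ B 2 = 1 by
    have hB : A * (fun _ => (A 0)⁻¹) ∈ D :=
      ⟨⟨⟨mul_mem hA (hM.const_mem ((U3 F).inv_mem (hU 0))), mul_inv_cancel _⟩,
        mul_mem (hU 1) ((U3 F).inv_mem (hU 0))⟩, mul_mem (hU 2) ((U3 F).inv_mem (hU 0))⟩
    obtain ⟨h1, h2⟩ := H _ hB
    fin_cases j
    · rfl
    · exact mul_inv_eq_one.1 h1
    · exact mul_inv_eq_one.1 h2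
  have hone : ∀ B ∈ D, B 1 = 1 → B 2 = 1 := fun B hB h =>
    hM.single_eq_one hq hB.1.1.1 hB.2 fun i hi => by
      fin_cases i
      exacts [hB.1.1.2, h, absurd rfl hi]
  have htwo : ∀ B ∈ D, B 2 = 1 → B 1 = 1 := fun B hB h =>
    hM.single_eq_one hq hB.1.1.1 hB.1.2 fun i hi => by
      fin_cases i
      exacts [hB.1.1.2, absurd rfl hi, h]
  intro B hB
  by_contra hne
  have h1 : B 1 ≠ 1 := fun h => hne ⟨h, hone B hB h⟩
  have h2 : B 2 ≠ 1 := fun h => hne ⟨htwo B hB h, h⟩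
  have hconjD : ∀ u ∈ U3 F, ∀ C ∈ D, (fun _ => u) * C * (fun _ => u)⁻¹ ∈ D := fun u hu C hC =>
    ⟨⟨⟨mul_mem (mul_mem (hM.const_mem hu) hC.1.1.1) ((colGroup M).inv_mem (hM.const_mem hu)), by
      show u * C 0 * u⁻¹ = 1
      rw [show C 0 = 1 from hC.1.1.2, mul_one, mul_inv_cancel]⟩,
      mul_mem (mul_mem hu hC.1.2) ((U3 F).inv_mem hu)⟩, mul_mem (mul_mem hu hC.2) ((U3 F).inv_mem hu)⟩
  have hall1 : D.map (ev 1) = U3 F := eq_U3_of_normal two0 hq
    (Subgroup.map_le_iff_le_comap.2 fun C hC => hC.1.2)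
    (fun u hu n ⟨C, hC, hn⟩ => ⟨_, hconjD u hu C hC, by rw [← hn]; rfl⟩) ⟨B, hB, rfl⟩ h1
  have hall2 : D.map (ev 2) = U3 F := eq_U3_of_normal two0 hq
    (Subgroup.map_le_iff_le_comap.2 fun C hC => hC.2)
    (fun u hu n ⟨C, hC, hn⟩ => ⟨_, hconjD u hu C hC, by rw [← hn]; rfl⟩) ⟨B, hB, rfl⟩ h2
  have heq : ∀ C ∈ D, C 2 = C 1 := by
    intro C hC
    have key : ∀ U ∈ U3 F, (C 1)⁻¹ * C 2 * U = U * ((C 1)⁻¹ * C 2) := by
      intro U hU'
      obtain ⟨E, hE, rfl⟩ : U ∈ D.map (ev 2) := hall2 ▸ hU'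
      set P := C * E * C⁻¹ * ((fun _ => C 1) * E * (fun _ => C 1)⁻¹)⁻¹
      have hP : P ∈ D := mul_mem (mul_mem (mul_mem hC hE) (inv_mem hC))
        (inv_mem (hconjD _ hC.1.2 E hE))
      have hP2 := hone P hP (mul_inv_cancel _)
      replace hP2 : C 2 * E 2 * (C 2)⁻¹ = C 1 * E 2 * (C 1)⁻¹ := mul_inv_eq_one.1 hP2
      show (C 1)⁻¹ * C 2 * E 2 = E 2 * ((C 1)⁻¹ * C 2)
      rw [mul_assoc, inv_mul_eq_iff_eq_mul, ← mul_assoc, ← mul_assoc, ← hP2, inv_mul_cancel_right]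
    rcases centraliser_U3 two0 key with h | h
    · exact (inv_mul_eq_one.1 h).symm
    · have := congrArg (dick (two0 (F := F))) h
      have hc1 : C 1 ∈ U3 F := hC.1.2
      have hc2 : C 2 ∈ U3 F := hC.2
      rw [map_mul, map_inv, dick_of_mem two0 hc1, dick_of_mem two0 hc2, dick_neg3] at this
      exact absurd this (by decide)
  obtain ⟨C, hC, hC1⟩ : (cyc : O3 F) ∈ D.map (ev 1) := hall1 ▸ cyc_mem two0
  replace hC1 : C 1 = cyc := hC1
  have hCC := heq C hC
  have hd0 : C ∈ colGroup M := hC.1.1.1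
  have hd1 := hM.shift_mem hd0
  have hd2 := hM.shift_mem hd1
  have hP := mul_mem (mul_mem hd0 (inv_mem hd2)) hd1
  have hC0 : C 0 = 1 := hC.1.1.2
  have := hM.single_eq_one hq hP (j := 2) (by
    show C 2 * (C 0)⁻¹ * C 1 ∈ U3 F
    rw [hC0, inv_one, mul_one, hCC, hC1]
    exact mul_mem (cyc_mem two0) (cyc_mem two0)) (fun i hi => by
    fin_cases i
    · show C 0 * (C 1)⁻¹ * C 2 = 1
      rw [hC0, one_mul, hCC, inv_mul_cancel]
    · show C 1 * (C 2)⁻¹ * C 0 = 1
      rw [hC0, mul_one, hCC, mul_inv_cancel]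
    · exact absurd rfl hi)
  replace this : C 2 * (C 0)⁻¹ * C 1 = 1 := this
  rw [hC0, inv_one, mul_one, hCC, hC1] at this
  have h3 := cyc_cube (F := F)
  rw [this, one_mul] at h3
  have := congrArg (fun g : O3 F => g.1 (e 0) 0) h3
  simp [cyc_apply, e] at this

/-- Elements preserving every column are tensors. -/
theorem frame_col (hq : 5 ≤ Nat.card F) {g : OQ (Qm F)} (hg : g ∈ M)
    (hc : ∀ j, g * G 1 (t j) = G 1 (t j) * g) : ∃ A B : O3 F, g = G A B := by
  classical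
  obtain ⟨A, hA⟩ := exists_isCol hc
  have hsign : ∀ j, (A 0)⁻¹ * A j = 1 ∨ (A 0)⁻¹ * A j = neg3 := by
    intro j
    refine centraliser_U3 two0 fun U hU => ?_
    have hmem : A * (fun _ => U) * A⁻¹ * (fun _ => U)⁻¹ ∈ colGroup M :=
      mul_mem (mul_mem (mul_mem ⟨g, hg, hA⟩ (hM.const_mem hU)) (inv_mem ⟨g, hg, hA⟩))
        (inv_mem (hM.const_mem hU))
    have := hM.const_of_mem hq hmem (fun i => by
      show A i * U * (A i)⁻¹ * U⁻¹ ∈ U3 F
      exact mul_mem (conj_mem_U3.2 hU) (inv_mem hU)) j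
    replace this : A j * U * (A j)⁻¹ = A 0 * U * (A 0)⁻¹ := mul_right_cancel this
    rw [mul_assoc, inv_mul_eq_iff_eq_mul, ← mul_assoc, ← mul_assoc, ← this, inv_mul_cancel_right]
  set d : Fin 3 → F := fun j => if (A 0)⁻¹ * A j = 1 then 1 else -1
  have hd : ∀ j, d j * d j = 1 := fun j => by simp only [d]; split_ifs <;> simp
  have hAd : ∀ j, mat (A j) = d j • mat (A 0) := by
    intro j
    simp only [d]
    rcases hsign j with h | h
    · rw [if_pos h, one_smul, inv_mul_eq_one.1 h]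
    · have hne : ¬ ((A 0)⁻¹ * A j = 1) := fun h1 => by
        have := congrArg (dick (two0 (F := F))) (h.symm.trans h1)
        rw [dick_neg3, map_one] at this
        exact absurd this (by decide)
      rw [if_neg hne, inv_mul_eq_iff_eq_mul.1 h, mat_mul, mat_neg3, mul_neg_one, neg_one_smul]
  have hmd : mat (dia d hd) = Matrix.diagonal d := by
    ext a b
    rw [mat_apply, dia_apply]
    by_cases hab : a = b
    · subst hab; simp
    · simp [e, Matrix.diagonal_apply_ne _ hab, hab]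
  refine ⟨A 0, dia d hd, extm fun X => ?_⟩
  ext i j
  rw [hA, G_apply, hmd, diagonal_transpose, mul_diagonal, hAd, Matrix.smul_mul, Matrix.smul_apply,
    smul_eq_mul, mul_comm]

/-- Elements preserving every row are tensors. -/
theorem frame_row (hq : 5 ≤ Nat.card F) {g : OQ (Qm F)} (hg : g ∈ M)
    (hc : ∀ j, g * G (t j) 1 = G (t j) 1 * g) : ∃ A B : O3 F, g = G A B := by
  obtain ⟨κ, hκ⟩ := hM.swap
  obtain ⟨τ, hτ⟩ : ∃ τ : OQ (Qm F), τ = G κ 1 * sw := ⟨_, rfl⟩
  rw [← hτ] at hκ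
  have hτt : ∀ j, τ * G (t j) 1 * τ⁻¹ = G 1 (t j) := fun j => by
    rw [hτ, Gsw_mul_G, Gsw_inv, Gsw_mul_Gsw]
    simp
  obtain ⟨A, B, h⟩ := hM.frame_col hq (g := τ * g * τ⁻¹) (mul_mem (mul_mem hκ hg) (inv_mem hκ))
    (fun j => by
      rw [← hτt j]
      simp only [mul_assoc, inv_mul_cancel_left]
      rw [← mul_assoc g, hc, mul_assoc])
  have hg' : g = τ⁻¹ * G A B * τ := by rw [← h]; simp [mul_assoc]
  refine ⟨B, κ⁻¹ * A * κ, ?_⟩
  rw [hg', hτ, Gsw_inv, Gsw_mul_G, Gsw_mul_Gsw]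
  simp [mul_assoc]

end Hyp

end Cfsg.Agent.MaxSub.TensorSquareThree
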