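import Cfsg.Agent.MaxSub.TensorSquareThree.Centralisers

/-!
Every overgroup of the tensor group not containing `Ω` stabilises the tensor decomposition.
-/

set_option autoImplicit false
set_option linter.unusedSectionVars false
set_option linter.style.haveILetI false

namespace Cfsg.Agent.MaxSub.TensorSquareThree

open QuadraticMap Module Cfsg.Agent.Classical Matrix

universe u

variable {F : Type u} [Field F] [Fintype F] [Fact ((2 : F) ≠ 0)]
  {M : Subgroup (OQ (Qm F))}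

lemma t_inj {i j : Fin 3} (h : (t i : O3 F) = t j) : i = j := by
  by_contra hij
  have := congrArg (fun A : O3 F => A.1 (e i) i) h
  simp only [t_e, t_e_ne hij, Pi.neg_apply, e, Pi.single_eq_same] at this
  exact one_ne_neg_one' this

lemma pow_eigen {g : OQ (Qm F)} {X : Matrix (Fin 3) (Fin 3) F} {c : F} (h : g.1 X = c • X) :
    ∀ k : ℕ, (g ^ k).1 X = c ^ k • X
  | 0 => by rw [pow_zero, pow_zero, one_smul]; rfl
  | k + 1 => by rw [pow_succ, mul_applym, h, map_smul, pow_eigen h k, smul_smul, pow_succ']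

lemma G_tt_sq {A B : O3 F} (hA : A * A = 1) (hB : B * B = 1) : G A B * G A B = 1 := by
  rw [G_mul, hA, hB, G_one]

lemma conj_comm {Γ : Type*} [Group Γ] {g a b : Γ} (hg : g * b = b * g) (hab : a * b = b * a) :
    g * a * g⁻¹ * b = b * (g * a * g⁻¹) :=
  ((Commute.mul_left hg hab).mul_left (Commute.inv_left hg)).eq

lemma conj_invol {Γ : Type*} [Group Γ] (g : Γ) {a : Γ} (ha : a * a = 1) :
    g * a * g⁻¹ * (g * a * g⁻¹) = 1 := conj_sq g ha

lemma pow_comm {Γ : Type*} [Group Γ] {g b : Γ} (h : g * b = b * g) (k : ℕ) :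
    g ^ k * b = b * g ^ k := (Commute.pow_left h k).eq

lemma comm_mul_left {Γ : Type*} [Group Γ] {a b c : Γ} (ha : a * c = c * a) (hb : b * c = c * b) :
    a * b * c = c * (a * b) := (Commute.mul_left ha hb).eq

namespace Hyp

variable (hM : Hyp M) (hq : 5 ≤ Nat.card F)
include hM hq

lemma cent_pure_left {A : O3 F} (hA : G A 1 ∈ M) (hAA : A * A = 1) (hA1 : A ≠ 1)
    {g : OQ (Qm F)} (hg : g ∈ M) (hc : g * G A 1 = G A 1 * g) : g ∈ Nt := by
  obtain ⟨P, R, rfl⟩ := hM.cent_left hq (hM.pure_left hA) hAA hA1 hg hc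
  exact G_mem_Nt P R

lemma cent_pure_right {B : O3 F} (hB : G 1 B ∈ M) (hBB : B * B = 1) (hB1 : B ≠ 1)
    {g : OQ (Qm F)} (hg : g ∈ M) (hc : g * G 1 B = G 1 B * g) : g ∈ Nt := by
  obtain ⟨P, R, rfl⟩ := hM.cent_right hq (hM.pure_right hB) hBB hB1 hg hc
  exact G_mem_Nt P R

/-- The centraliser of `t₀ ⊗ t₀` and `t₁ ⊗ t₁`. -/
theorem cent_four {g : OQ (Qm F)} (hg : g ∈ M) (h0 : g * G (t 0) (t 0) = G (t 0) (t 0) * g)
    (h1 : g * G (t 1) (t 1) = G (t 1) (t 1) * g) : g ∈ Nt := by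
  haveI := finiteOQm (F := F)
  refine hM.isolation hq hg ?_
  have h2 : g * G (t 2) (t 2) = G (t 2) (t 2) * g := by
    have := commute_mul h0 h1
    rwa [G_mul, t_mul (i := 0) (j := 1) (k := 2) (by decide) (by decide) (by decide)] at this
  set y := g * G (t 0) 1 * g⁻¹ with hy
  have hyM : y ∈ M := mul_mem (mul_mem hg hM.s_mem) (inv_mem hg)
  have hyy : y * y = 1 := conj_invol g (by rw [G_mul, t_sq, one_mul, G_one])
  have hxM : G (t 1) (1 : O3 F) ∈ M := hM.left_mem (t_mem two0 1)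
  have hxx : G (t 1) (1 : O3 F) * G (t 1) 1 = 1 := by rw [G_mul, t_sq, one_mul, G_one]
  have hyz : ∀ i, y * G (t i) (t i) = G (t i) (t i) * y := by
    intro i
    refine conj_comm ?_ (by rw [G_mul, G_mul, t_comm 0 i, one_mul, mul_one])
    fin_cases i
    exacts [h0, h1, h2]
  -- eigenvectors
  have hsupp : ∀ X : Matrix (Fin 3) (Fin 3) F, (G (t 0) (t 0)).1 X = (-1 : F) • X →
      (G (t 1) (t 1)).1 X = (1 : F) • X → (G (t 1) 1).1 X = (-1 : F) • X := by
    intro X e0 e1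
    ext a b
    have p0 := congrFun (congrFun e0 a) b
    have p1 := congrFun (congrFun e1 a) b
    rw [G_t_apply, Matrix.smul_apply, smul_eq_mul] at p0 p1
    rw [G_t_one_apply, Matrix.smul_apply, smul_eq_mul]
    by_cases hX : X a b = 0
    · rw [hX, mul_zero, mul_zero]
    have q0 := mul_right_cancel₀ hX p0
    have q1 := mul_right_cancel₀ hX p1
    have hn := one_ne_neg_one' (F := F)
    have hn' := hn.symm
    fin_cases a <;> fin_cases b <;> simp [hn, hn'] at q0 q1 ⊢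
  have hsupp' : ∀ X : Matrix (Fin 3) (Fin 3) F, (G (t 0) (t 0)).1 X = (1 : F) • X →
      (G (t 1) (t 1)).1 X = (-1 : F) • X → (G (t 0) 1).1 X = (-1 : F) • X := by
    intro X e0 e1
    ext a b
    have p0 := congrFun (congrFun e0 a) b
    have p1 := congrFun (congrFun e1 a) b
    rw [G_t_apply, Matrix.smul_apply, smul_eq_mul] at p0 p1
    rw [G_t_one_apply, Matrix.smul_apply, smul_eq_mul]
    by_cases hX : X a b = 0
    · rw [hX, mul_zero, mul_zero]
    have q0 := mul_right_cancel₀ hX p0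
    have q1 := mul_right_cancel₀ hX p1
    have hn := one_ne_neg_one' (F := F)
    have hn' := hn.symm
    fin_cases a <;> fin_cases b <;> simp [hn, hn'] at q0 q1 ⊢
  have hsingle : ∀ (i : Fin 3) (a b : Fin 3), (G (t i) (t i)).1 (Matrix.single a b 1) =
      (sg i a * sg i b : F) • Matrix.single a b (1 : F) := by
    intro i a b
    ext x x'
    rw [G_t_apply, Matrix.smul_apply, smul_eq_mul]
    by_cases h : a = x ∧ b = x'
    · obtain ⟨rfl, rfl⟩ := h; rfl
    · rw [Matrix.single_apply, if_neg h, mul_zero, mul_zero]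
  have hsleft : ∀ (i a b : Fin 3), (G (t i) 1).1 (Matrix.single a b 1) =
      (sg i a : F) • Matrix.single a b (1 : F) := by
    intro i a b
    ext x x'
    rw [G_t_one_apply, Matrix.smul_apply, smul_eq_mul]
    by_cases h : a = x ∧ b = x'
    · obtain ⟨rfl, rfl⟩ := h; rfl
    · rw [Matrix.single_apply, if_neg h, mul_zero, mul_zero]
  set p := g.1 (Matrix.single 0 2 1) with hp
  set q := g.1 (Matrix.single 2 0 1) with hq'
  have hxp : (G (t 1) 1).1 p = (-1 : F) • p := hsupp _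
    (eigen_comm h0 (by rw [hsingle]; simp [sg])) (eigen_comm h1 (by rw [hsingle]; simp [sg]))
  have hxq : (G (t 1) 1).1 q = (-1 : F) • q := hsupp _
    (eigen_comm h0 (by rw [hsingle]; simp [sg])) (eigen_comm h1 (by rw [hsingle]; simp [sg]))
  have hyg : ∀ (Y : Matrix (Fin 3) (Fin 3) F), y.1 (g.1 Y) = g.1 ((G (t 0) 1).1 Y) := fun Y => by
    rw [← mul_applym, hy, inv_mul_cancel_right, mul_applym]
  have hyp : y.1 p = (1 : F) • p := by rw [hp, hyg, hsleft, map_smul]; simp [sg]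
  have hyq : y.1 q = (-1 : F) • q := by rw [hq', hyg, hsleft, map_smul]; simp [sg]
  set r := y * G (t 1) 1 with hr
  have hrp : r.1 p = (-1 : F) • p := by
    rw [hr, mul_applym, hxp, map_smul, hyp, one_smul]
  have hrq : r.1 q = (1 : F) • q := by
    rw [hr, mul_applym, hxq, map_smul, hyq, smul_smul]; norm_num
  -- the vector on which `z₁` is `-1`
  set w : Matrix (Fin 3) (Fin 3) F := Matrix.single 2 1 1 with hw
  have hyw : y.1 w = (-1 : F) • w := by
    obtain ⟨W, hW⟩ : ∃ W, W = (g⁻¹).1 w := ⟨_, rfl⟩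
    have hgW : g.1 W = w := by rw [hW]; exact g.1.apply_symm_apply w
    have hWs : (G (t 0) 1).1 W = (-1 : F) • W := hW ▸ hsupp' _
      (eigen_comm (Commute.inv_left h0).eq (by rw [hw, hsingle]; simp [sg]))
      (eigen_comm (Commute.inv_left h1).eq (by rw [hw, hsingle]; simp [sg]))
    rw [← hgW, hyg, hWs, map_smul]
  have hrw : r.1 w = (1 : F) • w := by
    rw [hr, mul_applym, hw, hsleft, map_smul, ← hw, hyw, smul_smul]
    simp [sg]
  have hp0 : p ≠ 0 := fun h => by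
    have := congrFun (congrFun (g.1.map_eq_zero_iff.1 h) 0) 2
    simp at this
  have hq0 : q ≠ 0 := fun h => by
    have := congrFun (congrFun (g.1.map_eq_zero_iff.1 h) 2) 0
    simp at this
  have hw0 : w ≠ 0 := fun h => by
    have := congrFun (congrFun h 2) 1
    simp [hw] at this
  have hrM : r ∈ M := mul_mem hyM hxM
  have hrz : ∀ i, r * G (t i) (t i) = G (t i) (t i) * r := fun i =>
    comm_mul_left (hyz i) (by rw [G_mul, G_mul, t_comm 1 i, one_mul, mul_one])
  rcases dihedral hyy hxx with ⟨m, hm⟩ | ⟨n, hn1, hn2, hnx, hny, -⟩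
  · exfalso
    rw [← hr] at hm
    have h : (r ^ m).1 (y.1 (((r ^ m)⁻¹).1 ((r ^ m).1 p))) = (G (t 1) 1).1 ((r ^ m).1 p) := by
      rw [← mul_applym, ← mul_applym, hm]
    rw [show ((r ^ m)⁻¹).1 ((r ^ m).1 p) = p from (r ^ m).1.symm_apply_apply p, hyp, one_smul,
      pow_eigen hrp, map_smul, hxp, smul_smul] at h
    have h' := smul_left_injective F hp0 h
    have h'' : (2 : F) * (-1) ^ m = 0 := by linear_combination h'
    exact mul_ne_zero two0 (pow_ne_zero m (neg_ne_zero.2 one_ne_zero)) h''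
  rw [← hr] at hn1 hn2 hnx hny
  obtain ⟨v, hv⟩ : ∃ v, v = r ^ n := ⟨_, rfl⟩
  rw [← hv] at hn1 hn2 hnx hny
  have hvM : v ∈ M := hv ▸ pow_mem hrM n
  have hvz : ∀ i, v * G (t i) (t i) = G (t i) (t i) * v := fun i => hv ▸ pow_comm (hrz i) n
  have hvq : v.1 q = q := by rw [hv, pow_eigen hrq, one_pow, one_smul]
  have hvw : v.1 w = w := by rw [hv, pow_eigen hrw, one_pow, one_smul]
  obtain ⟨A₀, B₀, hAB⟩ := hM.cent_left hq (t_mem two0 1) (t_sq 1) (t_ne_one 1) hvM hnx
  rw [hAB] at hn2 hvM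
  obtain ⟨A, B, he, hdA, hdB, hAA, hBB⟩ := hM.invol_form hvM hn2
  rw [he] at hAB hvM
  have hc0 := comm_of_commute (hAB ▸ hvz 0) (Or.inl (tr3_t_ne 0))
  have hc1 := comm_of_commute (hAB ▸ hvz 1) (Or.inl (tr3_t_ne 1))
  have h10 : (t 1 : O3 F) * t 0 = t 2 := t_mul (by decide) (by decide) (by decide)
  have hform : ∀ C : O3 F, C * C = 1 → dick two0 C = 1 → C * t 0 = t 0 * C → C * t 1 = t 1 * C →
      C = 1 ∨ ∃ i, C = t i := by
    intro C hC hdC hC0 hC1
    rcases comm_two two0 hC hdC (t_sq 1) (dick_t 1) (t_ne_one 1) (fun h => by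
        have := t_inj h; simp at this) (t_comm 1 0) hC0 hC1 with h | h | h | h
    exacts [Or.inl h, Or.inr ⟨0, h⟩, Or.inr ⟨1, h⟩, Or.inr ⟨2, h.trans h10⟩]
  have hyv : y * v = v * y := hny.symm
  rw [hAB] at hyv
  rcases hform A hAA hdA hc0.1 hc1.1 with rfl | ⟨i, rfl⟩
  · have hB1 : B ≠ 1 := fun h => hn1 (by rw [hAB, h, G_one])
    exact hM.cent_pure_right hq hvM hBB hB1 hyM hyv
  rcases hform B hBB hdB hc0.2 hc1.2 with rfl | ⟨j, rfl⟩
  · exact hM.cent_pure_left hq hvM hAA (t_ne_one i) hyM hyv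
  rcases eq_or_ne i j with rfl | hij
  · exfalso
    have hneg : ∀ X : Matrix (Fin 3) (Fin 3) F, v.1 X = X → v.1 X = (-1 : F) • X → X = 0 := by
      intro X h1 h2
      rw [h1, neg_one_smul, eq_neg_iff_add_eq_zero, ← two_smul F X, smul_eq_zero] at h2
      exact h2.resolve_left two0
    fin_cases i
    · refine hq0 (hneg q hvq ?_)
      rw [hAB]
      exact eigen_comm h0 (by rw [hsingle]; simp [sg])
    · refine hw0 (hneg w hvw ?_)
      rw [hAB, hw]
      exact (hsingle 1 2 1).trans (by simp [sg])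
    · refine hq0 (hneg q hvq ?_)
      rw [hAB]
      exact eigen_comm h2 (by rw [hsingle]; simp [sg])
  · have hne : (t i : O3 F) * t j ≠ 1 := fun h => hij (t_inj (by
      rw [← inv_eq_of_mul_eq_one_right h, inv_eq_of_mul_eq_one_right (t_sq i)]))
    have hc := commute_mul hyv (hyz j)
    rw [G_mul, t_sq] at hc
    have hmem : G (t i * t j) (1 : O3 F) ∈ M :=
      hM.left_mem (mul_mem (t_mem two0 i) (t_mem two0 j))
    exact hM.cent_pure_left hq hmem (by
      rw [mul_assoc (t i), ← mul_assoc (t j), t_comm j i, mul_assoc (t i), t_sq, mul_one, t_sq])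
      hne hyM hc

/-- The centraliser of `t₀ ⊗ St₀S⁻¹` and `t₁ ⊗ St₁S⁻¹`. -/
lemma cent_four' (S : O3 F) {g : OQ (Qm F)} (hg : g ∈ M)
    (h0 : g * G (t 0) (S * t 0 * S⁻¹) = G (t 0) (S * t 0 * S⁻¹) * g)
    (h1 : g * G (t 1) (S * t 1 * S⁻¹) = G (t 1) (S * t 1 * S⁻¹) * g) : g ∈ Nt := by
  obtain ⟨n, hn⟩ : ∃ n : OQ (Qm F), n = G 1 S := ⟨_, rfl⟩
  have key : ∀ i, g * G (t i) (S * t i * S⁻¹) = G (t i) (S * t i * S⁻¹) * g →
      n⁻¹ * g * n * G (t i) (t i) = G (t i) (t i) * (n⁻¹ * g * n) := by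
    intro i h
    have e : n * G (t i) (t i) * n⁻¹ = G (t i) (S * t i * S⁻¹) := by
      rw [hn, G_conj]; simp
    rw [← e] at h
    calc n⁻¹ * g * n * G (t i) (t i) = n⁻¹ * (g * (n * G (t i) (t i) * n⁻¹)) * n := by
          simp [mul_assoc]
      _ = _ := by rw [h]; simp [mul_assoc]
  have := (hM.conj 1 S).cent_four hq (g := n⁻¹ * g * n)
    (by rw [Subgroup.mem_comap, MulEquiv.coe_toMonoidHom, MulAut.conj_apply, ← hn]
        simpa [mul_assoc] using hg) (key 0 h0) (key 1 h1)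
  rw [show g = n * (n⁻¹ * g * n) * n⁻¹ by simp [mul_assoc], hn]
  exact Subgroup.mul_mem _ (Subgroup.mul_mem _ (G_mem_Nt 1 S) (hn ▸ this))
    (Subgroup.inv_mem _ (G_mem_Nt 1 S))

/-- The centraliser of `t₀ ⊗ t₀`. -/
theorem cent_diag {g : OQ (Qm F)} (hg : g ∈ M) (h0 : g * G (t 0) (t 0) = G (t 0) (t 0) * g) :
    g ∈ Nt := by
  haveI := finiteOQm (F := F)
  refine hM.isolation hq hg ?_
  set y := g * G (t 0) 1 * g⁻¹ with hy
  have hyM : y ∈ M := mul_mem (mul_mem hg hM.s_mem) (inv_mem hg)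
  have hyy : y * y = 1 := conj_invol g (by rw [G_mul, t_sq, one_mul, G_one])
  obtain ⟨z, hz⟩ : ∃ z : OQ (Qm F), z = G (t 0) (t 0) := ⟨_, rfl⟩
  rw [← hz] at h0
  have hzz : z * z = 1 := hz ▸ G_tt_sq (t_sq 0) (t_sq 0)
  have hyz : y * z = z * y := conj_comm h0 (by rw [hz, G_mul, G_mul, one_mul, mul_one])
  have hxz : G (t 1) (1 : O3 F) * z = z * G (t 1) 1 := by
    rw [hz, G_mul, G_mul, t_comm 1 0, one_mul, mul_one]
  have htry : trM y = -3 := by rw [hy, trM_conj, trM_left, tr3_t]; ring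
  have htryz : trM (y * z) = -3 := by
    rw [show y * z = g * (G (t 0) 1 * z) * g⁻¹ by
      rw [hy, mul_assoc (g * G (t 0) 1), (Commute.inv_left h0).eq]; simp [mul_assoc],
      trM_conj, hz, G_mul, t_sq, one_mul, trM_right, tr3_t]
    ring
  have h10 : (t 1 : O3 F) * t 0 = t 2 := t_mul (by decide) (by decide) (by decide)
  have htrx : trM (G (t 1) (1 : O3 F)) = -3 := by rw [trM_left, tr3_t]; ring
  have htrxz : trM (G (t 1) 1 * z) = 1 := by
    rw [hz, G_mul, h10, one_mul, trM_G, tr3_t, tr3_t]; ring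
  set r := y * G (t 1) 1 with hr
  have hrz : r * z = z * r := comm_mul_left hyz hxz
  have hrM : r ∈ M := mul_mem hyM (hM.left_mem (t_mem two0 1))
  rcases dihedral hyy (show G (t 1) (1 : O3 F) * G (t 1) 1 = 1 by rw [G_mul, t_sq, one_mul, G_one])
    with ⟨m, hm⟩ | ⟨n, hn1, hn2, hnx, hny, m, hm⟩
  · exfalso
    rw [← hr] at hm
    rw [← hm, show r ^ m * y * (r ^ m)⁻¹ * z = r ^ m * (y * z) * (r ^ m)⁻¹ by
      rw [mul_assoc (r ^ m * y), (Commute.inv_left (show Commute (r ^ m) z from pow_comm hrz m)).eq]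
      simp [mul_assoc], trM_conj, htryz] at htrxz
    exact four0 (F := F) (by linear_combination -htrxz)
  rw [← hr] at hn1 hn2 hnx hny hm
  obtain ⟨v, hv⟩ : ∃ v, v = r ^ n := ⟨_, rfl⟩
  rw [← hv] at hn1 hn2 hnx hny hm
  have hvM : v ∈ M := hv ▸ pow_mem hrM n
  have hvz : v * z = z * v := hv ▸ pow_comm hrz n
  obtain ⟨A₀, B₀, hAB⟩ := hM.cent_left hq (t_mem two0 1) (t_sq 1) (t_ne_one 1) hvM hnx
  rw [hAB] at hn2 hvM
  obtain ⟨A, B, he, hdA, hdB, hAA, hBB⟩ := hM.invol_form hvM hn2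
  rw [he] at hAB hvM
  have hc0 := comm_of_commute (show G A B * G (t 0) (t 0) = G (t 0) (t 0) * G A B by
    rw [← hAB, ← hz]; exact hvz) (Or.inl (tr3_t_ne 0))
  have hc1 : A * t 1 = t 1 * A :=
    (comm_of_commute (hAB ▸ hnx) (Or.inl (tr3_t_ne 1))).1
  have hyv : y * v = v * y := hny.symm
  by_cases hB1 : B = 1
  · subst hB1
    have hA1 : A ≠ 1 := fun h => hn1 (by rw [hAB, h, G_one])
    exact hM.cent_pure_left hq hvM hAA hA1 hyM (hAB ▸ hyv)
  -- the case `t₁ ⊗ C`
  have key : ∀ C : O3 F, G (t 1) C ∈ M → C * C = 1 → dick two0 C = 1 → C * t 0 = t 0 * C →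
      y * G (t 1) C = G (t 1) C * y → y ∈ Nt := by
    intro C hCM hCC hdC hC0 hyC
    by_cases hC1 : C = 1
    · subst hC1
      exact hM.cent_pure_left hq hCM (t_sq 1) (t_ne_one 1) hyM hyC
    by_cases hCt : C = t 0
    · subst hCt
      have h := commute_mul hyC (hz ▸ hyz : y * G (t 0) (t 0) = G (t 0) (t 0) * y)
      rw [G_mul, t_sq, h10] at h
      exact hM.cent_pure_left hq (hM.left_mem (t_mem two0 2)) (t_sq 2) (t_ne_one 2) hyM h
    have hCU : C ∈ U3 F := by
      have := mul_mem ((U3 F).inv_mem (t_mem two0 1)) ((hM.tens _ _).1 hCM)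
      rwa [inv_mul_cancel_left, inv_mem_iff] at this
    obtain ⟨ν, hν, rfl⟩ := exists_hturn two0 hCC hdC hC1
    have hCe : (hturn ν hν).1 (e 0) = -e 0 := (e_of_comm_t two0 hC0).resolve_left fun hf =>
      (eq_one_or_t two0 hCC hdC hf).elim hC1 hCt
    have hν0 : polar (Q3 F) ν (e 0) = 0 := by
      have h := OQ_polar (hturn ν hν) ν (e 0)
      rw [hturn_axis, hCe, polar_neg_right] at h
      have h' : (2 : F) * polar (Q3 F) ν (e 0) = 0 := by linear_combination -h
      exact (mul_eq_zero.1 h').resolve_left two0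
    obtain ⟨S, hS, hSfix⟩ := exists_conj_hturn (two0 (F := F)) (Q3_e_ne 1) hν
      (by rw [Q3_e, one_mul]; exact (hturn_mem_iff two0 _ _).1 hCU)
    replace hS : S * t 1 * S⁻¹ = hturn ν hν := hS
    have hS0 : S * t 0 * S⁻¹ = t 0 := by
      rw [t_comm_t0 (hSfix _ (by simp [polar_Q3, e]) hν0), mul_inv_cancel_right]
    exact hM.cent_four' hq S hyM (by rw [hS0, ← hz]; exact hyz) (by rw [hS]; exact hyC)
  rcases comm_two two0 hAA hdA (t_sq 1) (dick_t 1) (t_ne_one 1)
    (fun h => by have := t_inj h; simp at this) (t_comm 1 0) hc0.1 hc1 with rfl | rfl | rfl | rfl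
  · exact hM.cent_pure_right hq hvM hBB hB1 hyM (hAB ▸ hyv)
  · by_cases hBt : B = t 0
    · exfalso
      subst hBt
      rw [← hz] at hAB
      rcases hm with hm | hm
      · have h : trM (v * G (t 1) 1) = 1 := by rw [hAB, ← hxz]; exact htrxz
        rw [← hm, trM_conj, htrx] at h
        exact four0 (F := F) (by linear_combination -h)
      · have h : trM (v * G (t 1) 1) = 1 := by rw [hAB, ← hxz]; exact htrxz
        rw [← hm, trM_conj, htry] at h
        exact four0 (F := F) (by linear_combination -h)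
    · have h := commute_mul (hAB ▸ hyv : y * G (t 0) B = G (t 0) B * y)
        (hz ▸ hyz : y * G (t 0) (t 0) = G (t 0) (t 0) * y)
      rw [G_mul, t_sq] at h
      refine hM.cent_pure_right hq (B := B * t 0) ?_ ?_ (fun he => hBt ?_) hyM h
      · have := mul_mem hvM (hM.diag_mem (t 0))
        rwa [G_mul, t_sq] at this
      · rw [mul_assoc B, ← mul_assoc (t 0), ← hc0.2, mul_assoc B (t 0), t_sq, mul_one, hBB]
      · rw [← inv_eq_of_mul_eq_one_right he, inv_eq_of_mul_eq_one_right hBB] at *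
  · exact key B hvM hBB hdB hc0.2 (hAB ▸ hyv)
  · have h := commute_mul (hAB ▸ hyv : y * G (t 1 * t 0) B = G (t 1 * t 0) B * y)
      (hz ▸ hyz : y * G (t 0) (t 0) = G (t 0) (t 0) * y)
    rw [G_mul, mul_assoc (t 1), t_sq, mul_one] at h
    refine key (B * t 0) ?_ ?_ (by rw [map_mul, hdB, dick_t, one_mul]) ?_ h
    · have := mul_mem hvM (hM.diag_mem (t 0))
      rwa [G_mul, mul_assoc (t 1), t_sq, mul_one] at this
    · rw [mul_assoc B, ← mul_assoc (t 0), ← hc0.2, mul_assoc B (t 0), t_sq, mul_one, hBB]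
    · rw [mul_assoc, t_sq, mul_one, ← mul_assoc, ← hc0.2, mul_assoc, t_sq, mul_one]

/-- Transport along a tensor conjugation. -/
lemma cent_conj {R S C D : O3 F}
    (h : ∀ (M' : Subgroup (OQ (Qm F))), Hyp M' → ∀ g ∈ M', g * G C D = G C D * g → g ∈ Nt)
    {g : OQ (Qm F)} (hg : g ∈ M)
    (hc : g * G (R * C * R⁻¹) (S * D * S⁻¹) = G (R * C * R⁻¹) (S * D * S⁻¹) * g) : g ∈ Nt := by
  obtain ⟨n, hn⟩ : ∃ n : OQ (Qm F), n = G R S := ⟨_, rfl⟩
  have e : n * G C D * n⁻¹ = G (R * C * R⁻¹) (S * D * S⁻¹) := by rw [hn, G_conj]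
  rw [← e] at hc
  have := h _ (hM.conj R S) (n⁻¹ * g * n)
    (by rw [Subgroup.mem_comap, MulEquiv.coe_toMonoidHom, MulAut.conj_apply, ← hn]
        simpa [mul_assoc] using hg) (by
      calc n⁻¹ * g * n * G C D = n⁻¹ * (g * (n * G C D * n⁻¹)) * n := by simp [mul_assoc]
        _ = _ := by rw [hc]; simp [mul_assoc])
  rw [show g = n * (n⁻¹ * g * n) * n⁻¹ by simp [mul_assoc], hn]
  exact Subgroup.mul_mem _ (Subgroup.mul_mem _ (G_mem_Nt R S) (hn ▸ this))
    (Subgroup.inv_mem _ (G_mem_Nt R S))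

/-- The centraliser of a mixed involution in the commutator subgroup. -/
lemma cent_adm {A B : O3 F} (hA : A ∈ U3 F) (hAA : A * A = 1) (hA1 : A ≠ 1) (hB : B ∈ U3 F)
    (hBB : B * B = 1) (hB1 : B ≠ 1) {g : OQ (Qm F)} (hg : g ∈ M)
    (hc : g * G A B = G A B * g) : g ∈ Nt := by
  obtain ⟨α, hα, rfl⟩ := exists_hturn two0 hAA (dick_of_mem two0 hA) hA1
  obtain ⟨β, hβ, rfl⟩ := exists_hturn two0 hBB (dick_of_mem two0 hB) hB1
  obtain ⟨R, hR, -⟩ := exists_conj_hturn (two0 (F := F)) (Q3_e_ne 0) hα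
    (by rw [Q3_e, one_mul]; exact (hturn_mem_iff two0 _ _).1 hA)
  obtain ⟨S, hS, -⟩ := exists_conj_hturn (two0 (F := F)) (Q3_e_ne 0) hβ
    (by rw [Q3_e, one_mul]; exact (hturn_mem_iff two0 _ _).1 hB)
  exact hM.cent_conj hq (R := R) (S := S) (C := t 0) (D := t 0)
    (fun M' hM' g hg h => hM'.cent_diag hq hg h) hg (by simp only [t, hR, hS]; exact hc)

/-- The centraliser of a mixed involution outside the commutator subgroup. -/
lemma cent_non {H : O3 F} (hHU : H ∉ U3 F) (hHH : H * H = 1) (hdH : dick two0 H = 1)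
    (hHt : H * t 0 = t 0 * H) {g : OQ (Qm F)} (hg : g ∈ M)
    (hc : g * G H H = G H H * g) : g ∈ Nt := by
  haveI := finiteOQm (F := F)
  have hH1 : H ≠ 1 := fun h => hHU (h ▸ one_mem _)
  have hHne : H ≠ t 0 := fun h => hHU (h ▸ t_mem two0 0)
  obtain ⟨z, hz⟩ : ∃ z : OQ (Qm F), z = G H H := ⟨_, rfl⟩
  rw [← hz] at hc
  have hzM : z ∈ M := hz ▸ hM.diag_mem H
  have hzz : z * z = 1 := hz ▸ G_tt_sq hHH hHH
  obtain ⟨w, hw⟩ : ∃ w : OQ (Qm F), w = G (t 0) (t 0) := ⟨_, rfl⟩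
  have hwM : w ∈ M := hw ▸ hM.diag_mem (t 0)
  have hww : w * w = 1 := hw ▸ G_tt_sq (t_sq 0) (t_sq 0)
  have hwz : w * z = z * w := by rw [hw, hz, G_mul, G_mul, hHt]
  have hsz : G (t 0) (1 : O3 F) * z = z * G (t 0) 1 := by
    rw [hz, G_mul, G_mul, hHt, one_mul, mul_one]
  have hsw : G (t 0) (1 : O3 F) * w = w * G (t 0) 1 := by
    rw [hw, G_mul, G_mul, one_mul, mul_one]
  have htrH : tr3 H = -1 := tr3_invol two0 hHH hdH hH1
  have hUt : ∀ C : O3 F, C * t 0 ∈ U3 F ↔ C ∈ U3 F := fun C =>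
    ⟨fun h => by simpa [mul_assoc, t_sq] using (U3 F).mul_mem h (t_mem two0 0),
      fun h => (U3 F).mul_mem h (t_mem two0 0)⟩
  have hHt0U : H * t 0 ∉ U3 F := fun h => hHU ((hUt H).1 h)
  have hHt0sq : H * t 0 * (H * t 0) = 1 := by
    rw [mul_assoc H, ← mul_assoc (t 0), ← hHt, mul_assoc H (t 0), t_sq, mul_one, hHH]
  have hHt01 : H * t 0 ≠ 1 := fun h => hHt0U (h ▸ one_mem _)
  have hdHt0 : dick two0 (H * t 0) = 1 := by rw [map_mul, hdH, dick_t, one_mul]
  set y := g * w * g⁻¹ with hy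
  have hyM : y ∈ M := mul_mem (mul_mem hg hwM) (inv_mem hg)
  have hyy : y * y = 1 := conj_invol g hww
  have hyz : y * z = z * y := conj_comm hc hwz
  have htry : trM y = 1 := by rw [hy, trM_conj, hw, trM_G, tr3_t]; ring
  have htrs : trM (G (t 0) (1 : O3 F)) = -3 := by rw [trM_left, tr3_t]; ring
  have hss : G (t 0) (1 : O3 F) * G (t 0) 1 = 1 := by rw [G_mul, t_sq, one_mul, G_one]
  set r := y * G (t 0) 1 with hr
  have hrz : r * z = z * r := comm_mul_left hyz hsz
  have hrM : r ∈ M := mul_mem hyM hM.s_mem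
  rcases dihedral hyy hss with ⟨m, hm⟩ | ⟨n, hn1, hn2, hnx, hny, m, hm⟩
  · exfalso
    rw [← hr] at hm
    rw [← hm, trM_conj, htry] at htrs
    exact four0 (F := F) (by linear_combination htrs)
  rw [← hr] at hn1 hn2 hnx hny hm
  obtain ⟨v, hv⟩ : ∃ v, v = r ^ n := ⟨_, rfl⟩
  rw [← hv] at hn1 hn2 hnx hny hm
  have hvM : v ∈ M := hv ▸ pow_mem hrM n
  have hvz : v * z = z * v := hv ▸ pow_comm hrz n
  obtain ⟨A₀, B₀, hAB⟩ := hM.cent_s hq hvM hnx
  rw [hAB] at hn2 hvM
  obtain ⟨A, B, he, hdA, hdB, hAA, hBB⟩ := hM.invol_form hvM hn2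
  rw [he] at hAB hvM
  have hcH := comm_of_commute (show G A B * G H H = G H H * G A B by rw [← hAB, ← hz]; exact hvz)
    (Or.inl (by rw [htrH]; exact neg_ne_zero.2 one_ne_zero))
  have hcs : A * t 0 = t 0 * A := comm_s (hAB ▸ hnx)
  have hAiB : A * B ∈ U3 F := by
    have := (hM.tens _ _).1 hvM
    rwa [inv_eq_of_mul_eq_one_right hBB] at this
  have hyv : y * G A B = G A B * y := hAB ▸ hny.symm
  have hyzG : y * G H H = G H H * y := hz ▸ hyz
  -- `g` is in the stabiliser as soon as `y` is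
  suffices hyN : y ∈ Nt by
    obtain ⟨P₀, R₀, hPR | hPR⟩ := mem_Nt.1 hyN
    swap
    · exfalso
      rw [hPR, Gsw_mul_Gsw] at hyy
      rw [hPR, trM_G_sw] at htry
      rcases G_eq_one hyy with ⟨ha, -⟩ | ⟨ha, -⟩
      · rw [ha, tr3_one] at htry
        exact two0 (F := F) (by linear_combination htry)
      · rw [ha, ← mul_one (neg3 : O3 F), tr3_neg3_mul, tr3_one] at htry
        exact four0 (F := F) (by linear_combination -htry)
    obtain ⟨P, R, hpr, hdP, hdR, hPP, hRR⟩ := hM.invol_form (hPR ▸ hyM) (hPR ▸ hyy)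
    rw [hpr] at hPR
    refine hM.isolation hq hg ?_
    set y' := g * G (t 0) 1 * g⁻¹ with hy'
    have hy'M : y' ∈ M := mul_mem (mul_mem hg hM.s_mem) (inv_mem hg)
    have hy'y : y' * y = y * y' := by
      rw [hy', hy, show g * G (t 0) 1 * g⁻¹ * (g * w * g⁻¹) = g * (G (t 0) 1 * w) * g⁻¹ by
        simp [mul_assoc], hsw]
      simp [mul_assoc]
    have hy'z : y' * z = z * y' := conj_comm hc hsz
    have hP1 : P ≠ 1 ∧ R ≠ 1 := by
      rw [hPR, trM_G] at htry
      refine ⟨?_, ?_⟩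
      · rintro rfl
        by_cases hR1 : R = 1
        · subst hR1
          rw [tr3_one] at htry
          have h8 : (2 : F) * (2 * 2) = 0 := by linear_combination htry
          exact mul_ne_zero two0 (mul_ne_zero two0 two0) h8
        · rw [tr3_one, tr3_invol two0 hRR hdR hR1] at htry
          exact four0 (F := F) (by linear_combination -htry)
      · rintro rfl
        by_cases hP1 : P = 1
        · subst hP1
          rw [tr3_one] at htry
          have h8 : (2 : F) * (2 * 2) = 0 := by linear_combination htry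
          exact mul_ne_zero two0 (mul_ne_zero two0 two0) h8
        · rw [tr3_one, tr3_invol two0 hPP hdP hP1] at htry
          exact four0 (F := F) (by linear_combination -htry)
    have hPiR : P * R ∈ U3 F := by
      have := (hM.tens _ _).1 (hPR ▸ hyM)
      rwa [inv_eq_of_mul_eq_one_right hRR] at this
    by_cases hPU : P ∈ U3 F
    · refine hM.cent_adm hq hPU hPP hP1.1 ?_ hRR hP1.2 hy'M (hPR ▸ hy'y)
      simpa [← mul_assoc, hPP] using (U3 F).mul_mem hPU hPiR
    have hRU : R ∉ U3 F := fun hR => hPU (by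
      simpa [mul_assoc, hRR] using (U3 F).mul_mem hPiR hR)
    have hcy := comm_of_commute (show G P R * G H H = G H H * G P R by rw [← hPR]; exact hyzG)
      (Or.inl (by rw [htrH]; exact neg_ne_zero.2 one_ne_zero))
    have hmix : ∀ C : O3 F, C ∉ U3 F → dick two0 C = 1 → C * H ∈ U3 F := fun C hC hdC =>
      Forms.mul_mem_commutator_of_dickson (bnondeg3 two0) (notExc3 two0) hdC hdH hC hHU
    have htryz : trM (y * z) = 1 := by
      rw [show y * z = g * (w * z) * g⁻¹ by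
        rw [hy, mul_assoc (g * w), (Commute.inv_left hc).eq]; simp [mul_assoc],
        trM_conj, hw, hz, G_mul, ← hHt, trM_G, tr3_invol two0 hHt0sq hdHt0 hHt01]
      ring
    rw [hPR, hz, G_mul, trM_G] at htryz
    have hPHsq : P * H * (P * H) = 1 := by
      rw [mul_assoc P, ← mul_assoc H, ← hcy.1, mul_assoc P H, hHH, mul_one, hPP]
    have hRHsq : R * H * (R * H) = 1 := by
      rw [mul_assoc R, ← mul_assoc H, ← hcy.2, mul_assoc R H, hHH, mul_one, hRR]
    have hdPH : dick two0 (P * H) = 1 := by rw [map_mul, hdP, hdH, one_mul]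
    have hdRH : dick two0 (R * H) = 1 := by rw [map_mul, hdR, hdH, one_mul]
    have hne : P * H ≠ 1 ∧ R * H ≠ 1 := by
      refine ⟨fun h => ?_, fun h => ?_⟩
      · rw [h, tr3_one] at htryz
        by_cases h' : R * H = 1
        · rw [h', tr3_one] at htryz
          have h8 : (2 : F) * (2 * 2) = 0 := by linear_combination htryz
          exact mul_ne_zero two0 (mul_ne_zero two0 two0) h8
        · rw [tr3_invol two0 hRHsq hdRH h'] at htryz
          exact four0 (F := F) (by linear_combination -htryz)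
      · rw [h, tr3_one] at htryz
        by_cases h' : P * H = 1
        · rw [h', tr3_one] at htryz
          have h8 : (2 : F) * (2 * 2) = 0 := by linear_combination htryz
          exact mul_ne_zero two0 (mul_ne_zero two0 two0) h8
        · rw [tr3_invol two0 hPHsq hdPH h'] at htryz
          exact four0 (F := F) (by linear_combination -htryz)
    refine hM.cent_adm hq (hmix P hPU hdP) hPHsq hne.1 (hmix R hRU hdR) hRHsq hne.2 hy'M ?_
    have h := commute_mul (hPR ▸ hy'y : y' * G P R = G P R * y') (hz ▸ hy'z)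
    rwa [G_mul] at h
  by_cases hA1 : A = 1
  · subst hA1
    exact hM.cent_pure_right hq hvM hBB (fun h => hn1 (by rw [hAB, h, G_one])) hyM hyv
  by_cases hB1 : B = 1
  · subst hB1
    exact hM.cent_pure_left hq hvM hAA hA1 hyM hyv
  have hBH : B * H * (B * H) = 1 := by
    rw [mul_assoc B, ← mul_assoc H, ← hcH.2, mul_assoc B H, hHH, mul_one, hBB]
  rcases comm_two two0 hAA hdA hHH hdH hH1 hHne hHt hcs hcH.1 with rfl | rfl | rfl | rfl
  · exact absurd rfl hA1
  · refine hM.cent_adm hq (t_mem two0 0) (t_sq 0) (t_ne_one 0) ?_ hBB hB1 hyM hyv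
    simpa [← mul_assoc, t_sq] using (U3 F).mul_mem (t_mem two0 0) hAiB
  · by_cases hBe : B = A
    · -- the central involution is `z`
      exfalso
      subst hBe
      rw [← hz] at hAB
      have hvs : trM (v * G (t 0) 1) = 1 := by
        rw [hAB, hz, G_mul, mul_one, trM_G, htrH, tr3_invol two0 hHt0sq hdHt0 hHt01]; ring
      rcases hm with hm | hm
      · rw [← hm, trM_conj, htrs] at hvs
        exact four0 (F := F) (by linear_combination -hvs)
      obtain ⟨c, hc'⟩ : ∃ c, c = r ^ m := ⟨_, rfl⟩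
      rw [← hc'] at hm
      set k := c * g with hk
      have hcM : c ∈ M := hc' ▸ pow_mem hrM m
      have hkM : k ∈ M := mul_mem hcM hg
      have hkz : k * z = z * k := comm_mul_left (hc' ▸ pow_comm hrz m) hc
      have hkw : k * w * k⁻¹ = z * G (t 0) 1 := by
        rw [← hAB, ← hm, hy, hk]; simp [mul_assoc]
      set s' := k * G (t 0) 1 * k⁻¹ with hs'
      have hs'M : s' ∈ M := mul_mem (mul_mem hkM hM.s_mem) (inv_mem hkM)
      have hs'z : s' * z = z * s' := conj_comm hkz hsz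
      have hs'w : s' * (z * G (t 0) 1) = z * G (t 0) 1 * s' := by
        rw [← hkw, hs', show k * G (t 0) 1 * k⁻¹ * (k * w * k⁻¹) = k * (G (t 0) 1 * w) * k⁻¹ by
          simp [mul_assoc], hsw]
        simp [mul_assoc]
      have hs's : s' * G (t 0) 1 = G (t 0) 1 * s' := by
        have h := commute_mul hs'z hs'w
        rwa [← mul_assoc z z, hzz, one_mul] at h
      obtain ⟨P, R, hPR⟩ := hM.cent_s hq hs'M hs's
      have hkN : k ∈ Nt := hM.isolation hq hkM (show s' ∈ Nt from hPR ▸ G_mem_Nt P R)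
      have hpair : ∃ P R : O3 F, k * w * k⁻¹ = G (P * t 0 * P⁻¹) (R * t 0 * R⁻¹) := by
        obtain ⟨P, R, hPR | hPR⟩ := mem_Nt.1 hkN
        · exact ⟨P, R, by rw [hPR, hw, G_conj]⟩
        · refine ⟨P, R, ?_⟩
          rw [hPR, hw, Gsw_mul_G, Gsw_inv, Gsw_mul_Gsw]
      obtain ⟨P, R, hpr⟩ := hpair
      rw [hkw, hz, G_mul, mul_one] at hpr
      have hRU : R * t 0 * R⁻¹ ∈ U3 F := conj_mem_U3.2 (t_mem two0 0)
      rcases G_inj hpr with ⟨-, hb⟩ | ⟨-, hb⟩
      · exact hHU (hb ▸ hRU)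
      · have := congrArg (dick (two0 (F := F))) hb
        rw [map_mul, dick_neg3, hdH, dick_of_mem two0 hRU] at this
        exact absurd this (by decide)
    · have h := commute_mul hyv hyzG
      rw [G_mul, hAA] at h
      refine hM.cent_pure_right hq (B := B * A) ?_ hBH (fun he => hBe ?_) hyM h
      · have := mul_mem hvM (hM.diag_mem A)
        rwa [G_mul, hAA] at this
      · rw [← inv_eq_of_mul_eq_one_right he, inv_eq_of_mul_eq_one_right hBB] at *
  · have h := commute_mul hyv hyzG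
    have ht0 : H * t 0 * H = t 0 := by rw [hHt, mul_assoc, hHH, mul_one]
    rw [G_mul, ht0] at h
    by_cases hBH1 : B * H = 1
    · rw [hBH1] at h
      exact hM.cent_pure_left hq hM.s_mem (t_sq 0) (t_ne_one 0) hyM h
    refine hM.cent_adm hq (t_mem two0 0) (t_sq 0) (t_ne_one 0) ?_ hBH hBH1 hyM h
    have h' := mul_mem hvM (hM.diag_mem H)
    rw [G_mul, ht0] at h'
    have h'' := (U3 F).mul_mem ((U3 F).inv_mem (t_mem two0 0)) ((hM.tens _ _).1 h')
    rwa [inv_mul_cancel_left, inv_mem_iff] at h''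

/-- The centraliser of any mixed involution. -/
lemma cent_mixed {A B : O3 F} (hAB : G A B ∈ M) (hAA : A * A = 1) (hdA : dick two0 A = 1)
    (hA1 : A ≠ 1) (hBB : B * B = 1) (hdB : dick two0 B = 1) (hB1 : B ≠ 1) {g : OQ (Qm F)}
    (hg : g ∈ M) (hc : g * G A B = G A B * g) : g ∈ Nt := by
  have hAiB : A * B ∈ U3 F := by
    have := (hM.tens _ _).1 hAB
    rwa [inv_eq_of_mul_eq_one_right hBB] at this
  by_cases hA : A ∈ U3 F
  · refine hM.cent_adm hq hA hAA hA1 ?_ hBB hB1 hg hc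
    simpa [← mul_assoc, hAA] using (U3 F).mul_mem hA hAiB
  have hB : B ∉ U3 F := fun hB => hA (by simpa [mul_assoc, hBB] using (U3 F).mul_mem hAiB hB)
  obtain ⟨H, hHH, hdH, hHt, hHU⟩ := exists_nonsquare_hturn (two0 (F := F)) 0
  obtain ⟨μ, hμ, rfl⟩ := exists_hturn two0 hHH hdH (fun h => hHU (h ▸ one_mem _))
  obtain ⟨α, hα, rfl⟩ := exists_hturn two0 hAA hdA hA1
  obtain ⟨β, hβ, rfl⟩ := exists_hturn two0 hBB hdB hB1
  obtain ⟨R, hR, -⟩ := exists_conj_hturn (two0 (F := F)) hμ hα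
    (Forms.isSquare_mul_of_not_isSquare (fun h => hHU ((hturn_mem_iff two0 _ _).2 h))
      (fun h => hA ((hturn_mem_iff two0 _ _).2 h)))
  obtain ⟨S, hS, -⟩ := exists_conj_hturn (two0 (F := F)) hμ hβ
    (Forms.isSquare_mul_of_not_isSquare (fun h => hHU ((hturn_mem_iff two0 _ _).2 h))
      (fun h => hB ((hturn_mem_iff two0 _ _).2 h)))
  exact hM.cent_conj hq (R := R) (S := S) (C := hturn μ hμ) (D := hturn μ hμ)
    (fun M' hM' g hg h => hM'.cent_non hq hHU hHH hdH hHt hg h) hg (by rw [hR, hS]; exact hc)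

/-- An overgroup not containing `Ω` stabilises the decomposition. -/
theorem le_Nt : M ≤ Nt := by
  intro g hg
  haveI := finiteOQm (F := F)
  refine hM.isolation hq hg ?_
  obtain ⟨w, hw⟩ : ∃ w : OQ (Qm F), w = G (t 0) (t 0) := ⟨_, rfl⟩
  set y := g * w * g⁻¹ with hy
  have hyM : y ∈ M := mul_mem (mul_mem hg (hw ▸ hM.diag_mem (t 0))) (inv_mem hg)
  have hyy : y * y = 1 := conj_invol g (hw ▸ G_tt_sq (t_sq 0) (t_sq 0))
  have htry : trM y = 1 := by rw [hy, trM_conj, hw, trM_G, tr3_t]; ring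
  have htrs : trM (G (t 0) (1 : O3 F)) = -3 := by rw [trM_left, tr3_t]; ring
  have hss : G (t 0) (1 : O3 F) * G (t 0) 1 = 1 := by rw [G_mul, t_sq, one_mul, G_one]
  set y' := g * G (t 0) 1 * g⁻¹ with hy'
  have hy'M : y' ∈ M := mul_mem (mul_mem hg hM.s_mem) (inv_mem hg)
  have hy'y : y' * y = y * y' := by
    have hsw : G (t 0) (1 : O3 F) * w = w * G (t 0) 1 := by
      rw [hw, G_mul, G_mul, one_mul, mul_one]
    rw [hy', hy, show g * G (t 0) 1 * g⁻¹ * (g * w * g⁻¹) = g * (G (t 0) 1 * w) * g⁻¹ by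
      simp [mul_assoc], hsw]
    simp [mul_assoc]
  rcases dihedral hyy hss with ⟨m, hm⟩ | ⟨n, hn1, hn2, hnx, hny, -⟩
  · exfalso
    rw [← hm, trM_conj, htry] at htrs
    exact four0 (F := F) (by linear_combination htrs)
  obtain ⟨v, hv⟩ : ∃ v, v = (y * G (t 0) 1) ^ n := ⟨_, rfl⟩
  rw [← hv] at hn1 hn2 hnx hny
  have hvM : v ∈ M := hv ▸ pow_mem (mul_mem hyM hM.s_mem) n
  obtain ⟨A₀, B₀, hAB⟩ := hM.cent_s hq hvM hnx
  rw [hAB] at hn2 hvM
  obtain ⟨A, B, he, hdA, hdB, hAA, hBB⟩ := hM.invol_form hvM hn2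
  rw [he] at hAB hvM
  have hyv : y * G A B = G A B * y := hAB ▸ hny.symm
  have hyN : y ∈ Nt := by
    by_cases hA1 : A = 1
    · subst hA1
      exact hM.cent_pure_right hq hvM hBB (fun h => hn1 (by rw [hAB, h, G_one])) hyM hyv
    by_cases hB1 : B = 1
    · subst hB1
      exact hM.cent_pure_left hq hvM hAA hA1 hyM hyv
    exact hM.cent_mixed hq hvM hAA hdA hA1 hBB hdB hB1 hyM hyv
  obtain ⟨P₀, R₀, hPR | hPR⟩ := mem_Nt.1 hyN
  swap
  · exfalso
    rw [hPR, Gsw_mul_Gsw] at hyy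
    rw [hPR, trM_G_sw] at htry
    rcases G_eq_one hyy with ⟨ha, -⟩ | ⟨ha, -⟩
    · rw [ha, tr3_one] at htry
      exact two0 (F := F) (by linear_combination htry)
    · rw [ha, ← mul_one (neg3 : O3 F), tr3_neg3_mul, tr3_one] at htry
      exact four0 (F := F) (by linear_combination -htry)
  obtain ⟨P, R, hpr, hdP, hdR, hPP, hRR⟩ := hM.invol_form (hPR ▸ hyM) (hPR ▸ hyy)
  rw [hpr] at hPR
  rw [hPR, trM_G] at htry
  have hP1 : P ≠ 1 := by
    rintro rfl
    by_cases hR1 : R = 1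
    · subst hR1
      rw [tr3_one] at htry
      have h8 : (2 : F) * (2 * 2) = 0 := by linear_combination htry
      exact mul_ne_zero two0 (mul_ne_zero two0 two0) h8
    · rw [tr3_one, tr3_invol two0 hRR hdR hR1] at htry
      exact four0 (F := F) (by linear_combination -htry)
  have hR1 : R ≠ 1 := by
    rintro rfl
    rw [tr3_one, tr3_invol two0 hPP hdP hP1] at htry
    exact four0 (F := F) (by linear_combination -htry)
  exact hM.cent_mixed hq (hPR ▸ hyM) hPP hdP hP1 hRR hdR hR1 hy'M (hPR ▸ hy'y)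

end Hyp

end Cfsg.Agent.MaxSub.TensorSquareThree
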