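import Cfsg.Agent.MaxSub.TensorSquareThree.O3

/-!
The tensor square of the orthogonal group in dimension three on `3 × 3` matrices, and the standing
hypotheses on its overgroups.
-/

set_option autoImplicit false
set_option linter.unusedSectionVars false
set_option linter.style.haveILetI false

namespace Cfsg.Agent.MaxSub.TensorSquareThree

open QuadraticMap Module Cfsg.Agent.Classical Matrix

universe u

variable {F : Type u} [Field F]

/-- The matrix of an isometry. -/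
noncomputable def mat (A : O3 F) : Matrix (Fin 3) (Fin 3) F := LinearMap.toMatrix' A.1.toLinearMap

lemma mat_mulVec (A : O3 F) (v : Fin 3 → F) : mat A *ᵥ v = A.1 v :=
  LinearMap.toMatrix'_mulVec _ _

lemma mat_apply (A : O3 F) (i j : Fin 3) : mat A i j = A.1 (e j) i := by
  rw [← mat_mulVec, mulVec_single_one]; rfl

lemma mat_one : mat (1 : O3 F) = 1 := LinearMap.toMatrix'_id

lemma mat_mul (A B : O3 F) : mat (A * B) = mat A * mat B :=
  LinearMap.toMatrix'_comp A.1.toLinearMap B.1.toLinearMap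

lemma mat_inj {A B : O3 F} (h : mat A = mat B) : A = B :=
  Subtype.ext (LinearEquiv.ext fun v => by rw [← mat_mulVec, h, mat_mulVec])

lemma transpose_mul_mat (h2 : (2 : F) ≠ 0) (A : O3 F) : (mat A)ᵀ * mat A = 1 := by
  ext i j
  have h : (mat A *ᵥ e i) ⬝ᵥ (mat A *ᵥ e j) = (e i : Fin 3 → F) ⬝ᵥ e j := by
    refine mul_left_cancel₀ h2 ?_
    rw [mat_mulVec, mat_mulVec, ← polar_Q3_dot, ← polar_Q3_dot, OQ_polar]
  rw [single_dotProduct, one_mul, mulVec_single_one, mulVec_single_one] at h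
  simp only [Matrix.mul_apply, transpose_apply]
  rw [Matrix.one_apply]
  calc _ = (mat A).col i ⬝ᵥ (mat A).col j := rfl
    _ = _ := by rw [h]; simp [Pi.single_apply]

lemma mat_inv (h2 : (2 : F) ≠ 0) (A : O3 F) : mat A⁻¹ = (mat A)ᵀ := by
  have := transpose_mul_mat h2 A
  have h' : mat A * mat A⁻¹ = 1 := by rw [← mat_mul, mul_inv_cancel, mat_one]
  rw [← one_mul (mat A⁻¹), ← this, mul_assoc, h', mul_one]

lemma mat_neg3 : mat (neg3 : O3 F) = -1 := by
  ext i j
  rw [mat_apply, neg3_apply]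
  simp [Matrix.one_apply, Pi.single_apply]

lemma mat_t (i : Fin 3) :
    mat (t i : O3 F) = Matrix.diagonal fun a => if a = i then 1 else -1 := by
  ext a b
  rw [mat_apply, t_apply, Matrix.diagonal_apply]
  by_cases h : a = b
  · subst h; simp
  · simp [h]

/-- The trace of an isometry. -/
noncomputable def tr3 (A : O3 F) : F := (mat A).trace

lemma tr3_one : tr3 (1 : O3 F) = 3 := by simp [tr3, mat_one]

lemma tr3_conj (A C : O3 F) : tr3 (A * C * A⁻¹) = tr3 C := by
  rw [tr3, tr3, mat_mul, mat_mul, mul_assoc, Matrix.trace_mul_comm, mul_assoc, ← mat_mul,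
    inv_mul_cancel, mat_one, mul_one]

lemma tr3_neg3_mul (A : O3 F) : tr3 (neg3 * A) = -tr3 A := by
  rw [tr3, tr3, mat_mul, mat_neg3, neg_one_mul, Matrix.trace_neg]

lemma tr3_hturn (ν : Fin 3 → F) (h : Q3 F ν ≠ 0) : tr3 (hturn ν h) = -1 := by
  simp only [tr3, Matrix.trace, Matrix.diag, Fin.sum_univ_three, mat_apply, hturn_apply,
    polar_comm _ ν (e _), polar_e]
  simp only [Pi.add_apply, Pi.neg_apply, Pi.smul_apply, smul_eq_mul, Pi.single_eq_same]
  have := Q3_apply ν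
  field_simp
  linear_combination -2 * this

lemma tr3_invol (h2 : (2 : F) ≠ 0) {A : O3 F} (hA : A * A = 1) (hd : dick h2 A = 1) (h1 : A ≠ 1) :
    tr3 A = -1 := by
  obtain ⟨ν, h, rfl⟩ := exists_hturn h2 hA hd h1
  exact tr3_hturn ν h

lemma tr3_ne_of_invol (h2 : (2 : F) ≠ 0) {A : O3 F} (hA : A * A = 1) (hd : dick h2 A = 1)
    (h1 : A ≠ 1) : tr3 A ≠ 0 := by
  rw [tr3_invol h2 hA hd h1]; exact neg_ne_zero.2 one_ne_zero

lemma dick_eq_or (h2 : (2 : F) ≠ 0) (A : O3 F) : dick h2 A = 1 ∨ dick h2 (neg3 * A) = 1 := by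
  rcases Int.units_eq_one_or (dick h2 A) with h | h
  · exact Or.inl h
  · exact Or.inr (by rw [map_mul, dick_neg3, h]; decide)

/-! ### The space of matrices -/

variable (F) in
/-- The sum of the squares of the entries. -/
noncomputable def Qm : QuadraticForm F (Matrix (Fin 3) (Fin 3) F) :=
  ∑ i, ∑ j, QuadraticMap.linMulLin (Matrix.entryLinearMap F F i j) (Matrix.entryLinearMap F F i j)

lemma Qm_sum (X : Matrix (Fin 3) (Fin 3) F) : Qm F X = ∑ i, ∑ j, X i j * X i j := by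
  simp [Qm]

lemma Qm_trace (X : Matrix (Fin 3) (Fin 3) F) : Qm F X = (Xᵀ * X).trace := by
  rw [Qm_sum, Finset.sum_comm]
  rfl

lemma polar_Qm (X Y : Matrix (Fin 3) (Fin 3) F) :
    polar (Qm F) X Y = 2 * (Xᵀ * Y).trace := by
  simp only [polar, Qm_trace, transpose_add, Matrix.add_mul, Matrix.mul_add, trace_add]
  rw [show (Yᵀ * X).trace = (Xᵀ * Y).trace by
    rw [← trace_transpose, transpose_mul, transpose_transpose]]
  ring

lemma bnondegm (h2 : (2 : F) ≠ 0) : BNondeg (Qm F) := fun X hX => by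
  ext i j
  have := hX (Matrix.single i j 1)
  rw [polar_Qm, mul_eq_zero, or_iff_right h2, Matrix.trace] at this
  simpa [Matrix.mul_apply, Matrix.single_apply, ite_and] using this

instance finiteOQm [Finite F] : Finite (OQ (Qm F)) := by
  haveI : Finite (Matrix (Fin 3) (Fin 3) F) := Pi.finite
  exact Finite.of_injective (fun g : OQ (Qm F) => ⇑g.1) fun _ _ h =>
    Subtype.ext (LinearEquiv.ext (congrFun h))

lemma extm {a b : OQ (Qm F)} (h : ∀ X, a.1 X = b.1 X) : a = b :=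
  Subtype.ext (LinearEquiv.ext h)

lemma mul_applym (a b : OQ (Qm F)) (X : Matrix (Fin 3) (Fin 3) F) :
    (a * b).1 X = a.1 (b.1 X) := rfl

variable [Fact ((2 : F) ≠ 0)]

lemma two0 : (2 : F) ≠ 0 := Fact.out

/-- The tensor product of two isometries. -/
noncomputable def G (A B : O3 F) : OQ (Qm F) :=
  ⟨LinearEquiv.ofLinearMap
      ((LinearMap.mulRight F (mat B)ᵀ).comp (LinearMap.mulLeft F (mat A)))
      ((LinearMap.mulRight F (mat B⁻¹)ᵀ).comp (LinearMap.mulLeft F (mat A⁻¹)))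
      (LinearMap.ext fun X => by
        show mat A * (mat A⁻¹ * X * (mat B⁻¹)ᵀ) * (mat B)ᵀ = X
        rw [← mul_assoc, ← mul_assoc, ← mat_mul, mul_inv_cancel, mat_one, one_mul, mul_assoc,
          ← transpose_mul, ← mat_mul, mul_inv_cancel, mat_one, transpose_one, mul_one])
      (LinearMap.ext fun X => by
        show mat A⁻¹ * (mat A * X * (mat B)ᵀ) * (mat B⁻¹)ᵀ = X
        rw [← mul_assoc, ← mul_assoc, ← mat_mul, inv_mul_cancel, mat_one, one_mul, mul_assoc,
          ← transpose_mul, ← mat_mul, inv_mul_cancel, mat_one, transpose_one, mul_one]),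
    fun X => by
      show Qm F (mat A * X * (mat B)ᵀ) = _
      rw [Qm_trace, Qm_trace, transpose_mul, transpose_mul, transpose_transpose,
        show mat B * (Xᵀ * (mat A)ᵀ) * (mat A * X * (mat B)ᵀ) =
          mat B * (Xᵀ * ((mat A)ᵀ * mat A) * X * (mat B)ᵀ) by simp only [mul_assoc],
        transpose_mul_mat two0, Matrix.trace_mul_comm, mul_one, mul_assoc, transpose_mul_mat two0,
        mul_one]⟩

lemma G_apply (A B : O3 F) (X : Matrix (Fin 3) (Fin 3) F) :
    (G A B).1 X = mat A * X * (mat B)ᵀ := rfl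

lemma G_mul (A B C D : O3 F) : G A B * G C D = G (A * C) (B * D) := extm fun X => by
  rw [mul_applym, G_apply, G_apply, G_apply, mat_mul, mat_mul, transpose_mul]
  simp only [mul_assoc]

lemma G_one : G (1 : O3 F) 1 = 1 := extm fun X => by
  rw [G_apply, mat_one, transpose_one, one_mul, mul_one]; rfl

lemma G_inv (A B : O3 F) : (G A B)⁻¹ = G A⁻¹ B⁻¹ :=
  inv_eq_of_mul_eq_one_right (by rw [G_mul, mul_inv_cancel, mul_inv_cancel, G_one])

lemma G_conj (A B C D : O3 F) :
    G A B * G C D * (G A B)⁻¹ = G (A * C * A⁻¹) (B * D * B⁻¹) := by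
  rw [G_inv, G_mul, G_mul]

lemma G_neg (A B : O3 F) : G (neg3 * A) (neg3 * B) = G A B := extm fun X => by
  simp [G_apply, mat_mul, mat_neg3]

lemma G_vec (A B : O3 F) (u v : Fin 3 → F) :
    (G A B).1 (vecMulVec u v) = vecMulVec (A.1 u) (B.1 v) := by
  rw [G_apply, Matrix.mul_vecMulVec, Matrix.vecMulVec_mul, vecMul_transpose, mat_mulVec,
    mat_mulVec]

lemma G_single (A B : O3 F) (a b i j : Fin 3) :
    (G A B).1 (Matrix.single a b 1) i j = mat A i a * mat B j b := by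
  rw [Matrix.single_eq_single_vecMulVec_single, G_vec, vecMulVec_apply, mat_apply, mat_apply]

lemma G_t_apply (i j : Fin 3) (X : Matrix (Fin 3) (Fin 3) F) (a b : Fin 3) :
    (G (t i) (t j)).1 X a b =
      (if a = i then 1 else -1) * (if b = j then 1 else -1) * X a b := by
  rw [G_apply, mat_t, mat_t, diagonal_transpose, mul_diagonal, diagonal_mul]; ring

lemma G_t_one_apply (i : Fin 3) (X : Matrix (Fin 3) (Fin 3) F) (a b : Fin 3) :
    (G (t i) 1).1 X a b = (if a = i then 1 else -1) * X a b := by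
  rw [G_apply, mat_t, mat_one, transpose_one, mul_one, diagonal_mul]

lemma G_one_t_apply (j : Fin 3) (X : Matrix (Fin 3) (Fin 3) F) (a b : Fin 3) :
    (G 1 (t j)).1 X a b = (if b = j then 1 else -1) * X a b := by
  rw [G_apply, mat_t, mat_one, diagonal_transpose, one_mul, mul_diagonal]; ring

lemma G_eq_one {A B : O3 F} (h : G A B = 1) : (A = 1 ∧ B = 1) ∨ (A = neg3 ∧ B = neg3) := by
  have hent : ∀ a b i j, mat A i a * mat B j b = if i = a ∧ j = b then 1 else 0 := by
    intro a b i j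
    rw [← G_single, h]
    show Matrix.single a b (1 : F) i j = _
    simp [Matrix.single_apply, eq_comm]
  have hd : ∀ a b, mat A a a * mat B b b = 1 := fun a b => by simpa using hent a b a b
  have hA0 : mat A 0 0 ≠ 0 := fun h0 => by simpa [h0] using hd 0 0
  have hB0 : mat B 0 0 ≠ 0 := fun h0 => by simpa [h0] using hd 0 0
  have hA : mat A = mat A 0 0 • (1 : Matrix (Fin 3) (Fin 3) F) := by
    ext i j
    by_cases hij : i = j
    · subst hij
      simp only [Matrix.smul_apply, one_apply_eq, smul_eq_mul, mul_one]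
      exact mul_right_cancel₀ hB0 ((hd i 0).trans (hd 0 0).symm)
    · simp only [Matrix.smul_apply, one_apply_ne hij, smul_zero]
      have := hent j 0 i 0
      rw [if_neg (fun hh => hij hh.1), mul_eq_zero] at this
      exact this.resolve_right hB0
  have hB : mat B = mat B 0 0 • (1 : Matrix (Fin 3) (Fin 3) F) := by
    ext i j
    by_cases hij : i = j
    · subst hij
      simp only [Matrix.smul_apply, one_apply_eq, smul_eq_mul, mul_one]
      exact mul_left_cancel₀ hA0 ((hd 0 i).trans (hd 0 0).symm)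
    · simp only [Matrix.smul_apply, one_apply_ne hij, smul_zero]
      have := hent 0 j 0 i
      rw [if_neg (fun hh => hij hh.2), mul_eq_zero] at this
      exact this.resolve_left hA0
  have hsq : mat A 0 0 * mat A 0 0 = 1 := by
    have := congrFun (congrFun (transpose_mul_mat two0 A) 0) 0
    rw [hA] at this
    simpa using this
  rcases mul_self_eq_one_iff.1 hsq with hs | hs
  · have hs' : mat B 0 0 = 1 := by simpa [hs] using hd 0 0
    exact Or.inl ⟨mat_inj (by rw [hA, hs, one_smul, mat_one]),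
      mat_inj (by rw [hB, hs', one_smul, mat_one])⟩
  · have hs' : mat B 0 0 = -1 := by
      have := hd 0 0
      rw [hs] at this
      linear_combination -this
    exact Or.inr ⟨mat_inj (by rw [hA, hs, neg_one_smul, mat_neg3]),
      mat_inj (by rw [hB, hs', neg_one_smul, mat_neg3])⟩

lemma G_inj {A B C D : O3 F} (h : G A B = G C D) :
    (A = C ∧ B = D) ∨ (A = neg3 * C ∧ B = neg3 * D) := by
  have h1 : G (C⁻¹ * A) (D⁻¹ * B) = 1 := by rw [← G_mul, ← G_inv, h, inv_mul_cancel]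
  rcases G_eq_one h1 with ⟨ha, hb⟩ | ⟨ha, hb⟩
  · exact Or.inl ⟨(inv_mul_eq_one.1 ha).symm, (inv_mul_eq_one.1 hb).symm⟩
  · exact Or.inr ⟨by rw [inv_mul_eq_iff_eq_mul] at ha; rw [ha, neg3_comm],
      by rw [inv_mul_eq_iff_eq_mul] at hb; rw [hb, neg3_comm]⟩

lemma comm_of_commute {A B C D : O3 F} (h : G A B * G C D = G C D * G A B)
    (hne : tr3 C ≠ 0 ∨ tr3 D ≠ 0) : A * C = C * A ∧ B * D = D * B := by
  rw [G_mul, G_mul] at h
  rcases G_inj h with h | ⟨hA, hB⟩
  · exact h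
  exfalso
  have key : ∀ P R : O3 F, P * R = neg3 * (R * P) → tr3 R = 0 := fun P R hPR => by
    have : P * R * P⁻¹ = neg3 * R := by rw [hPR, mul_assoc, mul_assoc, mul_inv_cancel, mul_one]
    have h' := congrArg tr3 this
    rw [tr3_conj, tr3_neg3_mul] at h'
    have h'' : (2 : F) * tr3 R = 0 := by linear_combination h'
    exact (mul_eq_zero.1 h'').resolve_left two0
  exact hne.elim (fun h => h (key _ _ hA)) (fun h => h (key _ _ hB))

/-- The transposition. -/
noncomputable def sw : OQ (Qm F) :=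
  ⟨Matrix.transposeLinearEquiv (Fin 3) (Fin 3) F F, fun X => by
    show Qm F Xᵀ = _
    rw [Qm_trace, Qm_trace, transpose_transpose, trace_mul_comm]⟩

omit [Fact ((2 : F) ≠ 0)] in
lemma sw_apply (X : Matrix (Fin 3) (Fin 3) F) : (sw : OQ (Qm F)).1 X = Xᵀ := rfl

omit [Fact ((2 : F) ≠ 0)] in
lemma sw_sq : (sw : OQ (Qm F)) * sw = 1 := extm fun X => by
  rw [mul_applym, sw_apply, sw_apply, transpose_transpose]; rfl

omit [Fact ((2 : F) ≠ 0)] in
lemma sw_inv : (sw : OQ (Qm F))⁻¹ = sw := inv_eq_of_mul_eq_one_right sw_sq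

lemma sw_G (A B : O3 F) : sw * G A B = G B A * sw := extm fun X => by
  rw [mul_applym, mul_applym, sw_apply, G_apply, G_apply, sw_apply, transpose_mul, transpose_mul,
    transpose_transpose, mul_assoc]

lemma Gsw_mul_G (A B C D : O3 F) : G A B * sw * G C D = G (A * D) (B * C) * sw := by
  rw [mul_assoc, sw_G, ← mul_assoc, G_mul]

lemma Gsw_mul_Gsw (A B C D : O3 F) : G A B * sw * (G C D * sw) = G (A * D) (B * C) := by
  rw [← mul_assoc, Gsw_mul_G, mul_assoc, sw_sq, mul_one]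

lemma Gsw_inv (A B : O3 F) : (G A B * sw)⁻¹ = G B⁻¹ A⁻¹ * sw :=
  inv_eq_of_mul_eq_one_right (by rw [Gsw_mul_Gsw, mul_inv_cancel, mul_inv_cancel, G_one])

/-- The stabiliser of the tensor decomposition. -/
noncomputable def Nt : Subgroup (OQ (Qm F)) where
  carrier := {g | ∃ A B : O3 F, g = G A B ∨ g = G A B * sw}
  one_mem' := ⟨1, 1, Or.inl G_one.symm⟩
  mul_mem' := by
    rintro _ _ ⟨A, B, rfl | rfl⟩ ⟨C, D, rfl | rfl⟩
    · exact ⟨A * C, B * D, Or.inl (G_mul _ _ _ _)⟩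
    · exact ⟨A * C, B * D, Or.inr (by rw [← mul_assoc, G_mul])⟩
    · exact ⟨A * D, B * C, Or.inr (Gsw_mul_G _ _ _ _)⟩
    · exact ⟨A * D, B * C, Or.inl (Gsw_mul_Gsw _ _ _ _)⟩
  inv_mem' := by
    rintro _ ⟨A, B, rfl | rfl⟩
    · exact ⟨A⁻¹, B⁻¹, Or.inl (G_inv _ _)⟩
    · exact ⟨B⁻¹, A⁻¹, Or.inr (Gsw_inv _ _)⟩

lemma mem_Nt {g : OQ (Qm F)} : g ∈ Nt ↔ ∃ A B : O3 F, g = G A B ∨ g = G A B * sw := Iff.rfl

lemma G_mem_Nt (A B : O3 F) : G A B ∈ (Nt : Subgroup (OQ (Qm F))) := ⟨A, B, Or.inl rfl⟩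

/-! ### Traces -/

/-- The trace on the space of matrices. -/
noncomputable def trM (g : OQ (Qm F)) : F :=
  LinearMap.trace F (Matrix (Fin 3) (Fin 3) F) g.1.toLinearMap

omit [Fact ((2 : F) ≠ 0)] in
lemma trM_eq (g : OQ (Qm F)) : trM g = ∑ a, ∑ b, g.1 (Matrix.single a b 1) a b := by
  rw [trM, LinearMap.trace_eq_matrix_trace F (Matrix.stdBasis F (Fin 3) (Fin 3)), Matrix.trace,
    Fintype.sum_prod_type]
  refine Finset.sum_congr rfl fun a _ => Finset.sum_congr rfl fun b _ => ?_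
  rw [diag_apply, LinearMap.toMatrix_apply, Matrix.stdBasis_eq_single]
  rfl

omit [Fact ((2 : F) ≠ 0)] in
lemma trM_conj (g h : OQ (Qm F)) : trM (g * h * g⁻¹) = trM h := by
  show LinearMap.trace F _ ((g.1.toLinearMap * h.1.toLinearMap) * g.1.symm.toLinearMap) = _
  rw [LinearMap.trace_mul_comm, ← mul_assoc]
  congr 1
  ext X : 1
  exact g.1.symm_apply_apply _

lemma trM_G (A B : O3 F) : trM (G A B) = tr3 A * tr3 B := by
  rw [trM_eq, tr3, tr3, Matrix.trace, Matrix.trace, Finset.sum_mul_sum]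
  exact Finset.sum_congr rfl fun a _ => Finset.sum_congr rfl fun b _ => G_single A B a b a b

lemma trM_G_sw (A B : O3 F) : trM (G A B * sw) = tr3 (A * B) := by
  rw [trM_eq, tr3, mat_mul, Matrix.trace]
  simp only [diag_apply, Matrix.mul_apply]
  refine Finset.sum_congr rfl fun a _ => Finset.sum_congr rfl fun b _ => ?_
  rw [mul_applym, sw_apply, Matrix.transpose_single, G_single]

/-! ### Overgroups -/

/-- The hypotheses on an overgroup of the tensor group. -/
structure Hyp (M : Subgroup (OQ (Qm F))) : Prop where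
  tens : ∀ A B : O3 F, G A B ∈ M ↔ A * B⁻¹ ∈ U3 F
  swap : ∃ κ : O3 F, G κ 1 * sw ∈ M
  bad : ¬ commutator (OQ (Qm F)) ≤ M

omit [Fact ((2 : F) ≠ 0)] in
lemma mem_U3_iff {x : O3 F} : x ∈ U3 F ↔ Abelianization.of x = 1 := by
  rw [← MonoidHom.mem_ker, Abelianization.ker_of]

omit [Fact ((2 : F) ≠ 0)] in
lemma conj_mem_U3 {R x : O3 F} : R * x * R⁻¹ ∈ U3 F ↔ x ∈ U3 F := by
  rw [mem_U3_iff, mem_U3_iff, map_mul, map_mul, map_inv, mul_right_comm, mul_inv_cancel, one_mul]

namespace Hyp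

variable [Finite F] {M : Subgroup (OQ (Qm F))} (hM : Hyp M)
include hM

lemma left_mem {U : O3 F} (h : U ∈ U3 F) : G U 1 ∈ M :=
  (hM.tens _ _).2 (by rwa [inv_one, mul_one])

lemma right_mem {U : O3 F} (h : U ∈ U3 F) : G 1 U ∈ M :=
  (hM.tens _ _).2 (by rw [one_mul]; exact inv_mem h)

lemma diag_mem (A : O3 F) : G A A ∈ M :=
  (hM.tens _ _).2 (by rw [mul_inv_cancel]; exact one_mem _)

lemma pure_left {U : O3 F} (h : G U 1 ∈ M) : U ∈ U3 F := by
  have := (hM.tens _ _).1 h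
  rwa [inv_one, mul_one] at this

lemma pure_right {U : O3 F} (h : G 1 U ∈ M) : U ∈ U3 F := by
  have := (hM.tens _ _).1 h
  rwa [one_mul, inv_mem_iff] at this

lemma s_mem : G (t 0) 1 ∈ M := hM.left_mem (t_mem two0 0)

/-- The hypotheses are invariant under tensor conjugation. -/
lemma conj (R S : O3 F) : Hyp (M.comap (MulAut.conj (G R S)).toMonoidHom) where
  tens A B := by
    rw [Subgroup.mem_comap, MulEquiv.coe_toMonoidHom, MulAut.conj_apply, G_conj, hM.tens,
      mem_U3_iff, mem_U3_iff]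
    simp only [map_mul, map_inv, mul_right_comm _ _ (Abelianization.of R)⁻¹,
      mul_inv_cancel, one_mul, _root_.mul_inv_rev, inv_inv]
    rw [mul_left_comm (Abelianization.of S), mul_inv_cancel, mul_one]
  swap := by
    obtain ⟨κ, hκ⟩ := hM.swap
    refine ⟨R⁻¹ * S * R⁻¹ * κ * S, ?_⟩
    rw [Subgroup.mem_comap, MulEquiv.coe_toMonoidHom, MulAut.conj_apply, G_inv, ← mul_assoc,
      G_mul, Gsw_mul_G]
    convert mul_mem (hM.diag_mem (S * R⁻¹)) hκ using 1
    rw [← mul_assoc (G _ _) (G κ 1), G_mul]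
    congr 2 <;> simp [mul_assoc]
  bad h := hM.bad fun x hx => by
    have := h (Subgroup.Normal.conj_mem inferInstance x hx (G R S)⁻¹)
    rw [Subgroup.mem_comap, MulEquiv.coe_toMonoidHom, MulAut.conj_apply] at this
    simpa [mul_assoc] using this

lemma normal_form {A B : O3 F} (h : G A B ∈ M) :
    ∃ A' B' : O3 F, G A B = G A' B' ∧ dick two0 A' = 1 ∧ dick two0 B' = 1 := by
  have key : ∀ P R : O3 F, G P R ∈ M → dick two0 P = 1 → dick two0 R = 1 := fun P R hPR hP => by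
    have := dick_of_mem two0 ((hM.tens _ _).1 hPR)
    rwa [map_mul, map_inv, hP, one_mul, inv_eq_one] at this
  rcases dick_eq_or two0 A with hA | hA
  · exact ⟨A, B, rfl, hA, key A B h hA⟩
  · exact ⟨neg3 * A, neg3 * B, (G_neg A B).symm, hA, key _ _ (by rwa [G_neg]) hA⟩

lemma invol_form {A B : O3 F} (h : G A B ∈ M) (hsq : G A B * G A B = 1) :
    ∃ A' B' : O3 F, G A B = G A' B' ∧ dick two0 A' = 1 ∧ dick two0 B' = 1 ∧
      A' * A' = 1 ∧ B' * B' = 1 := by
  obtain ⟨A', B', he, hA, hB⟩ := hM.normal_form h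
  rw [he, G_mul] at hsq
  rcases G_eq_one hsq with ⟨ha, hb⟩ | ⟨ha, -⟩
  · exact ⟨A', B', he, hA, hB, ha, hb⟩
  · have := congrArg (dick (two0 (F := F))) ha
    rw [map_mul, hA, one_mul, dick_neg3] at this
    exact absurd this (by decide)

end Hyp

/-- Two involutions generate a dihedral group. -/
lemma dihedral {Γ : Type*} [Group Γ] [Finite Γ] {y x : Γ} (hy : y * y = 1) (hx : x * x = 1) :
    (∃ k : ℕ, (y * x) ^ k * y * ((y * x) ^ k)⁻¹ = x) ∨
    ∃ n : ℕ, (y * x) ^ n ≠ 1 ∧ (y * x) ^ n * (y * x) ^ n = 1 ∧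
      (y * x) ^ n * x = x * (y * x) ^ n ∧ (y * x) ^ n * y = y * (y * x) ^ n ∧
      ∃ k : ℕ, (y * x) ^ k * x * ((y * x) ^ k)⁻¹ = (y * x) ^ n * x ∨
        (y * x) ^ k * y * ((y * x) ^ k)⁻¹ = (y * x) ^ n * x := by
  set r := y * x with hr
  have hyi : y⁻¹ = y := inv_eq_of_mul_eq_one_right hy
  have hxi : x⁻¹ = x := inv_eq_of_mul_eq_one_right hx
  have hxr : x * r = r⁻¹ * x := by rw [hr, _root_.mul_inv_rev, hyi, hxi, mul_assoc]
  have hyr : y * r = r⁻¹ * y := by
    rw [hr, _root_.mul_inv_rev, hyi, hxi, ← mul_assoc, hy, one_mul, mul_assoc, hy, mul_one]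
  have hcx : ∀ k : ℕ, x * r ^ k = (r ^ k)⁻¹ * x := fun k => by
    rw [← inv_pow]; exact ((SemiconjBy.pow_right hxr k)).eq
  have hcy : ∀ k : ℕ, y * r ^ k = (r ^ k)⁻¹ * y := fun k => by
    rw [← inv_pow]; exact ((SemiconjBy.pow_right hyr k)).eq
  have hconj : ∀ z : Γ, (∀ k : ℕ, z * r ^ k = (r ^ k)⁻¹ * z) → ∀ k : ℕ,
      r ^ k * z * (r ^ k)⁻¹ = r ^ (k + k) * z := by
    intro z hz k
    rw [pow_add, mul_assoc (r ^ k) (r ^ k), ← inv_inv (r ^ k), ← inv_inv (r ^ k)]
    simp only [inv_inv]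
    rw [mul_assoc]
    congr 1
    rw [mul_inv_eq_iff_eq_mul, mul_assoc, hz, mul_inv_cancel_left]
  have hm := pow_orderOf_eq_one r
  have hpos := orderOf_pos r
  rcases Nat.even_or_odd' (orderOf r) with ⟨l, hl | hl⟩
  · right
    have hlm : r ^ l * r ^ l = 1 := by rw [← pow_add, ← two_mul, ← hl, hm]
    have hinv : (r ^ l)⁻¹ = r ^ l := inv_eq_of_mul_eq_one_right hlm
    refine ⟨l, fun h => ?_, hlm, by rw [hcx, hinv], by rw [hcy, hinv], ?_⟩
    · have := Nat.le_of_dvd (by omega) (orderOf_dvd_of_pow_eq_one h)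
      omega
    rcases Nat.even_or_odd' l with ⟨j, hj | hj⟩
    · exact ⟨j, Or.inl (by rw [hconj x hcx, hj, two_mul])⟩
    · refine ⟨j, Or.inr ?_⟩
      rw [hconj y hcy, hj, pow_succ, two_mul, mul_assoc]
      congr 1
      rw [hr, mul_assoc, hx, mul_one]
  · left
    refine ⟨l, ?_⟩
    rw [hl, two_mul, pow_succ] at hm
    rw [hconj y hcy, eq_inv_of_mul_eq_one_left hm, hr, _root_.mul_inv_rev, hyi, hxi, mul_assoc, hy, mul_one]

end Cfsg.Agent.MaxSub.TensorSquareThree
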