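import Cfsg.Agent.MaxSub.TensorSquareThree.Model
import Cfsg.Agent.MaxSub.OrthOverfield.Main
import Cfsg.Agent.GeoClasses.OrthNondeg

/-!
An overgroup of the tensor group with an element acting on one column only contains `Ω`.
-/

set_option autoImplicit false
set_option linter.unusedSectionVars false
set_option linter.style.haveILetI false

namespace Cfsg.Agent.MaxSub.TensorSquareThree

open QuadraticMap Module Cfsg.Agent.Classical Matrix
open Cfsg.Agent.MaxSub.OrthOverfield (rootSpace map_rootSpace)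

universe u

variable {F : Type u} [Field F] [Fintype F] [Fact ((2 : F) ≠ 0)]
  {M : Subgroup (OQ (Qm F))}

/-- The whole commutator subgroup acts on the last column alone. -/
def ColFull (M : Subgroup (OQ (Qm F))) : Prop :=
  ∀ U ∈ U3 F, ∃ g ∈ M, ∀ X, g.1 X = X + (mat U - 1) * X * vecMulVec (e 2) (e 2)

/-- The elements adding `z zᵀ X K`. -/
def Sk (M : Subgroup (OQ (Qm F))) (z : Fin 3 → F) (K : Matrix (Fin 3) (Fin 3) F) : Prop :=
  ∃ g ∈ M, ∀ X, g.1 X = X + vecMulVec z z * X * K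

lemma vmv_mul (a b c d : Fin 3 → F) :
    vecMulVec a b * vecMulVec c d = (b ⬝ᵥ c) • vecMulVec a d := by
  rw [vecMulVec_mul_vecMulVec]; ext i j; simp [vecMulVec_apply]; ring

lemma vmv_mul_mul (u v u' v' : Fin 3 → F) (X : Matrix (Fin 3) (Fin 3) F) :
    vecMulVec u v * X * vecMulVec u' v' = (v ⬝ᵥ X *ᵥ u') • vecMulVec u v' := by
  rw [vecMulVec_mul, vmv_mul, dotProduct_mulVec]

lemma trace_vmv_mul (u v : Fin 3 → F) (X : Matrix (Fin 3) (Fin 3) F) :
    ((vecMulVec u v)ᵀ * X).trace = u ⬝ᵥ X *ᵥ v := by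
  rw [transpose_vecMulVec, vecMulVec_mul, trace_vecMulVec, dotProduct_mulVec, dotProduct_comm]

lemma polar_vmv (u v : Fin 3 → F) (X : Matrix (Fin 3) (Fin 3) F) :
    polar (Qm F) (vecMulVec u v) X = 2 * (u ⬝ᵥ X *ᵥ v) := by
  rw [polar_Qm, trace_vmv_mul]

lemma polar_vmv_vmv (u v u' v' : Fin 3 → F) :
    polar (Qm F) (vecMulVec u v) (vecMulVec u' v') = 2 * ((u ⬝ᵥ u') * (v ⬝ᵥ v')) := by
  rw [polar_vmv, vecMulVec_mulVec]
  simp only [op_smul_eq_smul, dotProduct_smul, smul_eq_mul]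
  rw [dotProduct_comm v' v]
  ring

lemma Qm_vmv (u v : Fin 3 → F) : Qm F (vecMulVec u v) = (u ⬝ᵥ u) * (v ⬝ᵥ v) := by
  refine mul_left_cancel₀ (two0 (F := F)) ?_
  rw [← OrthGen.polar_self_two, polar_vmv_vmv]

namespace Hyp

variable (hM : Hyp M)
include hM

lemma sk_add {z : Fin 3 → F} (hz : z ⬝ᵥ z = 0) {K L : Matrix (Fin 3) (Fin 3) F}
    (hK : Sk M z K) (hL : Sk M z L) : Sk M z (K + L) := by
  obtain ⟨g, hg, hgX⟩ := hK
  obtain ⟨g', hg', hgX'⟩ := hL
  refine ⟨g * g', mul_mem hg hg', fun X => ?_⟩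
  have hZ : vecMulVec z z * (vecMulVec z z * X * L) = 0 := by
    rw [← mul_assoc, ← mul_assoc, vmv_mul, hz, zero_smul, Matrix.zero_mul, Matrix.zero_mul]
  rw [mul_applym, hgX, hgX', Matrix.mul_add, Matrix.add_mul, hZ, Matrix.zero_mul, add_zero,
    Matrix.mul_add]
  abel

lemma sk_conj {z : Fin 3 → F} {K : Matrix (Fin 3) (Fin 3) F} (hK : Sk M z K) {A B : O3 F}
    (hAB : G A B ∈ M) : Sk M (A.1 z) (mat B * K * (mat B)ᵀ) := by
  obtain ⟨g, hg, hgX⟩ := hK
  refine ⟨G A B * g * (G A B)⁻¹, mul_mem (mul_mem hAB hg) (inv_mem hAB), fun X => ?_⟩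
  have hZ : vecMulVec (A.1 z) (A.1 z) = mat A * vecMulVec z z * (mat A)ᵀ := by
    rw [Matrix.mul_vecMulVec, Matrix.vecMulVec_mul, vecMul_transpose, mat_mulVec]
  have hBB : mat B * (mat B)ᵀ = 1 := by rw [← mat_inv two0, ← mat_mul, mul_inv_cancel, mat_one]
  have hAA : mat A * (mat A)ᵀ = 1 := by rw [← mat_inv two0, ← mat_mul, mul_inv_cancel, mat_one]
  rw [mul_applym, mul_applym, G_inv, G_apply A⁻¹, hgX, G_apply, mat_inv two0, mat_inv two0,
    transpose_transpose, hZ]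
  simp only [Matrix.mul_add, Matrix.add_mul, ← mul_assoc, hAA, one_mul]
  rw [mul_assoc X, hBB, mul_one]

/-- Commutators of two elements on single columns. -/
lemma sk_seed (hC : ColFull M) {z f h : Fin 3 → F} (hF : Frame3 z f h) {b : Fin 3 → F}
    {S : O3 F} (hS : S ∈ U3 F) (hb : b = S.1 (e 2)) (c : F) :
    Sk M z ((c * ((e 2) ⬝ᵥ b)) • (vecMulVec b (e 2) - vecMulVec (e 2) b)) := by
  obtain ⟨N1, hN1⟩ : ∃ N : Matrix (Fin 3) (Fin 3) F,
      N = (2 : F) • (vecMulVec h z - vecMulVec z h) := ⟨_, rfl⟩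
  obtain ⟨Z, hZ⟩ : ∃ Z : Matrix (Fin 3) (Fin 3) F, Z = vecMulVec z z := ⟨_, rfl⟩
  have hhz : h ⬝ᵥ z = 0 := by rw [dotProduct_comm]; exact hF.zh
  have hZZ : Z * Z = 0 := by rw [hZ, vmv_mul, hF.zz, zero_smul]
  have hNZ : N1 * Z = 0 := by
    rw [hN1, hZ, Matrix.smul_mul, Matrix.sub_mul, vmv_mul, vmv_mul, hF.zz, hhz]; simp
  have hZN : Z * N1 = 0 := by
    rw [hN1, hZ, Matrix.mul_smul, Matrix.mul_sub, vmv_mul, vmv_mul, hF.zz, hF.zh]; simp
  have hNN : N1 * N1 = (4 : F) • Z := by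
    simp only [hN1, hZ, Matrix.smul_mul, Matrix.mul_smul, Matrix.sub_mul, Matrix.mul_sub, vmv_mul,
      hF.zz, hF.zh, hhz, hF.hh, smul_smul, zero_smul, sub_zero, zero_sub, neg_smul, one_smul]
    module
  -- the root elements
  have hU : ∀ s : F, ∃ U ∈ U3 F, mat U - 1 = s • N1 + (2 * s * s) • Z := by
    intro s
    have hz : Q3 F z = 0 := by rw [Q3_dot]; exact hF.zz
    have hp : ∀ r : F, polar (Q3 F) z (r • h) = 0 := fun r => by
      rw [polar_Q3_dot, dotProduct_smul, hF.zh, smul_zero, mul_zero]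
    refine ⟨siegel (Q3 F) hz (hp s), ?_, ?_⟩
    · have hhalf : s • h = (2⁻¹ * s) • h + (2⁻¹ * s) • h := by
        rw [← add_smul, ← two_mul, ← mul_assoc, mul_inv_cancel₀ two0, one_mul]
      rw [siegel_congr (Q3 F) hz (hp s) hz (by rw [← hhalf]; exact hp s) rfl hhalf,
        ← siegel_mul (Q3 F) hz (hp _) (hp _)]
      exact Forms.mul_self_mem_commutator (bnondeg3 two0) (notExc3 two0) _
    · refine Matrix.ext_iff_mulVec.2 fun v => ?_
      rw [sub_mulVec, mat_mulVec, one_mulVec, siegel_apply, add_mulVec, smul_mulVec, smul_mulVec,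
        hN1, hZ, smul_mulVec, sub_mulVec, vecMulVec_mulVec, vecMulVec_mulVec, vecMulVec_mulVec,
        polar_Q3_dot, polar_Q3_dot, QuadraticMap.map_smul, Q3_dot, hF.hh, smul_dotProduct]
      simp only [op_smul_eq_smul, smul_eq_mul, smul_smul]
      module
  have hNmul : ∀ s r : F, (s • N1 + (2 * s * s) • Z) * (r • N1 + (2 * r * r) • Z) =
      (4 * (s * r)) • Z := by
    intro s r
    simp only [Matrix.add_mul, Matrix.mul_add, Matrix.smul_mul, Matrix.mul_smul, hNN, hNZ, hZN, hZZ,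
      smul_zero, add_zero, smul_smul]
    congr 1; ring
  have hZmul : ∀ s : F, Z * (s • N1 + (2 * s * s) • Z) = 0 := fun s => by
    rw [Matrix.mul_add, Matrix.mul_smul, Matrix.mul_smul, hZN, hZZ]; simp
  obtain ⟨U, hU1, hU2⟩ := hU 1
  obtain ⟨W, hW1, hW2⟩ := hU (c * (4 : F)⁻¹)
  set N := (1 : F) • N1 + (2 * 1 * 1 : F) • Z with hN
  set N' := (c * (4 : F)⁻¹) • N1 + (2 * (c * (4 : F)⁻¹) * (c * (4 : F)⁻¹)) • Z with hN'
  set P : Matrix (Fin 3) (Fin 3) F := vecMulVec (e 2) (e 2) with hP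
  set P' : Matrix (Fin 3) (Fin 3) F := vecMulVec b b with hP'
  obtain ⟨g, hgM, hg⟩ := hC U hU1
  obtain ⟨g₀, hg₀M, hg₀⟩ := hC W hW1
  rw [hU2, ← hP] at hg
  rw [hW2] at hg₀
  obtain ⟨k, hk⟩ : ∃ k : OQ (Qm F), k = G 1 S * g₀ * (G 1 S)⁻¹ := ⟨_, rfl⟩
  have hkM : k ∈ M := hk ▸ mul_mem (mul_mem (hM.right_mem hS) hg₀M) (inv_mem (hM.right_mem hS))
  have hSS : mat S * (mat S)ᵀ = 1 := by rw [← mat_inv two0, ← mat_mul, mul_inv_cancel, mat_one]
  have hkX : ∀ X, k.1 X = X + N' * X * P' := by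
    intro X
    rw [hk, mul_applym, mul_applym, G_inv, inv_one, G_apply 1 S⁻¹, hg₀, G_apply, mat_one, one_mul,
      mat_inv two0, transpose_transpose, one_mul, Matrix.add_mul, mul_assoc X, hSS, mul_one, hP', hb,
      ← mat_mulVec, ← Matrix.mul_vecMulVec]
    congr 1
    simp only [mul_assoc]
    rw [Matrix.vecMulVec_mul, vecMul_transpose]
  have h4 : (4 : F) ≠ 0 := by
    rw [show (4 : F) = 2 * 2 by norm_num]; exact mul_ne_zero two0 two0
  refine ⟨g * k * g⁻¹ * k⁻¹, mul_mem (mul_mem (mul_mem hgM hkM) (inv_mem hgM)) (inv_mem hkM),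
    fun Y => ?_⟩
  obtain ⟨X, rfl⟩ : ∃ X, (k * g).1 X = Y := ⟨_, (k * g).1.apply_symm_apply Y⟩
  rw [show (g * k * g⁻¹ * k⁻¹).1 ((k * g).1 X) = (g * k).1 X by
      rw [← mul_applym]; simp [mul_assoc],
    mul_applym, mul_applym, hkX, hg, hg, hkX]
  have hcomm : ∀ (T : Matrix (Fin 3) (Fin 3) F), Z * (N * T) = 0 ∧ Z * (N' * T) = 0 := fun T => by
    rw [← mul_assoc, ← mul_assoc, hN, hN', hZmul, hZmul, Matrix.zero_mul]; exact ⟨rfl, rfl⟩
  have e1 : N * N' = c • Z := by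
    rw [hN, hN', hNmul]; congr 1; field_simp
  have e2 : N' * N = c • Z := by
    rw [hN, hN', hNmul]; congr 1; field_simp
  have p1 : P' * P = ((e 2) ⬝ᵥ b) • vecMulVec b (e 2) := by
    rw [hP, hP', vmv_mul, dotProduct_comm]
  have p2 : P * P' = ((e 2) ⬝ᵥ b) • vecMulVec (e 2) b := by rw [hP, hP', vmv_mul]
  have hT : Z * (X + N * X * P + N' * (X + N * X * P) * P') = Z * X := by
    simp only [Matrix.mul_add, Matrix.add_mul, mul_assoc, (hcomm _).1, (hcomm _).2, add_zero]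
  rw [← hZ, hT]
  have q1 : N * (N' * X * P') * P = c • (((e 2) ⬝ᵥ b) • (Z * X * vecMulVec b (e 2))) := by
    rw [show N * (N' * X * P') * P = N * N' * X * (P' * P) by simp only [mul_assoc], e1, p1,
      Matrix.smul_mul, Matrix.smul_mul, Matrix.mul_smul]
  have q2 : N' * (N * X * P) * P' = c • (((e 2) ⬝ᵥ b) • (Z * X * vecMulVec (e 2) b)) := by
    rw [show N' * (N * X * P) * P' = N' * N * X * (P * P') by simp only [mul_assoc], e2, p2,
      Matrix.smul_mul, Matrix.smul_mul, Matrix.mul_smul]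
  simp only [Matrix.mul_add, Matrix.add_mul, q1, q2, Matrix.mul_smul, Matrix.mul_sub]
  module

/-- All elements at one singular vector. -/
lemma sk_all_frame (hC : ColFull M) (hq : 5 ≤ Nat.card F) {z f h : Fin 3 → F}
    (hF : Frame3 z f h) {K : Matrix (Fin 3) (Fin 3) F} (hK : Kᵀ = -K) : Sk M z K := by
  classical
  obtain ⟨w, hw0, hw1⟩ : ∃ w : F, w ≠ 0 ∧ w * w ≠ 1 := by
    by_contra hcon
    push Not at hcon
    have hs : Function.Surjective (fun i : Fin 3 => (![0, 1, -1] i : F)) := by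
      intro c
      rcases eq_or_ne c 0 with rfl | hc
      · exact ⟨0, rfl⟩
      · rcases mul_self_eq_one_iff.1 (hcon c hc) with rfl | rfl
        · exact ⟨1, rfl⟩
        · exact ⟨2, rfl⟩
    have := Nat.card_le_card_of_surjective _ hs
    rw [Nat.card_fin] at this
    omega
  obtain ⟨x, y, hxy⟩ := OrthExt.exists_two_squares two0 one_ne_zero one_ne_zero (1 - w * w)
  obtain ⟨b, hbQ, hb2, hb01⟩ : ∃ b : Fin 3 → F, Q3 F b = 1 ∧ b 2 ≠ 0 ∧ (b 0 ≠ 0 ∨ b 1 ≠ 0) :=
    ⟨![x, y, w], by simp [Q3_apply]; linear_combination hxy, by simpa using hw0, by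
      by_contra hcon
      push Not at hcon
      simp at hcon
      rw [hcon.1, hcon.2] at hxy
      exact hw1 (by linear_combination hxy)⟩
  obtain ⟨R, hR, hRe⟩ := OrthGen.exists_refl_pm (Q := Q3 F) two0 (a := e 2) (b := b)
    (by rw [Q3_e, hbQ]) (Q3_e_ne 2)
  obtain ⟨k, hk, hkR⟩ := exists_stab_mul_mem two0 2 (reflQ (Q3 F) R hR)⁻¹
  set S : O3 F := reflQ (Q3 F) R hR * k⁻¹
  have hS : S ∈ U3 F := by
    have := inv_mem hkR
    rwa [_root_.mul_inv_rev, inv_inv] at this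
  have hSe : S.1 (e 2) = (reflQ (Q3 F) R hR).1 (e 2) := by
    rw [mul_apply3]; congr 1
    exact (LinearEquiv.symm_apply_eq _).2 hk.symm
  obtain ⟨b', hb', hb'2, hb'01⟩ : ∃ b' : Fin 3 → F, b' = S.1 (e 2) ∧ b' 2 ≠ 0 ∧
      (b' 0 ≠ 0 ∨ b' 1 ≠ 0) := by
    rcases hRe with h | h
    · exact ⟨b, by rw [hSe, h], hb2, hb01⟩
    · exact ⟨-b, by rw [hSe, h], by simpa using hb2, by simpa using hb01⟩
  set K0 : Matrix (Fin 3) (Fin 3) F := vecMulVec b' (e 2) - vecMulVec (e 2) b' with hK0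
  let E : Fin 3 → Matrix (Fin 3) (Fin 3) F := fun i =>
    vecMulVec (e (i + 1)) (e (i + 2)) - vecMulVec (e (i + 2)) (e (i + 1))
  have hsc : ∀ c : F, Sk M z (c • K0) := by
    intro c
    have hne : (e 2 : Fin 3 → F) ⬝ᵥ b' ≠ 0 := by rw [single_dotProduct, one_mul]; exact hb'2
    have := hM.sk_seed hC hF hS hb' (c / ((e 2) ⬝ᵥ b'))
    rwa [div_mul_cancel₀ _ hne] at this
  have hE : ∃ i, ∀ c : F, Sk M z (c • E i) := by
    have key : ∀ i, K0 (i + 1) (i + 2) ≠ 0 → ∀ c : F, Sk M z (c • E i) := by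
      intro i hi c
      set c' := c / (2 * K0 (i + 1) (i + 2)) with hc'
      have h1 := hM.sk_add hF.zz (hsc c')
        (hM.sk_conj (hsc c') (A := 1) (B := t i) (hM.right_mem (t_mem two0 i)))
      have hne : 2 * K0 (i + 1) (i + 2) ≠ 0 := mul_ne_zero two0 hi
      have hcc : c = c' * (2 * K0 (i + 1) (i + 2)) := (div_mul_cancel₀ _ hne).symm
      convert h1 using 1
      rw [mat_t, diagonal_transpose, hcc]
      ext a a'
      simp only [E, hK0, Matrix.add_apply, Matrix.smul_apply, Matrix.sub_apply, vecMulVec_apply,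
        mul_diagonal, diagonal_mul, smul_eq_mul]
      fin_cases i <;> fin_cases a <;> fin_cases a' <;> simp [e] <;> ring
    rcases hb'01 with h | h
    · exact ⟨1, key 1 (by simpa [hK0, e, vecMulVec_apply] using h)⟩
    · exact ⟨0, key 0 (by simpa [hK0, e, vecMulVec_apply] using h)⟩
  have hcy : ∀ i, (∀ c : F, Sk M z (c • E i)) → ∀ c : F, Sk M z (c • E (i + 1)) := by
    intro i hi c
    have := hM.sk_conj (hi c) (A := 1) (B := cyc) (hM.right_mem (cyc_mem two0))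
    rw [show (1 : O3 F).1 z = z from rfl] at this
    convert this using 1
    simp only [E, Matrix.mul_smul, Matrix.smul_mul, Matrix.mul_sub, Matrix.sub_mul,
      Matrix.mul_vecMulVec, Matrix.vecMulVec_mul, vecMul_transpose, mat_mulVec, cyc_e,
      add_right_comm i 1]
  obtain ⟨i, hi⟩ := hE
  have hall : ∀ j, ∀ c : F, Sk M z (c • E j) := by
    intro j
    have h1 := hcy _ hi
    have h2 := hcy _ h1
    have key3 : ∀ i j : Fin 3, j = i ∨ j = i + 1 ∨ j = i + 1 + 1 := by decide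
    have := key3 i j
    rcases this with rfl | rfl | rfl
    exacts [hi, h1, h2]
  have hd : ∀ a, K a a = 0 := fun a => by
    have := congrFun (congrFun hK a) a
    rw [transpose_apply, Matrix.neg_apply, eq_neg_iff_add_eq_zero, ← two_mul, mul_eq_zero] at this
    exact this.resolve_left two0
  have hsum : K = K 1 2 • E 0 + K 2 0 • E 1 + K 0 1 • E 2 := by
    have hs : ∀ a b, K b a = -K a b := fun a b => congrFun (congrFun hK a) b
    ext a a'
    fin_cases a <;> fin_cases a' <;> simp [E, vecMulVec_apply, e, hd] <;> exact hs _ _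
  rw [hsum]
  exact hM.sk_add hF.zz (hM.sk_add hF.zz (hall 0 _) (hall 1 _)) (hall 2 _)

/-- All elements at every singular vector. -/
lemma sk_all (hC : ColFull M) (hq : 5 ≤ Nat.card F) {z' : Fin 3 → F} (hz' : z' ≠ 0)
    (hzz' : z' ⬝ᵥ z' = 0) {K : Matrix (Fin 3) (Fin 3) F} (hK : Kᵀ = -K) : Sk M z' K := by
  obtain ⟨z, f, h, hF⟩ := exists_frame3 (F := F) two0
  have hz0 : z ≠ 0 := fun h0 => one_ne_zero (α := F) (by rw [← hF.zf, h0, zero_dotProduct])
  obtain ⟨A, hA⟩ := OQ_transitive_singular (bnondeg3 two0).qNondeg hz0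
    (by rw [Q3_dot]; exact hF.zz) hz' (by rw [Q3_dot]; exact hzz')
  have hAA : (mat A)ᵀ * mat A = 1 := transpose_mul_mat two0 A
  have hAA' : mat A * (mat A)ᵀ = 1 := mul_eq_one_comm.1 hAA
  have := hM.sk_conj (hM.sk_all_frame hC hq hF (K := (mat A)ᵀ * K * mat A) (by
    simp [transpose_mul, hK, mul_assoc])) (hM.diag_mem A)
  rw [hA] at this
  convert this using 1
  simp only [← mul_assoc, hAA', one_mul]
  rw [mul_assoc, hAA', mul_one]

/-- Siegel transformations in `z ⊗ W`. -/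
lemma siegel_left_mem (hC : ColFull M) (hq : 5 ≤ Nat.card F) {z : Fin 3 → F} (hz0 : z ≠ 0)
    (hz : z ⬝ᵥ z = 0) {α β : Fin 3 → F} (hu : Qm F (vecMulVec z α) = 0)
    {a : Matrix (Fin 3) (Fin 3) F} (ha : polar (Qm F) (vecMulVec z α) a = 0)
    (hab : a = vecMulVec z β) : siegel (Qm F) hu ha ∈ M := by
  obtain ⟨g, hg, hgX⟩ := hM.sk_all hC hq hz0 hz
    (K := (2 : F) • (vecMulVec α β - vecMulVec β α)) (by simp [transpose_vecMulVec]; module)
  convert hg using 1
  refine extm fun X => ?_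
  subst hab
  rw [hgX, siegel_apply, polar_vmv, polar_vmv, Qm_vmv, hz, Matrix.mul_smul, Matrix.mul_sub,
    vmv_mul_mul, vmv_mul_mul]
  module

/-- Siegel transformations in `W ⊗ z`. -/
lemma siegel_right_mem (hC : ColFull M) (hq : 5 ≤ Nat.card F) {z : Fin 3 → F} (hz0 : z ≠ 0)
    (hz : z ⬝ᵥ z = 0) {α β : Fin 3 → F} (hu : Qm F (vecMulVec α z) = 0)
    {a : Matrix (Fin 3) (Fin 3) F} (ha : polar (Qm F) (vecMulVec α z) a = 0)
    (hab : a = vecMulVec β z) : siegel (Qm F) hu ha ∈ M := by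
  obtain ⟨κ, hκ⟩ := hM.swap
  have hκκ : mat κ * (mat κ)ᵀ = 1 := mul_eq_one_comm.1 (transpose_mul_mat two0 κ)
  set L : Matrix (Fin 3) (Fin 3) F := (2 : F) • (vecMulVec β α - vecMulVec α β) with hL
  obtain ⟨g, hg, hgX⟩ := hM.sk_all hC hq hz0 hz (K := ((mat κ)ᵀ * L * mat κ)ᵀ) (by
    simp [hL, transpose_mul, transpose_vecMulVec, mul_assoc]
    simp only [Matrix.mul_sub, Matrix.sub_mul]
    module)
  have hm : G κ 1 * sw * g * (G κ 1 * sw)⁻¹ ∈ M := mul_mem (mul_mem hκ hg) (inv_mem hκ)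
  convert hm using 1
  refine extm fun X => ?_
  subst hab
  have hr : (G κ 1 * sw * g * (G κ 1 * sw)⁻¹).1 X = X + L * X * vecMulVec z z := by
    rw [Gsw_inv, inv_one, mul_applym, mul_applym, mul_applym, mul_applym, sw_apply X, G_apply 1 κ⁻¹,
      mat_one, one_mul, hgX, sw_apply, G_apply, mat_one, transpose_one, mul_one, mat_inv two0]
    simp only [transpose_add, Matrix.mul_add, transpose_mul, transpose_transpose, transpose_vecMulVec]
    simp only [← mul_assoc, hκκ, one_mul]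
    rw [mul_assoc L, hκκ, mul_one]
  rw [hr, siegel_apply, polar_vmv, polar_vmv, Qm_vmv, hz, hL, Matrix.smul_mul, Matrix.smul_mul,
    Matrix.sub_mul, Matrix.sub_mul, vmv_mul_mul, vmv_mul_mul]
  module

/-- The centre at `z ⊗ z`. -/
lemma centre (hC : ColFull M) (hq : 5 ≤ Nat.card F) {z f h : Fin 3 → F} (hF : Frame3 z f h) :
    vecMulVec z z ∈ GeoClasses.siegelCentres (Qm F) M := by
  have hp : Qm F (vecMulVec z z) = 0 := by rw [Qm_vmv, hF.zz, mul_zero]
  have hz0 : z ≠ 0 := fun h0 => one_ne_zero (α := F) (by rw [← hF.zf, h0, zero_dotProduct])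
  have hf0 : f ≠ 0 := fun h0 => one_ne_zero (α := F) (by rw [← hF.zf, h0, dotProduct_zero])
  have hfz : f ⬝ᵥ z = 1 := by rw [dotProduct_comm]; exact hF.zf
  have hhz : h ⬝ᵥ z = 0 := by rw [dotProduct_comm]; exact hF.zh
  have hhf : h ⬝ᵥ f = 0 := by rw [dotProduct_comm]; exact hF.fh
  set R := rootSpace M hp with hR
  have hl : ∀ β, vecMulVec z β ∈ R := fun β =>
    ⟨by rw [polar_vmv_vmv, hF.zz, zero_mul, mul_zero], fun r hr =>
      hM.siegel_left_mem hC hq hz0 hF.zz hp hr (vecMulVec_smul r z β).symm⟩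
  have hr : ∀ β, vecMulVec β z ∈ R := fun β =>
    ⟨by rw [polar_vmv_vmv, hF.zz, mul_zero, mul_zero], fun r hr =>
      hM.siegel_right_mem hC hq hz0 hF.zz hp hr (smul_vecMulVec r β z).symm⟩
  -- moving `z ⊗ f`
  have hmove : ∀ z', z' ≠ 0 → z' ⬝ᵥ z' = 0 → (z' ⬝ᵥ z) • vecMulVec z' h ∈ R := by
    intro z' hz'0 hz'
    have hu : Qm F (vecMulVec z' z) = 0 := by rw [Qm_vmv, hz', zero_mul]
    have ha : polar (Qm F) (vecMulVec z' z) (vecMulVec z' h) = 0 := by
      rw [polar_vmv_vmv, hz', zero_mul, mul_zero]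
    have hg := hM.siegel_left_mem hC hq hz'0 hz' hu ha rfl
    have hfix : (siegel (Qm F) hu ha).1 (vecMulVec z z) = vecMulVec z z := by
      rw [siegel_apply, polar_vmv_vmv, polar_vmv_vmv, hF.zz, hhz]; simp
    have hm := map_rootSpace hp hp hg hfix (hl f)
    rw [siegel_apply, polar_vmv_vmv, polar_vmv_vmv, Qm_vmv, hz', hF.zf, hhf] at hm
    have := R.sub_mem hm (hl f)
    have h2 := R.smul_mem (2 : F)⁻¹ this
    convert h2 using 1
    simp only [mul_one, mul_zero, zero_mul, zero_smul, sub_zero, add_sub_cancel_left, smul_smul]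
    rw [← mul_assoc, inv_mul_cancel₀ two0, one_mul]
  have hfh : vecMulVec f h ∈ R := by simpa [hfz] using hmove f hf0 hF.ff
  have hhh : vecMulVec h h ∈ R := by
    set z' := z + h + (2 : F)⁻¹ • f with hz'
    have hdz : z' ⬝ᵥ z = (2 : F)⁻¹ := by
      simp [hz', add_dotProduct, smul_dotProduct, hF.zz, hhz, hfz]
    have hq' : z' ⬝ᵥ z' = 0 := by
      simp [hz', add_dotProduct, dotProduct_add, smul_dotProduct, dotProduct_smul, hF.zz, hhz, hfz,
        hhf, hF.zh, hF.fh, hF.zf, hF.ff, hF.hh]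
      field_simp [two0 (F := F)]
      ring
    have h0 : z' ≠ 0 := fun h0 => inv_ne_zero (two0 (F := F)) (by rw [← hdz, h0, zero_dotProduct])
    have h1 := R.smul_mem (2 : F) (hmove z' h0 hq')
    rw [hdz, smul_smul, mul_inv_cancel₀ two0, one_smul, hz', add_vecMulVec, add_vecMulVec,
      smul_vecMulVec] at h1
    have := R.sub_mem (R.sub_mem h1 (hl h)) (R.smul_mem (2 : F)⁻¹ hfh)
    convert this using 1
    module
  have hhf' : vecMulVec h f ∈ R := by
    have hu : Qm F (vecMulVec z f) = 0 := by rw [Qm_vmv, hF.ff, mul_zero]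
    have ha : polar (Qm F) (vecMulVec z f) (vecMulVec h f) = 0 := by
      rw [polar_vmv_vmv, hF.ff, mul_zero, mul_zero]
    have hg := hM.siegel_right_mem hC hq hf0 hF.ff hu ha rfl
    have hfix : (siegel (Qm F) hu ha).1 (vecMulVec z z) = vecMulVec z z := by
      rw [siegel_apply, polar_vmv_vmv, polar_vmv_vmv, hF.zz, hhz]; simp
    have hm := map_rootSpace hp hp hg hfix (hr f)
    rw [siegel_apply, polar_vmv_vmv, polar_vmv_vmv, Qm_vmv, hF.ff, hF.zf, hfz, hhf] at hm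
    have h2 := R.smul_mem (2 : F)⁻¹ (R.sub_mem hm (hr f))
    convert h2 using 1
    simp only [mul_one, mul_zero, zero_mul, zero_smul, sub_zero, add_sub_cancel_left, smul_smul]
    rw [inv_mul_cancel₀ two0, one_smul]
  have hone : (1 : Matrix (Fin 3) (Fin 3) F) = vecMulVec z f + vecMulVec f z - vecMulVec h h := by
    refine Matrix.ext_iff_mulVec.2 fun v => ?_
    conv_lhs => rw [one_mulVec, hF.expand v]
    simp [sub_mulVec, add_mulVec, vecMulVec_mulVec, dotProduct_comm v]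
  refine ⟨hp, fun a ha => ?_⟩
  have h0 : z ⬝ᵥ a *ᵥ z = 0 := by
    rw [polar_vmv, mul_eq_zero] at ha
    exact ha.resolve_left two0
  have aux : ∀ T : Submodule F (Matrix (Fin 3) (Fin 3) F), (∀ β, vecMulVec z β ∈ T) →
      (∀ β, vecMulVec β z ∈ T) → vecMulVec f h ∈ T → vecMulVec h h ∈ T → vecMulVec h f ∈ T →
      a ∈ T := by
    intro T tl tr tfh thh thf
    rw [show a = (vecMulVec z f + vecMulVec f z - vecMulVec h h) * a *
      (vecMulVec z f + vecMulVec f z - vecMulVec h h) by rw [← hone, one_mul, mul_one]]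
    simp only [Matrix.add_mul, Matrix.mul_add, Matrix.sub_mul, Matrix.mul_sub, vmv_mul_mul, h0,
      zero_smul, add_zero]
    repeat' first
      | exact T.zero_mem | refine T.add_mem ?_ ?_ | refine T.sub_mem ?_ ?_
      | exact T.smul_mem _ (tl _) | exact T.smul_mem _ (tr _) | exact T.smul_mem _ tfh
      | exact T.smul_mem _ thh | exact T.smul_mem _ thf
  have haR : a ∈ R := aux R hl hr hfh hhh hhf'
  have := haR.2 1 (by rw [one_smul]; exact ha)
  rwa [siegel_congr (Qm F) _ _ hp ha rfl (one_smul F a)] at this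

/-- An element acting on one column alone gives the whole group. -/
theorem not_colFull (hq : 5 ≤ Nat.card F) : ¬ ColFull M := by
  intro hC
  obtain ⟨z, f, h, hF⟩ := exists_frame3 (F := F) two0
  refine hM.bad (GeoClasses.commutator_le_of_centre_pair (bnondegm two0) ?_ (hM.centre hC hq hF)
    (hM.centre hC hq hF.symm) ?_)
  · rw [Module.finrank_matrix, Module.finrank_self, Fintype.card_fin]; norm_num
  · rw [polar_vmv_vmv, dotProduct_comm f z, hF.zf, one_mul, mul_one]; exact two0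

end Hyp

end Cfsg.Agent.MaxSub.TensorSquareThree
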